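import Mathlib
import Cfsg.Agent.Helper13.TIDefs
import Cfsg.Agent.Helper58.TIBLKE
import Cfsg.Agent.Helper41.TITYPES
import Cfsg.Agent.Helper3.TIMULTFREE
import Cfsg.Agent.Helper70.TIPI
import Cfsg.Agent.Helper70.TIGEN

set_option autoImplicit false

/-!
# S5955 (helper13), piece MODC (helper53): the multiplicity-free unitary model

The module `K^u ⊕ F^{2e'}` (`K` the extension of degree `2e`), with form
`sumForm (piForm _ (unitForm σ c)) (stdForm e')` and the isometry acting on the `j`-th block by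
multiplication with `ω ^ s j` (pairwise non-conjugate powers) and trivially on `F^{2e'}`: every
invariant totally isotropic subspace lies in `F^{2e'}`, so has dimension at most `e'`.
-/

namespace Cfsg.Agent.Helper53.TI5955

open Module Polynomial
open Cfsg.Agent.Helper42.SpForm Cfsg.Agent.Helper42.SpGroup Cfsg.Agent.Helper42.SpModels
open Cfsg.Agent.Helper13.TIsp Cfsg.Agent.Helper90.BG
open Cfsg.Agent.Helper58.TI5955 Cfsg.Agent.Helper41.TI5955 Cfsg.Agent.Helper3.TI5955
open Cfsg.Agent.Helper70.TI5955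

theorem timodc_prodMap_pow {R M M₂ : Type*} [Semiring R] [AddCommMonoid M] [AddCommMonoid M₂]
    [Module R M] [Module R M₂] (A : Module.End R M) (B : Module.End R M₂) (k : ℕ) :
    (A.prodMap B) ^ k = (A ^ k).prodMap (B ^ k) := by
  induction k with
  | zero => rw [pow_zero, pow_zero, pow_zero, LinearMap.prodMap_one]
  | succ k ih => rw [pow_succ, ih, pow_succ, pow_succ, LinearMap.prodMap_mul]

section models

variable {F : Type*} [Field F]

variable (F) [Fintype F]

/-- MODC (uses BLKE, TYPES, MULTFREE, PI, GEN; map `(piMap fun j => mulLeft (ω ^ s j)).prodMap 1`) -/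
theorem mod_c (p : ℕ) [Fact p.Prime] [CharP F p] (e : ℕ) [NeZero (2 * e)] (he : 1 ≤ e)
    (r : ℕ) [Fact r.Prime] (hr2 : 2 < r) (hrF : (r : F) ≠ 0) (hr : r ∣ Fintype.card F ^ e + 1)
    (hord : orderOf ((Fintype.card F : ℕ) : ZMod r) = 2 * e) (u e' : ℕ) (hu : 1 ≤ u)
    (hut : u ≤ (r - 1) / (2 * e)) :
    ∃ (B : LinearMap.BilinForm F
          ((Fin u → FiniteField.Extension F p (2 * e)) × (Fin e' ⊕ Fin e' → F)))
      (T : Module.End F ((Fin u → FiniteField.Extension F p (2 * e)) × (Fin e' ⊕ Fin e' → F))),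
      (∀ v, B v v = 0) ∧ (∀ v, (∀ w, B v w = 0) → v = 0) ∧ Preserves B T ∧ T ^ r = 1 ∧ T ≠ 1 ∧
        ∀ W : Submodule F ((Fin u → FiniteField.Extension F p (2 * e)) × (Fin e' ⊕ Fin e' → F)),
          TI B W → W.map T ≤ W → finrank F W ≤ e' := by
  obtain ⟨σ, c, ω, halt, hnd, hωr, hω1, hωσ⟩ := blk_even F p e he r hr2 hr
  obtain ⟨s, hs1, hsdeg, hsne⟩ := ti_types (F := F) r hrF ω hωr hω1 u (by rw [hord]; exact hut)
  refine ⟨sumForm (piForm (Fin u) (unitForm F (FiniteField.Extension F p (2 * e)) σ c))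
      (stdForm e'),
    (piMap (fun j => LinearMap.mulLeft F (ω ^ s j))).prodMap
      (1 : Module.End F (Fin e' ⊕ Fin e' → F)), ?_, ?_, ?_, ?_, ?_, ?_⟩
  · exact sumForm_alt _ _ (pi_alt _ halt) (stdForm_self e')
  · exact sumForm_nondeg _ _ (pi_nondeg _ hnd) (stdForm_nondeg e')
  · refine preserves_prodMap (pi_preserves _ _ (fun j => preserves_mulLeft F _ σ c _ ?_))
      (preserves_one _)
    rw [map_pow, ← mul_pow, hωσ, one_pow]
  · rw [timodc_prodMap_pow, pi_pow, one_pow]
    have h1 : (fun j => LinearMap.mulLeft F (ω ^ s j) ^ r) =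
        fun _ : Fin u => (1 : Module.End F (FiniteField.Extension F p (2 * e))) := by
      funext j
      rw [LinearMap.pow_mulLeft, pow_right_comm, hωr, one_pow, LinearMap.mulLeft_one]
      rfl
    rw [h1, pi_one, LinearMap.prodMap_one]
  · intro h
    have hj := pi_ne_one (fun j => LinearMap.mulLeft F (ω ^ s j)) (⟨0, hu⟩ : Fin u) (by
      intro h1
      have h2 := congrArg (fun f => f (1 : FiniteField.Extension F p (2 * e))) h1
      simp only [LinearMap.mulLeft_apply, mul_one, Module.End.one_apply] at h2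
      exact hs1 _ h2)
    apply hj
    apply LinearMap.ext
    intro x
    have h3 := congrArg (fun f => (f (x, (0 : Fin e' ⊕ Fin e' → F))).1) h
    simpa using h3
  · intro W hTI hW
    have h0 := ti_multfree (unitForm F (FiniteField.Extension F p (2 * e)) σ c) (stdForm e') hnd
      (fun j => ω ^ s j) hs1
      (fun j => by rw [hsdeg, hord, FiniteField.finrank_extension]) hsne W hTI hW
    have h2 := prod_ti (piForm (Fin u) (unitForm F (FiniteField.Extension F p (2 * e)) σ c))
      (stdForm e') (stdForm_self e') (stdForm_nondeg e') W hTI h0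
    have h3 : finrank F (Fin e' ⊕ Fin e' → F) = 2 * e' := by
      rw [Module.finrank_fintype_fun_eq_card, Fintype.card_sum, Fintype.card_fin, two_mul]
    omega

end models

end Cfsg.Agent.Helper53.TI5955
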