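import Mathlib
import Cfsg.Agent.Helper71.T4Defs

/-!
# CALL S5637 (helper71), PIECE N1 (helper53): core, with the statements of LX3, LX2, SC as
hypotheses.
-/

set_option autoImplicit false

namespace Cfsg.Agent.Helper53.T4N1

open Matrix Cfsg.Agent.Helper71.T4
open scoped Kronecker

variable {F : Type*} [Field F] {a b : ℕ}

theorem one_add_kron_mul (X Y : Matrix (Fin a) (Fin a) F) (V : Matrix (Fin b) (Fin b) F)
    (hV : V * V = 0) :
    (1 + X ⊗ₖ V) * (1 + Y ⊗ₖ V) = 1 + (X + Y) ⊗ₖ V := by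
  rw [add_mul, mul_add, mul_add, one_mul, mul_one, one_mul, ← Matrix.mul_kronecker_mul, hV,
    Matrix.kronecker_zero, add_zero, Matrix.add_kronecker]
  abel

theorem conj_left_kron (A A' X : Matrix (Fin a) (Fin a) F) (V : Matrix (Fin b) (Fin b) F)
    (hA : A * A' = 1) :
    (A ⊗ₖ (1 : Matrix (Fin b) (Fin b) F)) * (1 + X ⊗ₖ V) * (A' ⊗ₖ (1 : Matrix (Fin b) (Fin b) F))
      = 1 + (A * X * A') ⊗ₖ V := by
  have e1 : (A ⊗ₖ (1 : Matrix (Fin b) (Fin b) F)) * (1 + X ⊗ₖ V) =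
      A ⊗ₖ (1 : Matrix (Fin b) (Fin b) F) + (A * X) ⊗ₖ V := by
    rw [mul_add, mul_one, ← Matrix.mul_kronecker_mul, one_mul]
  rw [e1, add_mul, ← Matrix.mul_kronecker_mul, ← Matrix.mul_kronecker_mul, hA, mul_one, mul_one,
    Matrix.one_kronecker_one]

theorem conj_right_kron (X : Matrix (Fin a) (Fin a) F) (B B' V : Matrix (Fin b) (Fin b) F)
    (hB : B * B' = 1) :
    ((1 : Matrix (Fin a) (Fin a) F) ⊗ₖ B) * (1 + X ⊗ₖ V) * ((1 : Matrix (Fin a) (Fin a) F) ⊗ₖ B')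
      = 1 + X ⊗ₖ (B * V * B') := by
  have e1 : ((1 : Matrix (Fin a) (Fin a) F) ⊗ₖ B) * (1 + X ⊗ₖ V) =
      (1 : Matrix (Fin a) (Fin a) F) ⊗ₖ B + X ⊗ₖ (B * V) := by
    rw [mul_add, mul_one, ← Matrix.mul_kronecker_mul, one_mul]
  rw [e1, add_mul, ← Matrix.mul_kronecker_mul, ← Matrix.mul_kronecker_mul, hB, mul_one, mul_one,
    Matrix.one_kronecker_one]

/-- The additive group `𝒳 = {X | 1 + X ⊗ (w βᵀ) ∈ M}`. -/
def tvSub (M : Subgroup (GL (Fin a × Fin b) F)) (w β : Fin b → F) (h : β ⬝ᵥ w = 0) :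
    AddSubgroup (Matrix (Fin a) (Fin a) F) where
  carrier := {X | InM M (1 + X ⊗ₖ vecMulVec w β)}
  zero_mem' := by
    show InM M (1 + (0 : Matrix (Fin a) (Fin a) F) ⊗ₖ vecMulVec w β)
    rw [Matrix.zero_kronecker, add_zero]
    exact InM.one M
  add_mem' := by
    intro X Y hX hY
    show InM M (1 + (X + Y) ⊗ₖ vecMulVec w β)
    have h1 := InM.mul hX hY
    rwa [one_add_kron_mul X Y _ (vecMulVec_sq w β h)] at h1
  neg_mem' := by
    intro X hX
    show InM M (1 + (-X) ⊗ₖ vecMulVec w β)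
    apply InM.inv hX
    rw [one_add_kron_mul X (-X) _ (vecMulVec_sq w β h), add_neg_cancel, Matrix.zero_kronecker,
      add_zero]

theorem mem_tvSub (M : Subgroup (GL (Fin a × Fin b) F)) (w β : Fin b → F) (h : β ⬝ᵥ w = 0)
    (X : Matrix (Fin a) (Fin a) F) :
    X ∈ tvSub M w β h ↔ InM M (1 + X ⊗ₖ vecMulVec w β) := Iff.rfl

theorem tvSub_conj (M : Subgroup (GL (Fin a × Fin b) F)) (hS : HasS M) (w β : Fin b → F)
    (h : β ⬝ᵥ w = 0) (i j : Fin a) (hij : i ≠ j) (c : F) (X : Matrix (Fin a) (Fin a) F)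
    (hX : X ∈ tvSub M w β h) :
    Matrix.transvection i j c * X * Matrix.transvection i j (-c) ∈ tvSub M w β h := by
  rw [mem_tvSub] at hX ⊢
  have hT : Matrix.transvection i j c * Matrix.transvection i j (-c) =
      (1 : Matrix (Fin a) (Fin a) F) := by
    rw [Matrix.transvection_mul_transvection_same i j hij, add_neg_cancel,
      Matrix.transvection_zero]
  have h1 : InM M (Matrix.transvection i j c ⊗ₖ (1 : Matrix (Fin b) (Fin b) F)) :=
    hS _ _ (Matrix.det_transvection_of_ne i j hij c) Matrix.det_one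
  have h2 : InM M (Matrix.transvection i j (-c) ⊗ₖ (1 : Matrix (Fin b) (Fin b) F)) :=
    hS _ _ (Matrix.det_transvection_of_ne i j hij (-c)) Matrix.det_one
  have h3 := InM.mul (InM.mul h1 hX) h2
  rwa [conj_left_kron _ _ X _ hT] at h3

theorem tvSub_smul (M : Subgroup (GL (Fin a × Fin b) F)) (hS : HasS M) (w β : Fin b → F)
    (h : β ⬝ᵥ w = 0)
    (hsc : ∀ μ : F, μ ≠ 0 →
      ∃ hh : Matrix (Fin b) (Fin b) F, hh.det = 1 ∧ hh * vecMulVec w β = μ • (vecMulVec w β * hh))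
    (μ : F) (X : Matrix (Fin a) (Fin a) F) (hX : X ∈ tvSub M w β h) :
    μ • X ∈ tvSub M w β h := by
  by_cases hμ : μ = 0
  · rw [hμ, zero_smul]; exact (tvSub M w β h).zero_mem
  obtain ⟨hh, hdet, hhV⟩ := hsc μ hμ
  rw [mem_tvSub] at hX ⊢
  have hunit : IsUnit hh.det := by rw [hdet]; exact isUnit_one
  have hinv : hh * hh⁻¹ = 1 := Matrix.mul_nonsing_inv hh hunit
  have hdet' : (hh⁻¹).det = 1 := by
    rw [Matrix.det_nonsing_inv, hdet, Ring.inverse_one]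
  have h1 : InM M ((1 : Matrix (Fin a) (Fin a) F) ⊗ₖ hh) := hS _ _ Matrix.det_one hdet
  have h2 : InM M ((1 : Matrix (Fin a) (Fin a) F) ⊗ₖ hh⁻¹) := hS _ _ Matrix.det_one hdet'
  have h3 := InM.mul (InM.mul h1 hX) h2
  rw [conj_right_kron X hh hh⁻¹ _ hinv] at h3
  have e : hh * vecMulVec w β * hh⁻¹ = μ • vecMulVec w β := by
    rw [hhV, Matrix.smul_mul, Matrix.mul_assoc, hinv, Matrix.mul_one]
  rw [e, Matrix.kronecker_smul, ← Matrix.smul_kronecker] at h3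
  exact h3

/-- PIECE N1 with the statements of LX3 (for `Fin a`), LX2 and SC as hypotheses. -/
theorem tvC_of_nonscalar_core
    (hlx3 : 3 ≤ a → ∀ (X' : AddSubgroup (Matrix (Fin a) (Fin a) F)),
      (∀ (i j : Fin a), i ≠ j → ∀ (c : F) (X : Matrix (Fin a) (Fin a) F), X ∈ X' →
        Matrix.transvection i j c * X * Matrix.transvection i j (-c) ∈ X') →
      ∀ (X : Matrix (Fin a) (Fin a) F), X ∈ X' →
      (¬ ∃ c : F, X = c • (1 : Matrix (Fin a) (Fin a) F)) →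
      ∀ (i j : Fin a), i ≠ j → ∀ c : F, Matrix.single i j c ∈ X')
    (hlx2 : ∀ (X' : AddSubgroup (Matrix (Fin 2) (Fin 2) F)),
      (∀ (i j : Fin 2), i ≠ j → ∀ (c : F) (X : Matrix (Fin 2) (Fin 2) F), X ∈ X' →
        Matrix.transvection i j c * X * Matrix.transvection i j (-c) ∈ X') →
      (∀ (c : F) (X : Matrix (Fin 2) (Fin 2) F), X ∈ X' → c • X ∈ X') →
      (∃ l : F, l ≠ 0 ∧ l ≠ 1) →
      ∀ (X : Matrix (Fin 2) (Fin 2) F), X ∈ X' →
      (¬ ∃ c : F, X = c • (1 : Matrix (Fin 2) (Fin 2) F)) →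
      ∀ (i j : Fin 2), i ≠ j → ∀ c : F, Matrix.single i j c ∈ X')
    (hsc : ∀ (w β : Fin b → F), w ≠ 0 → β ≠ 0 → β ⬝ᵥ w = 0 → ∀ μ : F, μ ≠ 0 →
      ∃ hh : Matrix (Fin b) (Fin b) F, hh.det = 1 ∧
        hh * vecMulVec w β = μ • (vecMulVec w β * hh))
    (hq : 3 ≤ a ∨ ∃ l : F, l ≠ 0 ∧ l ≠ 1)
    (M : Subgroup (GL (Fin a × Fin b) F)) (hS : HasS M)
    (C : Matrix (Fin a) (Fin a) F) (w β : Fin b → F) (h : β ⬝ᵥ w = 0) (hw : w ≠ 0) (hβ : β ≠ 0)
    (hC : InM M (1 + C ⊗ₖ vecMulVec w β))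
    (hns : ¬ ∃ c : F, C = c • (1 : Matrix (Fin a) (Fin a) F)) :
    ∀ i j : Fin a, i ≠ j → ∀ c : F, InM M (1 + Matrix.single i j c ⊗ₖ vecMulVec w β) := by
  have hCX : C ∈ tvSub M w β h := hC
  by_cases ha3 : 3 ≤ a
  · intro i j hij c
    exact hlx3 ha3 (tvSub M w β h) (tvSub_conj M hS w β h) C hCX hns i j hij c
  · by_cases ha2 : a = 2
    · subst ha2
      have hl : ∃ l : F, l ≠ 0 ∧ l ≠ 1 := by
        rcases hq with hq | hq
        · omega
        · exact hq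
      intro i j hij c
      exact hlx2 (tvSub M w β h) (tvSub_conj M hS w β h)
        (tvSub_smul M hS w β h (hsc w β hw hβ h)) hl C hCX hns i j hij c
    · exfalso
      apply hns
      have ha1 : a = 0 ∨ a = 1 := by omega
      rcases ha1 with rfl | rfl
      · exact ⟨0, by ext i; exact i.elim0⟩
      · refine ⟨C 0 0, ?_⟩
        ext i j
        fin_cases i
        fin_cases j
        simp

end Cfsg.Agent.Helper53.T4N1
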