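import Mathlib
import Cfsg.Agent.Helper71.SQDefs
import Cfsg.Agent.Helper11.SORT

/-!
# CALL S5867 (helper71), PIECE ET (helper53): the elements `Tac`, `Eay` of `Sp(J)`.
-/

set_option autoImplicit false
set_option linter.unusedVariables false

namespace Cfsg.Agent.Helper53.SQET

open Matrix Cfsg.Agent.Helper71.T4 Cfsg.Agent.Helper71.SO Cfsg.Agent.Helper71.SQ
open scoped Kronecker

variable {F : Type*} [Field F] {m n : ℕ}

open Cfsg.Agent.Helper11.SORT

/-- `bl J` is skew when `Jᵀ = -J`. -/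
theorem et_bl_skew (J : Matrix (Fin m) (Fin m) F) (hJ : Jᵀ = -J) (x y : Fin m → F) :
    bl J x y = -bl J y x := by
  unfold bl
  rw [Matrix.dotProduct_mulVec, ← Matrix.mulVec_transpose, hJ, Matrix.neg_mulVec, neg_dotProduct,
    dotProduct_comm]

/-- `bl J` is alternating when `Jᵀ = -J` and `2 ≠ 0`. -/
theorem et_bl_self (h2 : (2 : F) ≠ 0) (J : Matrix (Fin m) (Fin m) F) (hJ : Jᵀ = -J)
    (x : Fin m → F) : bl J x x = 0 := by
  have h := et_bl_skew J hJ x x
  have h' : (2 : F) * bl J x x = 0 := by linear_combination h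
  rcases mul_eq_zero.1 h' with h0 | h0
  · exact absurd h0 h2
  · exact h0

/-! ## Piece ET -/
theorem tac_mulVec (J : Matrix (Fin m) (Fin m) F) (a x : Fin m → F) (c : F) :
    Tac J a c *ᵥ x = x + (c * bl J x a) • a := by
  unfold Tac
  rw [Matrix.add_mulVec, Matrix.one_mulVec, Matrix.smul_mulVec, vmvS_mulVec, smul_smul]

theorem eay_mulVec (J : Matrix (Fin m) (Fin m) F) (a y x : Fin m → F) :
    Eay J a y *ᵥ x = x + bl J x a • y + bl J x y • a := by
  unfold Eay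
  rw [Matrix.add_mulVec, Matrix.add_mulVec, Matrix.one_mulVec, vmvS_mulVec, vmvS_mulVec]

theorem eay_isom (h2 : (2 : F) ≠ 0) (J : Matrix (Fin m) (Fin m) F) (hJ : Jᵀ = -J)
    (a y : Fin m → F) (hay : bl J a y = 0) : (Eay J a y)ᵀ * J * Eay J a y = J := by
  apply bl_ext
  intro x x'
  rw [bl_conj, eay_mulVec, eay_mulVec]
  simp only [bl_add_left, bl_add_right, bl_smul_left, bl_smul_right]
  have hya : bl J y a = 0 := by rw [et_bl_skew J hJ, hay, neg_zero]
  rw [et_bl_self h2 J hJ a, et_bl_self h2 J hJ y, hay, hya, et_bl_skew J hJ y x',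
    et_bl_skew J hJ a x']
  ring

theorem tac_eq_eay (h2 : (2 : F) ≠ 0) (J : Matrix (Fin m) (Fin m) F) (a : Fin m → F) (c : F) :
    Tac J a c = Eay J a ((2⁻¹ * c) • a) := by
  apply mv_ext
  intro x
  rw [tac_mulVec, eay_mulVec, bl_smul_right, smul_smul, add_assoc, ← add_smul]
  congr 2
  field_simp
  ring

theorem eroot_inM (h2 : (2 : F) ≠ 0) (J : Matrix (Fin m) (Fin m) F) (hJ : Jᵀ = -J)
    (S : Matrix (Fin n) (Fin n) F) (M : Subgroup (GL (Fin m × Fin n) F)) (hH : HasHG J S M)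
    (a y : Fin m → F) (hay : bl J a y = 0) :
    InM M (Eay J a y ⊗ₖ (1 : Matrix (Fin n) (Fin n) F)) := by
  apply hH (Eay J a y) 1 1 1
  · rw [one_smul]; exact eay_isom h2 J hJ a y hay
  · simp
  · simp

theorem troot_inM (h2 : (2 : F) ≠ 0) (J : Matrix (Fin m) (Fin m) F) (hJ : Jᵀ = -J)
    (S : Matrix (Fin n) (Fin n) F) (M : Subgroup (GL (Fin m × Fin n) F)) (hH : HasHG J S M)
    (a : Fin m → F) (c : F) :
    InM M (Tac J a c ⊗ₖ (1 : Matrix (Fin n) (Fin n) F)) := by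
  rw [tac_eq_eay h2]
  apply eroot_inM h2 J hJ S M hH
  rw [bl_smul_right, et_bl_self h2 J hJ a, mul_zero]

/-- `Tac J a c` is an isometry of `J`. -/
theorem et_tac_isom (h2 : (2 : F) ≠ 0) (J : Matrix (Fin m) (Fin m) F) (hJ : Jᵀ = -J)
    (a : Fin m → F) (c : F) : (Tac J a c)ᵀ * J * Tac J a c = J := by
  rw [tac_eq_eay h2]
  apply eay_isom h2 J hJ
  rw [bl_smul_right, et_bl_self h2 J hJ a, mul_zero]

end Cfsg.Agent.Helper53.SQET
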