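import Mathlib
import Cfsg.Agent.Helper71.SQDefs
import Cfsg.Agent.Helper11.SORT
import Cfsg.Agent.Helper53.SQET

/-!
# CALL S5867 (helper71), PIECE TA (helper53): partners and transitivity for an alternating form.
-/

set_option autoImplicit false
set_option linter.unusedVariables false

namespace Cfsg.Agent.Helper53.SQTA

open Matrix Cfsg.Agent.Helper71.T4 Cfsg.Agent.Helper71.SO Cfsg.Agent.Helper71.SQ
open scoped Kronecker

variable {F : Type*} [Field F] {m n : ℕ}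

open Cfsg.Agent.Helper11.SORT Cfsg.Agent.Helper53.SQET

/-! ## Piece TA -/
theorem alt_partner (J : Matrix (Fin m) (Fin m) F) (hdet : J.det ≠ 0)
    (a : Fin m → F) (ha : a ≠ 0) : ∃ a₁ : Fin m → F, bl J a a₁ = 1 := by
  have hu : IsUnit J.det := isUnit_iff_ne_zero.mpr hdet
  have hne : Matrix.vecMul a J ≠ 0 := by
    intro h1
    apply ha
    have h2 := congrArg (fun v => Matrix.vecMul v J⁻¹) h1
    simp only [Matrix.vecMul_vecMul, Matrix.zero_vecMul] at h2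
    rwa [Matrix.mul_nonsing_inv J hu, Matrix.vecMul_one] at h2
  obtain ⟨w, hw⟩ := exists_dot_eq_one (Matrix.vecMul a J) hne
  refine ⟨w, ?_⟩
  unfold bl
  rw [Matrix.dotProduct_mulVec]
  exact hw

/-- nondegeneracy -/
theorem ta_nondeg (J : Matrix (Fin m) (Fin m) F) (hdet : J.det ≠ 0)
    (z : Fin m → F) (hz : ∀ w, bl J z w = 0) : z = 0 := by
  by_contra hne
  obtain ⟨w, hw⟩ := alt_partner J hdet z hne
  rw [hz w] at hw
  exact zero_ne_one hw

/-- If `a ≠ 0` and `y` is not a multiple of `a`, some `w ⟂ a` has `bl J y w ≠ 0`. -/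
theorem ta_sep (J : Matrix (Fin m) (Fin m) F) (hdet : J.det ≠ 0) (a y : Fin m → F) (ha : a ≠ 0)
    (hy : ∀ l : F, y ≠ l • a) : ∃ w : Fin m → F, bl J a w = 0 ∧ bl J y w ≠ 0 := by
  by_contra hcon
  push Not at hcon
  obtain ⟨a₁, ha₁⟩ := alt_partner J hdet a ha
  apply hy (bl J y a₁)
  have hz : y - bl J y a₁ • a = 0 := by
    apply ta_nondeg J hdet
    intro w
    have h1 : bl J a (w - bl J a w • a₁) = 0 := by
      rw [bl_sub_right, bl_smul_right, ha₁, mul_one, sub_self]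
    have h2 := hcon _ h1
    rw [bl_sub_right, bl_smul_right] at h2
    rw [bl_sub_left, bl_smul_left]
    linear_combination h2
  exact sub_eq_zero.1 hz

/-- If `a ≠ 0` and `y` is not a multiple of `a`, some `w ⟂ y` has `bl J a w ≠ 0`. -/
theorem ta_sep' (J : Matrix (Fin m) (Fin m) F) (hdet : J.det ≠ 0) (a y : Fin m → F) (ha : a ≠ 0)
    (hy : ∀ l : F, y ≠ l • a) : ∃ w : Fin m → F, bl J y w = 0 ∧ bl J a w ≠ 0 := by
  by_contra hcon
  push Not at hcon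
  have hy0 : y ≠ 0 := by
    intro h0
    apply hy 0
    rw [h0, zero_smul]
  obtain ⟨y₁, hy₁⟩ := alt_partner J hdet y hy0
  have hz : a - bl J a y₁ • y = 0 := by
    apply ta_nondeg J hdet
    intro w
    have h1 : bl J y (w - bl J y w • y₁) = 0 := by
      rw [bl_sub_right, bl_smul_right, hy₁, mul_one, sub_self]
    have h2 := hcon _ h1
    rw [bl_sub_right, bl_smul_right] at h2
    rw [bl_sub_left, bl_smul_left]
    linear_combination h2
  have haeq : a = bl J a y₁ • y := sub_eq_zero.1 hz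
  have hμ : bl J a y₁ ≠ 0 := by
    intro h0
    apply ha
    rw [haeq, h0, zero_smul]
  apply hy (bl J a y₁)⁻¹
  nth_rewrite 2 [haeq]
  rw [smul_smul, inv_mul_cancel₀ hμ, one_smul]

theorem alt_partner2 (h2 : (2 : F) ≠ 0) (J : Matrix (Fin m) (Fin m) F) (hJ : Jᵀ = -J)
    (hdet : J.det ≠ 0) (a y : Fin m → F) (ha : a ≠ 0) (hay : bl J a y = 0)
    (hy : ∀ l : F, y ≠ l • a) :
    (∃ a₁ : Fin m → F, bl J a a₁ = 1 ∧ bl J y a₁ = 0) ∧
    (∃ y' : Fin m → F, bl J a y' = 0 ∧ bl J y y' = 1) := by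
  constructor
  · obtain ⟨w, hw1, hw2⟩ := ta_sep' J hdet a y ha hy
    refine ⟨(bl J a w)⁻¹ • w, ?_, ?_⟩
    · rw [bl_smul_right, inv_mul_cancel₀ hw2]
    · rw [bl_smul_right, hw1, mul_zero]
  · obtain ⟨w, hw1, hw2⟩ := ta_sep J hdet a y ha hy
    refine ⟨(bl J y w)⁻¹ • w, ?_, ?_⟩
    · rw [bl_smul_right, hw1, mul_zero]
    · rw [bl_smul_right, inv_mul_cancel₀ hw2]

/-- transitivity, non-orthogonal case: a transvection maps `a'` to `a`. -/
theorem ta_trans1 (h2 : (2 : F) ≠ 0) (J : Matrix (Fin m) (Fin m) F) (hJ : Jᵀ = -J)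
    (a a' : Fin m → F) (h : bl J a' a ≠ 0) :
    ∃ A : Matrix (Fin m) (Fin m) F, Aᵀ * J * A = J ∧ A *ᵥ a' = a := by
  refine ⟨Tac J (a - a') (bl J a' a)⁻¹, et_tac_isom h2 J hJ _ _, ?_⟩
  rw [tac_mulVec, bl_sub_right, et_bl_self h2 J hJ a', sub_zero, inv_mul_cancel₀ h, one_smul]
  abel

theorem alt_trans (h2 : (2 : F) ≠ 0) (J : Matrix (Fin m) (Fin m) F) (hJ : Jᵀ = -J)
    (hdet : J.det ≠ 0) (a a' : Fin m → F) (ha : a ≠ 0) (ha' : a' ≠ 0) :
    ∃ A : Matrix (Fin m) (Fin m) F, Aᵀ * J * A = J ∧ A *ᵥ a' = a := by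
  by_cases h : bl J a' a = 0
  · -- go through `z` with `bl J a' z ≠ 0 ≠ bl J z a`
    obtain ⟨z₁, hz₁⟩ := alt_partner J hdet a' ha'
    obtain ⟨z₂, hz₂⟩ := alt_partner J hdet a ha
    have hz₂' : bl J z₂ a = -1 := by rw [et_bl_skew J hJ, hz₂]
    have hex : ∃ z : Fin m → F, bl J a' z ≠ 0 ∧ bl J z a ≠ 0 := by
      by_cases h1 : bl J z₁ a = 0
      · by_cases h3 : bl J a' z₂ = 0
        · refine ⟨z₁ + z₂, ?_, ?_⟩
          · rw [bl_add_right, hz₁, h3, add_zero]; exact one_ne_zero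
          · rw [bl_add_left, h1, hz₂', zero_add]; exact neg_ne_zero.2 one_ne_zero
        · exact ⟨z₂, h3, by rw [hz₂']; exact neg_ne_zero.2 one_ne_zero⟩
      · exact ⟨z₁, by rw [hz₁]; exact one_ne_zero, h1⟩
    obtain ⟨z, hz1, hz2⟩ := hex
    obtain ⟨A₁, hA₁, hA₁'⟩ := ta_trans1 h2 J hJ z a' hz1
    obtain ⟨A₂, hA₂, hA₂'⟩ := ta_trans1 h2 J hJ a z hz2
    refine ⟨A₂ * A₁, ?_, ?_⟩
    · rw [Matrix.transpose_mul]
      calc A₁ᵀ * A₂ᵀ * J * (A₂ * A₁) = A₁ᵀ * (A₂ᵀ * J * A₂) * A₁ := by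
            simp only [Matrix.mul_assoc]
        _ = J := by rw [hA₂, hA₁]
    · rw [← Matrix.mulVec_mulVec, hA₁', hA₂']
  · exact ta_trans1 h2 J hJ a a' h

end Cfsg.Agent.Helper53.SQTA
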