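import Mathlib
import Cfsg.Agent.Helper13.TLDefs

/-!
# CALL S5954 (helper13), PIECE USQ (helper53).
-/

set_option autoImplicit false

namespace Cfsg.Agent.Helper53.TI5954

open Module Polynomial
open Cfsg.Agent.Helper13.TIu Cfsg.Agent.Helper13.TIsp

section field

variable {F : Type*} [Field F] [Fintype F]

/-- USQ -/
theorem usq_dich (q : ℕ) (hq : Fintype.card F = q ^ 2) (hodd : Odd q) (z : F)
    (hz : z ^ (q + 1) = 1) : ∃ lam : F, lam ^ 2 = z ∧ (lam ^ (q + 1) = 1 ∨ lam ^ (q + 1) = -1) := by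
  have hz0 : z ≠ 0 := by
    rintro rfl
    simp at hz
  have hchar : ringChar F ≠ 2 := by
    intro h
    rw [FiniteField.even_card_iff_char_two] at h
    rw [hq] at h
    have h1 : Odd (q ^ 2) := hodd.pow
    rw [Nat.odd_iff] at h1
    omega
  have hsq : IsSquare z := by
    rw [FiniteField.isSquare_iff hchar hz0, hq]
    obtain ⟨k, hk⟩ := hodd
    have h1 : q ^ 2 / 2 = (q + 1) * k := by
      subst hk
      have h2 : (2 * k + 1) ^ 2 = 2 * ((2 * k + 1 + 1) * k) + 1 := by ring
      rw [h2]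
      omega
    rw [h1, pow_mul, hz, one_pow]
  obtain ⟨lam, hlam⟩ := hsq
  refine ⟨lam, by rw [sq, hlam], ?_⟩
  have h1 : lam ^ (q + 1) * lam ^ (q + 1) = 1 := by
    rw [← mul_pow, ← hlam, hz]
  exact mul_self_eq_one_iff.mp h1

end field

end Cfsg.Agent.Helper53.TI5954
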