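import Mathlib
import Cfsg.Agent.Helper13.TLDefs

/-!
# CALL S5954 (helper13), PIECE UARC (helper53).
-/

set_option autoImplicit false

namespace Cfsg.Agent.Helper53.TI5954

open Module Polynomial
open Cfsg.Agent.Helper13.TIu Cfsg.Agent.Helper13.TIsp

/-- UARC (case D): `r ∣ q ^ e - (-1) ^ e ↔ c ∣ e`.  (`e` even: `i ∣ e`; `e` odd: `i ∣ 2 e`, `i ∤ e`.) -/
theorem u_arith_c (q r : ℕ) [Fact r.Prime] (hr2 : 2 < r) (hrq : ¬ r ∣ q) (i c : ℕ)
    (hi : i = orderOf (q : ZMod r))
    (hc : c = if i % 4 = 0 then i else if i % 4 = 2 then i / 2 else 2 * i) :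
    0 < i ∧ 0 < c ∧ ∀ e : ℕ, (r : ℤ) ∣ (q : ℤ) ^ e - (-1) ^ e ↔ c ∣ e := by
  have : Fact (2 < r) := ⟨hr2⟩
  obtain ⟨x, hx⟩ : ∃ x : ZMod r, x = (q : ZMod r) := ⟨_, rfl⟩
  rw [← hx] at hi
  have hx0 : x ≠ 0 := by
    rw [hx]
    intro h
    exact hrq ((ZMod.natCast_eq_zero_iff q r).mp h)
  have hfin : x ^ (r - 1) = 1 := ZMod.pow_card_sub_one_eq_one hx0
  have hof : IsOfFinOrder x := isOfFinOrder_iff_pow_eq_one.mpr ⟨r - 1, by omega, hfin⟩
  have hipos : 0 < i := by
    rw [hi]
    exact hof.orderOf_pos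
  have hord1 : orderOf (-1 : ZMod r) = 2 := by
    rw [orderOf_neg_one, if_neg]
    rw [ZMod.ringChar_zmod_n]
    omega
  have hcx : c = orderOf (-x) := by
    rw [hc]
    rcases Nat.even_or_odd' i with ⟨k, hk | hk⟩
    · have hkpos : 0 < k := by omega
      have hxk : x ^ k = -1 := by
        have h1 : x ^ k * x ^ k = 1 := by
          rw [← pow_add, ← two_mul, ← hk, hi, pow_orderOf_eq_one]
        rcases mul_self_eq_one_iff.mp h1 with h | h
        · exfalso
          exact pow_ne_one_of_lt_orderOf (x := x) (n := k) (by omega) (by rw [← hi]; omega) h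
        · exact h
      have hnx : -x = x ^ (k + 1) := by
        rw [pow_succ, hxk]
        ring
      have hord : orderOf (-x) = i / Nat.gcd i (k + 1) := by
        rw [hnx, orderOf_pow' _ (Nat.succ_ne_zero k), ← hi]
      rw [hord]
      rcases Nat.even_or_odd' k with ⟨j, hj | hj⟩
      · have h4 : i % 4 = 0 := by omega
        rw [if_pos h4]
        have hg : Nat.gcd i (k + 1) = 1 := by
          rw [hk]
          apply Nat.Coprime.mul_left
          · rw [Nat.coprime_two_left]
            exact ⟨j, by omega⟩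
          · simp
        rw [hg, Nat.div_one]
      · have h4 : i % 4 = 2 := by omega
        rw [if_neg (by omega), if_pos h4]
        have hg : Nat.gcd i (k + 1) = 2 := by
          have e1 : i = 2 * (2 * j + 1) := by omega
          have e2 : k + 1 = 2 * (j + 1) := by omega
          rw [e1, e2, Nat.gcd_mul_left]
          have h5 : Nat.gcd (2 * j + 1) (j + 1) = 1 := by
            have h6 : Nat.Coprime (j + (j + 1)) (j + 1) := by simp
            rw [show 2 * j + 1 = j + (j + 1) by ring]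
            exact h6
          rw [h5]
        rw [hg]
    · have h4 : ¬ i % 4 = 0 := by omega
      have h4' : ¬ i % 4 = 2 := by omega
      rw [if_neg h4, if_neg h4']
      have hcop : Nat.Coprime (orderOf (-1 : ZMod r)) (orderOf x) := by
        rw [hord1, ← hi, Nat.coprime_two_left]
        exact ⟨k, hk⟩
      have h5 := (Commute.all (-1 : ZMod r) x).orderOf_mul_eq_mul_orderOf_of_coprime hcop
      rw [neg_one_mul, hord1, ← hi] at h5
      exact h5.symm
  have hcpos : 0 < c := by
    rw [hc]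
    split_ifs <;> omega
  refine ⟨hipos, hcpos, fun e => ?_⟩
  have h1 : ((r : ℤ) ∣ (q : ℤ) ^ e - (-1) ^ e) ↔ x ^ e = (-1) ^ e := by
    rw [← ZMod.intCast_zmod_eq_zero_iff_dvd]
    push_cast
    rw [sub_eq_zero, hx]
  have hnp : (-x) ^ e = (-1) ^ e * x ^ e := neg_pow x e
  rw [h1, hcx, orderOf_dvd_iff_pow_eq_one, hnp]
  constructor
  · intro h
    rw [h, ← mul_pow]
    simp
  · intro h
    have h2 : (-1 : ZMod r) ^ e * ((-1) ^ e * x ^ e) = (-1) ^ e := by rw [h, mul_one]
    rw [← mul_assoc, ← mul_pow] at h2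
    simpa using h2

end Cfsg.Agent.Helper53.TI5954
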