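import Mathlib
import Cfsg.Agent.Helper13.TLDefs

/-!
# CALL S5954 (helper13), PIECE UORD (helper53).
-/

set_option autoImplicit false

namespace Cfsg.Agent.Helper53.TI5954

open Module Polynomial
open Cfsg.Agent.Helper13.TIu Cfsg.Agent.Helper13.TIsp

/-- UORD: the order of `q ^ 2` modulo `r` (`orderOf_pow'`). -/
theorem u_ord_sq (q r : ℕ) :
    orderOf ((q ^ 2 : ℕ) : ZMod r) =
      if Even (orderOf (q : ZMod r)) then orderOf (q : ZMod r) / 2 else orderOf (q : ZMod r) := by
  rw [Nat.cast_pow, orderOf_pow' _ two_ne_zero]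
  split_ifs with h
  · have h1 : Nat.gcd (orderOf (q : ZMod r)) 2 = 2 := Nat.gcd_eq_right (even_iff_two_dvd.mp h)
    rw [h1]
  · rw [Nat.not_even_iff_odd] at h
    have h1 : Nat.gcd (orderOf (q : ZMod r)) 2 = 1 := Nat.coprime_two_right.mpr h
    rw [h1, Nat.div_one]

end Cfsg.Agent.Helper53.TI5954
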