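import Mathlib
import Cfsg.Agent.Helper13.TLDefs

/-!
# CALL S5954 (helper13), PIECE UDARITH (helper53).
-/

set_option autoImplicit false

namespace Cfsg.Agent.Helper53.TI5954

open Module Polynomial
open Cfsg.Agent.Helper13.TIu Cfsg.Agent.Helper13.TIsp

/-- UDARITH (case D). -/
theorem ud_arith (c m n ρ : ℕ) (hc : 0 < c) (hmn : m ≤ n) (hρ : c * ρ ≤ n)
    (hk : m % c ≤ n % c) : ∃ h₁ e₁ : ℕ, h₁ ≤ ρ ∧ e₁ ≤ n - c * ρ ∧ c * h₁ + e₁ = m := by
  have hm := Nat.div_add_mod m c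
  have hn := Nat.div_add_mod n c
  have hρA : ρ ≤ n / c := (Nat.le_div_iff_mul_le hc).mpr (by rw [mul_comm]; exact hρ)
  by_cases h : m / c ≤ ρ
  · refine ⟨m / c, m % c, h, ?_, hm⟩
    have h1 : c * ρ ≤ c * (n / c) := Nat.mul_le_mul_left c hρA
    omega
  · push Not at h
    have h1 : c * ρ ≤ c * (m / c) := Nat.mul_le_mul_left c (le_of_lt h)
    exact ⟨ρ, m - c * ρ, le_refl _, by omega, by omega⟩

end Cfsg.Agent.Helper53.TI5954
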