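import Mathlib
import Cfsg.Agent.Helper13.TLDefs

/-!
# CALL S5954 (helper13), PIECE UI2 (helper53).
-/

set_option autoImplicit false

namespace Cfsg.Agent.Helper53.TI5954

open Module Polynomial
open Cfsg.Agent.Helper13.TIu Cfsg.Agent.Helper13.TIsp

/-- UI2: `i = 2 ↔ r ∣ q + 1` for odd `r`. -/
theorem u_i_two (q r : ℕ) [Fact r.Prime] (hr2 : 2 < r) :
    orderOf (q : ZMod r) = 2 ↔ r ∣ q + 1 := by
  have hord1 : orderOf (-1 : ZMod r) = 2 := by
    rw [orderOf_neg_one, if_neg]
    rw [ZMod.ringChar_zmod_n]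
    omega
  have hdvd : r ∣ q + 1 ↔ (q : ZMod r) = -1 := by
    rw [← ZMod.natCast_eq_zero_iff, Nat.cast_add, Nat.cast_one, add_eq_zero_iff_eq_neg]
  rw [hdvd]
  constructor
  · intro h
    have h1 : (q : ZMod r) ^ 2 = 1 := by
      rw [← h]
      exact pow_orderOf_eq_one _
    have h2 : (q : ZMod r) ≠ 1 := by
      intro h3
      rw [h3, orderOf_one] at h
      omega
    rw [sq] at h1
    rcases mul_self_eq_one_iff.mp h1 with h3 | h3
    · exact absurd h3 h2
    · exact h3
  · intro h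
    rw [h]
    exact hord1

end Cfsg.Agent.Helper53.TI5954
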