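import Mathlib
import Cfsg.Agent.Helper13.TLDefs

/-!
# CALL S5954 (helper13), PIECE USCAL (helper53, doubling).
-/

set_option autoImplicit false

namespace Cfsg.Agent.Helper53.TI5954

open Module Polynomial
open Cfsg.Agent.Helper13.TIu Cfsg.Agent.Helper13.TIsp

/-- USCAL: roots in a group of exponent prime to `r`. -/
theorem u_scal_root {M : Type*} [Monoid M] (z : M) (k r : ℕ) (hr : Nat.Coprime r k)
    (hz : z ^ k = 1) : ∃ z₀ : M, z₀ ^ k = 1 ∧ z₀ ^ r = z := by
  rcases Nat.lt_or_ge 1 k with hk | hk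
  · obtain ⟨m, -, hm⟩ := Nat.exists_mul_mod_eq_one_of_coprime hr hk
    refine ⟨z ^ m, ?_, ?_⟩
    · rw [← pow_mul, mul_comm, pow_mul, hz, one_pow]
    · have h1 := Nat.div_add_mod (r * m) k
      rw [hm] at h1
      rw [← pow_mul, mul_comm m r, ← h1, pow_add, pow_mul, hz, one_pow, one_mul, pow_one]
  · interval_cases k
    · have h1 : r = 1 := by simpa using hr
      exact ⟨z, pow_zero z, by rw [h1, pow_one]⟩
    · rw [pow_one] at hz
      exact ⟨1, one_pow 1, by rw [one_pow, hz]⟩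

end Cfsg.Agent.Helper53.TI5954
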