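import Mathlib
import Cfsg.Agent.Helper13.TLDefs

/-!
# CALL S5954 (helper13), PIECE Cyc (helper53).
-/

set_option autoImplicit false

namespace Cfsg.Agent.Helper53.TI5954

open Module Polynomial
open Cfsg.Agent.Helper13.TIu Cfsg.Agent.Helper13.TIsp

section cyc

variable {G : Type*} [CommGroup G]

/-- in a cyclic group of order `(q - 1) (q + 1)`: `g ^ ((q - 1) j)` with `r ∤ j` is not an `r`-th power -/
theorem u53_not_rth (g : G) (q r : ℕ) (hr : r.Prime) (hN : orderOf g = (q - 1) * (q + 1))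
    (hrq : r ∣ q + 1) (hrq1 : ¬ r ∣ q - 1) (hgen : ∀ x : G, ∃ t : ℕ, g ^ t = x) (j : ℕ)
    (hj : ¬ r ∣ j) (b : G) : b ^ r ≠ g ^ ((q - 1) * j) := by
  intro h
  obtain ⟨t, rfl⟩ := hgen b
  rw [← pow_mul, pow_eq_pow_iff_modEq, hN] at h
  have h2 : r ∣ (q - 1) * j :=
    (h.dvd_iff (Dvd.dvd.mul_left hrq (q - 1))).mp (Dvd.intro_left t rfl)
  rcases (Nat.Prime.dvd_mul hr).mp h2 with h3 | h3
  · exact hrq1 h3
  · exact hj h3

/-- the dichotomy for elements of norm one -/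
theorem u53_dich (g : G) (q r : ℕ) (hr : r.Prime) (hN : orderOf g = (q - 1) * (q + 1))
    (hrq : r ∣ q + 1) (hrq1 : ¬ r ∣ q - 1) (hgen : ∀ x : G, ∃ t : ℕ, g ^ t = x) (z : G)
    (hz : z ^ (q + 1) = 1) :
    (∃ z₀ : G, z₀ ^ (q + 1) = 1 ∧ z₀ ^ r = z) ∨
    ((∀ b : G, b ^ r ≠ z) ∧ ∀ k : ℕ, z ^ k = 1 → r ^ (padicValNat r (q + 1)) ∣ k) := by
  obtain ⟨j, rfl⟩ := hgen z
  rw [← pow_mul, ← orderOf_dvd_iff_pow_eq_one, hN] at hz
  have hj : (q - 1) ∣ j := Nat.dvd_of_mul_dvd_mul_right (Nat.succ_pos q) hz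
  obtain ⟨j₁, rfl⟩ := hj
  by_cases hr1 : r ∣ j₁
  · left
    obtain ⟨j₂, rfl⟩ := hr1
    refine ⟨g ^ ((q - 1) * j₂), ?_, ?_⟩
    · rw [← pow_mul, ← orderOf_dvd_iff_pow_eq_one, hN]
      exact ⟨j₂, by ring⟩
    · rw [← pow_mul]
      congr 1
      ring
  · right
    refine ⟨fun b => u53_not_rth g q r hr hN hrq hrq1 hgen j₁ hr1 b, fun k hk => ?_⟩
    rw [← pow_mul, ← orderOf_dvd_iff_pow_eq_one, hN] at hk
    have hq1 : 0 < q - 1 := Nat.pos_of_ne_zero (fun h0 => hrq1 (by rw [h0]; exact dvd_zero r))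
    have h1 : (q + 1) ∣ j₁ * k := by
      rw [mul_assoc] at hk
      exact Nat.dvd_of_mul_dvd_mul_left hq1 hk
    have h2 : r ^ (padicValNat r (q + 1)) ∣ j₁ * k := dvd_trans pow_padicValNat_dvd h1
    exact (Nat.Coprime.pow_left _ ((Nat.Prime.coprime_iff_not_dvd hr).mpr hr1)).dvd_of_dvd_mul_left h2

/-- an element of norm one of full `r`-part which is not an `r`-th power -/
theorem u53_bad (g : G) (q r : ℕ) [Fact r.Prime] (hN : orderOf g = (q - 1) * (q + 1))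
    (hrq : r ∣ q + 1) (hrq1 : ¬ r ∣ q - 1) (hgen : ∀ x : G, ∃ t : ℕ, g ^ t = x) :
    ∃ z : G, z ^ (q + 1) = 1 ∧ (∀ b : G, b ^ r ≠ z) ∧ z ^ (r ^ (padicValNat r (q + 1))) = 1 := by
  have hr := (Fact.out : r.Prime)
  have hdvd : r ^ (padicValNat r (q + 1)) ∣ q + 1 := pow_padicValNat_dvd
  have hnd : ¬ r ^ (padicValNat r (q + 1) + 1) ∣ q + 1 :=
    pow_succ_padicValNat_not_dvd (Nat.succ_ne_zero q)
  generalize padicValNat r (q + 1) = a at hdvd hnd ⊢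
  obtain ⟨m, hm⟩ := hdvd
  have hrm : ¬ r ∣ m := by
    rintro ⟨m', rfl⟩
    exact hnd ⟨m', by rw [hm, pow_succ]; ring⟩
  refine ⟨g ^ ((q - 1) * m), ?_, u53_not_rth g q r hr hN hrq hrq1 hgen m hrm, ?_⟩
  · rw [← pow_mul, ← orderOf_dvd_iff_pow_eq_one, hN]
    exact ⟨m, by ring⟩
  · rw [← pow_mul, ← orderOf_dvd_iff_pow_eq_one, hN]
    exact ⟨1, by rw [hm]; ring⟩

end cyc

theorem u53_ndvd (q r : ℕ) (hr2 : 2 < r) (hrq : r ∣ q + 1) (hq : 1 ≤ q) : ¬ r ∣ q - 1 := by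
  intro h
  have h2 : r ∣ (q + 1) - (q - 1) := Nat.dvd_sub hrq h
  have h3 : (q + 1) - (q - 1) = 2 := by omega
  rw [h3] at h2
  exact absurd (Nat.le_of_dvd (by norm_num) h2) (by omega)

section field

variable {F : Type*} [Field F] [Fintype F]

theorem u53_gen (q : ℕ) (hq : Fintype.card F = q ^ 2) :
    ∃ g : Fˣ, orderOf g = (q - 1) * (q + 1) ∧ ∀ x : Fˣ, ∃ t : ℕ, g ^ t = x := by
  obtain ⟨g, hg⟩ := IsCyclic.exists_generator (α := Fˣ)
  refine ⟨g, ?_, fun x => ?_⟩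
  · rw [orderOf_eq_card_of_forall_mem_zpowers hg, Nat.card_units, Nat.card_eq_fintype_card, hq]
    have h1 := Nat.sq_sub_sq q 1
    rw [one_pow] at h1
    rw [h1, mul_comm]
  · have h1 := hg x
    rw [← mem_powers_iff_mem_zpowers] at h1
    exact (Submonoid.mem_powers_iff x g).mp h1

theorem u53_q_pos (q : ℕ) (hq : Fintype.card F = q ^ 2) : 1 ≤ q := by
  rcases Nat.eq_zero_or_pos q with h | h
  · exfalso
    rw [h] at hq
    have h1 := Fintype.one_lt_card (α := F)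
    rw [hq] at h1
    norm_num at h1
  · exact h

end field

end Cfsg.Agent.Helper53.TI5954
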