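import Mathlib
import Cfsg.Agent.Helper13.TLDefs
import Cfsg.Agent.Helper53.TLCyc

/-!
# CALL S5954 (helper13), PIECE UBADRNT (helper53).
-/

set_option autoImplicit false

namespace Cfsg.Agent.Helper53.TI5954

open Module Polynomial
open Cfsg.Agent.Helper13.TIu Cfsg.Agent.Helper13.TIsp

section field

variable {F : Type*} [Field F] [Fintype F]

/-- UBADRNT -/
theorem ubadr_nt (q : ℕ) (hq : Fintype.card F = q ^ 2) (r : ℕ) [Fact r.Prime] (hr2 : 2 < r)
    (hrq : r ∣ q + 1) :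
    ∃ z : F, z ^ (q + 1) = 1 ∧ (∀ b : F, b ^ r ≠ z) ∧ z ^ (r ^ (padicValNat r (q + 1))) = 1 := by
  have hr := (Fact.out : r.Prime)
  have hq1 : 1 ≤ q := u53_q_pos q hq
  obtain ⟨g, hN, hgen⟩ := u53_gen (F := F) q hq
  obtain ⟨u, h1, h2, h3⟩ := u53_bad g q r hN hrq (u53_ndvd q r hr2 hrq hq1) hgen
  refine ⟨(u : F), ?_, fun b hb => ?_, ?_⟩
  · rw [← Units.val_pow_eq_pow_val, h1, Units.val_one]
  · have hb0 : b ≠ 0 := by
      rintro rfl
      rw [zero_pow hr.ne_zero] at hb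
      exact u.ne_zero hb.symm
    apply h2 (Units.mk0 b hb0)
    apply Units.ext
    rw [Units.val_pow_eq_pow_val, Units.val_mk0, hb]
  · rw [← Units.val_pow_eq_pow_val, h3, Units.val_one]

end field

end Cfsg.Agent.Helper53.TI5954
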