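import Mathlib
import Cfsg.Agent.Helper13.TLDefs
import Cfsg.Agent.Helper53.TLCyc

/-!
# CALL S5954 (helper13), PIECE URTH (helper53).
-/

set_option autoImplicit false

namespace Cfsg.Agent.Helper53.TI5954

open Module Polynomial
open Cfsg.Agent.Helper13.TIu Cfsg.Agent.Helper13.TIsp

section field

variable {F : Type*} [Field F] [Fintype F]

/-- URTH -/
theorem urth_dich (q : ℕ) (hq : Fintype.card F = q ^ 2) (r : ℕ) [Fact r.Prime] (hr2 : 2 < r)
    (hrq : r ∣ q + 1) (z : F) (hz : z ^ (q + 1) = 1) :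
    (∃ z₀ : F, z₀ ^ (q + 1) = 1 ∧ z₀ ^ r = z) ∨
    ((∀ b : F, b ^ r ≠ z) ∧ ∀ k : ℕ, z ^ k = 1 → r ^ (padicValNat r (q + 1)) ∣ k) := by
  have hr := (Fact.out : r.Prime)
  have hq1 : 1 ≤ q := u53_q_pos q hq
  obtain ⟨g, hN, hgen⟩ := u53_gen (F := F) q hq
  have hz0 : z ≠ 0 := by
    rintro rfl
    simp at hz
  have hu : (Units.mk0 z hz0) ^ (q + 1) = 1 := by
    apply Units.ext
    rw [Units.val_pow_eq_pow_val, Units.val_mk0, hz, Units.val_one]
  rcases u53_dich g q r hr hN hrq (u53_ndvd q r hr2 hrq hq1) hgen (Units.mk0 z hz0) hu with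
    ⟨u₀, h1, h2⟩ | ⟨h1, h2⟩
  · left
    refine ⟨(u₀ : F), ?_, ?_⟩
    · rw [← Units.val_pow_eq_pow_val, h1, Units.val_one]
    · rw [← Units.val_pow_eq_pow_val, h2, Units.val_mk0]
  · right
    refine ⟨fun b hb => ?_, fun k hk => ?_⟩
    · have hb0 : b ≠ 0 := by
        rintro rfl
        rw [zero_pow hr.ne_zero] at hb
        exact hz0 hb.symm
      apply h1 (Units.mk0 b hb0)
      apply Units.ext
      rw [Units.val_pow_eq_pow_val, Units.val_mk0, Units.val_mk0, hb]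
    · apply h2 k
      apply Units.ext
      rw [Units.val_pow_eq_pow_val, Units.val_mk0, hk, Units.val_one]

end field

end Cfsg.Agent.Helper53.TI5954
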