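import Mathlib

/-!
# CALL SL2L (helper2), piece G8: elements of two distinct lines do not commute.
-/

set_option autoImplicit false

namespace Cfsg.Agent.Helper53

open Subgroup

universe u

variable {Γ : Type u} [Group Γ] [Finite Γ]

/-- A subgroup of a group of order `p ^ (n + 1)` with more than `p ^ n` elements is everything. -/
theorem sl2l_h53_eq_of_card_gt {p : ℕ} (hp : p.Prime) {H L : Subgroup Γ} (hHL : H ≤ L) (n : ℕ)
    (hL : Nat.card L = p ^ (n + 1)) (hH : p ^ n < Nat.card H) : H = L := by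
  have hdvd : Nat.card H ∣ p ^ (n + 1) := hL ▸ Subgroup.card_dvd_of_le hHL
  obtain ⟨k, hk, hkc⟩ := (Nat.dvd_prime_pow hp).mp hdvd
  have hnk : n < k := by
    rw [hkc] at hH
    exact (Nat.pow_lt_pow_iff_right hp.one_lt).mp hH
  have hk' : k = n + 1 := by omega
  apply Subgroup.eq_of_le_of_card_ge hHL
  rw [hL, hkc, hk']

/-- A subgroup properly containing a subgroup of order `p ^ n` inside a group of order `p ^ (n + 1)`
is everything. -/
theorem sl2l_h53_eq_of_lt {p : ℕ} (hp : p.Prime) {Z H L : Subgroup Γ} (hZH : Z ≤ H) (hHL : H ≤ L)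
    (n : ℕ) (hZ : Nat.card Z = p ^ n) (hL : Nat.card L = p ^ (n + 1)) {d : Γ} (hd : d ∈ H)
    (hdZ : d ∉ Z) : H = L := by
  apply sl2l_h53_eq_of_card_gt hp hHL n hL
  by_contra hcon
  push Not at hcon
  have : Z = H := Subgroup.eq_of_le_of_card_ge hZH (by rw [hZ]; exact hcon)
  exact hdZ (this ▸ hd)

/-- PIECE G8. -/
theorem sl2l_noncomm {p : ℕ} (hp : p.Prime) {P Z L L₂ : Subgroup Γ} (hPc : Nat.card P = p ^ 3)
    (hZc : Nat.card Z = p) (hZcen : ∀ z ∈ Z, ∀ a ∈ P, z * a = a * z)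
    (hZeq : ∀ a ∈ P, (∀ b ∈ P, a * b = b * a) → a ∈ Z)
    (hZL : Z ≤ L) (hLP : L ≤ P) (hLc : Nat.card L = p ^ 2)
    (hZL₂ : Z ≤ L₂) (hL₂P : L₂ ≤ P) (hL₂c : Nat.card L₂ = p ^ 2) (hne : L ≠ L₂)
    {d d₂ : Γ} (hd : d ∈ L) (hdZ : d ∉ Z) (hd₂ : d₂ ∈ L₂) (hd₂Z : d₂ ∉ Z) :
    d * d₂ ≠ d₂ * d := by
  intro hcomm
  have hdP : d ∈ P := hLP hd
  -- the centralizer of `d`
  have hZC : Z ≤ Subgroup.centralizer ({d} : Set Γ) := by
    intro z hz
    rw [Subgroup.mem_centralizer_iff]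
    intro x hx
    rw [Set.mem_singleton_iff] at hx
    subst hx
    exact (hZcen z hz x hdP).symm
  have hdC : d ∈ Subgroup.centralizer ({d} : Set Γ) := by
    rw [Subgroup.mem_centralizer_iff]
    intro x hx
    rw [Set.mem_singleton_iff] at hx
    subst hx
    rfl
  have hd₂C : d₂ ∈ Subgroup.centralizer ({d} : Set Γ) := by
    rw [Subgroup.mem_centralizer_iff]
    intro x hx
    rw [Set.mem_singleton_iff] at hx
    subst hx
    exact hcomm
  have hZc1 : Nat.card Z = p ^ 1 := by rw [pow_one]; exact hZc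
  -- `L = Z ⊔ ⟨d⟩` and `L₂ = Z ⊔ ⟨d₂⟩`
  have hL : Z ⊔ Subgroup.zpowers d = L :=
    sl2l_h53_eq_of_lt hp le_sup_left (sup_le hZL ((Subgroup.zpowers_le).mpr hd)) 1 hZc1 hLc
      (le_sup_right (a := Z) (Subgroup.mem_zpowers d)) hdZ
  have hL₂ : Z ⊔ Subgroup.zpowers d₂ = L₂ :=
    sl2l_h53_eq_of_lt hp le_sup_left (sup_le hZL₂ ((Subgroup.zpowers_le).mpr hd₂)) 1 hZc1 hL₂c
      (le_sup_right (a := Z) (Subgroup.mem_zpowers d₂)) hd₂Z
  have hLC : L ≤ Subgroup.centralizer ({d} : Set Γ) := by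
    rw [← hL]
    exact sup_le hZC ((Subgroup.zpowers_le).mpr hdC)
  have hL₂C : L₂ ≤ Subgroup.centralizer ({d} : Set Γ) := by
    rw [← hL₂]
    exact sup_le hZC ((Subgroup.zpowers_le).mpr hd₂C)
  -- `L ⊔ L₂ = P`
  obtain ⟨x, hx₂, hxL⟩ : ∃ x ∈ L₂, x ∉ L := by
    by_contra hcon
    push Not at hcon
    exact hne (Subgroup.eq_of_le_of_card_ge hcon (by rw [hLc, hL₂c])).symm
  have hP : L ⊔ L₂ = P :=
    sl2l_h53_eq_of_lt hp le_sup_left (sup_le hLP hL₂P) 2 hLc hPc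
      (le_sup_right (a := L) hx₂) hxL
  have hPC : P ≤ Subgroup.centralizer ({d} : Set Γ) := by
    rw [← hP]
    exact sup_le hLC hL₂C
  apply hdZ
  apply hZeq d hdP
  intro b hb
  have := hPC hb
  rw [Subgroup.mem_centralizer_iff] at this
  exact this d (Set.mem_singleton d)

end Cfsg.Agent.Helper53
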