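import Mathlib

/-!
Helper53: PIECE R of CALL S2607 (helper45).  Retraction onto a central cyclic subgroup by transfer
from two subgroups of coprime index.
-/

set_option autoImplicit false

namespace Cfsg.Agent.Helper53.TriCall

open scoped IsMulCommutative

/-- the transfer of a hom that restricts to the identity on the central element `z` sends
`z` to `z ^ index` -/
theorem transfer_central_pow {G : Type*} [Group G] [Finite G] (z : G)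
    (hzc : ∀ g : G, g * z = z * g) (H : Subgroup G) (h : z ∈ H)
    (ρ : ↥H →* ↥(Subgroup.zpowers z)) (hρ : ρ ⟨z, h⟩ = ⟨z, Subgroup.mem_zpowers z⟩) :
    MonoidHom.transfer ρ z = (⟨z, Subgroup.mem_zpowers z⟩ : ↥(Subgroup.zpowers z)) ^ H.index := by
  have key : ∀ (k : ℕ) (g₀ : G), g₀⁻¹ * z ^ k * g₀ ∈ H → g₀⁻¹ * z ^ k * g₀ = z ^ k := by
    intro k g₀ _
    have hc : g₀ * z ^ k = z ^ k * g₀ := Commute.pow_right (show Commute g₀ z from hzc g₀) k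
    rw [mul_assoc, ← hc, inv_mul_cancel_left]
  rw [MonoidHom.transfer_eq_pow ρ z key]
  have e : (⟨z ^ H.index, MonoidHom.transfer_eq_pow_aux z key⟩ : ↥H) = (⟨z, h⟩ : ↥H) ^ H.index := by
    ext; simp
  rw [e, map_pow, hρ]

/-- PIECE R -/
theorem retract_of_coprime {G : Type*} [Group G] [Finite G] (z : G) (hzc : ∀ g : G, g * z = z * g)
    (H₁ H₂ : Subgroup G) (h1 : z ∈ H₁) (h2 : z ∈ H₂) (hcop : Nat.Coprime H₁.index H₂.index)
    (ρ₁ : ↥H₁ →* ↥(Subgroup.zpowers z)) (hρ₁ : ρ₁ ⟨z, h1⟩ = ⟨z, Subgroup.mem_zpowers z⟩)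
    (ρ₂ : ↥H₂ →* ↥(Subgroup.zpowers z)) (hρ₂ : ρ₂ ⟨z, h2⟩ = ⟨z, Subgroup.mem_zpowers z⟩) :
    ∃ ρ : G →* ↥(Subgroup.zpowers z), ρ z = ⟨z, Subgroup.mem_zpowers z⟩ := by
  obtain ⟨ζ, hζ⟩ : ∃ ζ : ↥(Subgroup.zpowers z), ζ = ⟨z, Subgroup.mem_zpowers z⟩ := ⟨_, rfl⟩
  have t1 := transfer_central_pow z hzc H₁ h1 ρ₁ hρ₁
  have t2 := transfer_central_pow z hzc H₂ h2 ρ₂ hρ₂
  rw [← hζ] at t1 t2 ⊢
  obtain ⟨a, ha⟩ : ∃ a : ℤ, a = Int.gcdA H₁.index H₂.index := ⟨_, rfl⟩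
  obtain ⟨b, hb⟩ : ∃ b : ℤ, b = Int.gcdB H₁.index H₂.index := ⟨_, rfl⟩
  have hbez : (H₁.index : ℤ) * a + (H₂.index : ℤ) * b = 1 := by
    have h := Int.gcd_eq_gcd_ab (H₁.index : ℤ) (H₂.index : ℤ)
    rw [← ha, ← hb] at h
    rw [← h]
    have hg : Int.gcd (H₁.index : ℤ) (H₂.index : ℤ) = 1 := by
      rw [Int.gcd_natCast_natCast]; exact hcop
    rw [hg]; rfl
  refine ⟨(zpowGroupHom a).comp (MonoidHom.transfer ρ₁) *
    (zpowGroupHom b).comp (MonoidHom.transfer ρ₂), ?_⟩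
  rw [MonoidHom.mul_apply, MonoidHom.comp_apply, MonoidHom.comp_apply, t1, t2]
  simp only [zpowGroupHom_apply]
  rw [← zpow_natCast, ← zpow_natCast, ← zpow_mul, ← zpow_mul, ← zpow_add, hbez, zpow_one]

end Cfsg.Agent.Helper53.TriCall
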