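import Mathlib

/-!
Helper53: PIECE S4A of CALL S2607 (helper45).  A group of order 24 with a subgroup `K` of order 8
having a central element `d` one of whose conjugates lies in `K` but is not central in `K` is
isomorphic to the symmetric group of degree 4.
-/

set_option autoImplicit false

namespace Cfsg.Agent.Helper53.TriCall

/-- three distinct elements `1, a, b` of a subgroup -/
theorem s4a_three_le {G : Type*} [Group G] [Finite G] (H : Subgroup G) {a b : G} (ha : a ∈ H)
    (hb : b ∈ H) (ha1 : a ≠ 1) (hb1 : b ≠ 1) (hab : a ≠ b) : 3 ≤ Nat.card H := by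
  classical
  have hsub : ({1, a, b} : Set G) ⊆ (H : Set G) := by
    intro y hy
    rcases hy with rfl | rfl | rfl
    · exact H.one_mem
    · exact ha
    · exact hb
  have h3 : ({1, a, b} : Set G).ncard = 3 := by
    rw [Set.ncard_eq_three]
    exact ⟨1, a, b, Ne.symm ha1, Ne.symm hb1, hab, rfl⟩
  have h4 : ({1, a, b} : Set G).ncard ≤ (H : Set G).ncard :=
    Set.ncard_le_ncard hsub (Set.toFinite _)
  rw [h3] at h4
  exact h4

/-- a normal subgroup centralizing `d` lies in `K` -/
theorem s4a_normal_le {G : Type*} [Group G] [Finite G] (hcard : Nat.card G = 24)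
    (K : Subgroup G) (hK : Nat.card K = 8) (c d t : G) (hc : c ∈ K)
    (hdc : ∀ k ∈ K, k * d = d * k) (hcd : c * (t * d * t⁻¹) ≠ (t * d * t⁻¹) * c)
    (L : Subgroup G) [L.Normal] (hL : ∀ l ∈ L, l * d = d * l) : L ≤ K := by
  have h1 : Nat.card K ∣ Nat.card ↥(L ⊔ K) := Subgroup.card_dvd_of_le le_sup_right
  have h2 : Nat.card ↥(L ⊔ K) ∣ Nat.card G := Subgroup.card_subgroup_dvd_card _
  rw [hK] at h1; rw [hcard] at h2
  obtain ⟨m, hm⟩ := h1
  have hm3 : m ∣ 3 := by
    rw [hm] at h2
    exact Nat.dvd_of_mul_dvd_mul_left (by norm_num : 0 < 8) (by simpa using h2)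
  rcases (Nat.dvd_prime Nat.prime_three).mp hm3 with rfl | rfl
  · have h3 : K = L ⊔ K := by
      apply Subgroup.eq_of_le_of_card_ge le_sup_right
      rw [hm, hK]
    rw [h3]; exact le_sup_left
  · exfalso
    have htop : L ⊔ K = ⊤ := by
      apply Subgroup.eq_top_of_card_eq
      rw [hm, hcard]
    have ht : t ∈ ((L ⊔ K : Subgroup G) : Set G) := by rw [htop]; trivial
    rw [Subgroup.normal_mul] at ht
    obtain ⟨l, hl, k, hk, rfl⟩ := Set.mem_mul.mp ht
    apply hcd
    have e : l * k * d * (l * k)⁻¹ = d := by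
      have e1 := hdc k hk
      have e2 := hL l hl
      calc l * k * d * (l * k)⁻¹ = l * (k * d) * k⁻¹ * l⁻¹ := by group
        _ = l * (d * k) * k⁻¹ * l⁻¹ := by rw [e1]
        _ = (l * d) * l⁻¹ := by group
        _ = d := by rw [e2]; group
    rw [e]; exact hdc c hc

/-- PIECE S4A -/
theorem s4_of_card {G : Type*} [Group G] [Finite G] (hcard : Nat.card G = 24)
    (K : Subgroup G) (hK : Nat.card K = 8) (c d t : G) (hc : c ∈ K) (hd : d ∈ K)
    (hdc : ∀ k ∈ K, k * d = d * k) (htd : t * d * t⁻¹ ∈ K)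
    (hcd : c * (t * d * t⁻¹) ≠ (t * d * t⁻¹) * c) :
    Nonempty (G ≃* Equiv.Perm (Fin 4)) := by
  classical
  have hd1 : d ≠ 1 := by
    intro h
    apply hcd
    rw [h]; simp
  obtain ⟨N, hN⟩ : ∃ N : Subgroup G, N = K.normalCore := ⟨_, rfl⟩
  have hXle : ∀ (L : Subgroup G), L.Normal → (∀ l ∈ L, l * d = d * l) → L ≤ N := by
    intro L hLn hL
    rw [hN]
    exact Subgroup.normal_le_normalCore.mpr (s4a_normal_le hcard K hK c d t hc hdc hcd L hL)
  have hNn : N.Normal := by rw [hN]; exact Subgroup.normalCore_normal K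
  have hNK : N ≤ K := by rw [hN]; exact Subgroup.normalCore_le K
  have hKidx : K.index = 3 := by
    have := Subgroup.card_mul_index K
    rw [hK, hcard] at this
    omega
  have hNidx : N.index ∣ 6 := by
    rw [hN, Subgroup.normalCore_eq_ker, Subgroup.index_ker]
    have h1 : Nat.card ↥(MulAction.toPermHom G (G ⧸ K)).range ∣ Nat.card (Equiv.Perm (G ⧸ K)) :=
      Subgroup.card_subgroup_dvd_card _
    rw [Nat.card_perm] at h1
    have h2 : Nat.card (G ⧸ K) = 3 := hKidx
    rw [h2] at h1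
    exact h1
  have hNcard : Nat.card N = 4 ∨ Nat.card N = 8 := by
    have h1 := Subgroup.card_mul_index N
    rw [hcard] at h1
    have h2 : Nat.card N ∣ 8 := hK ▸ Subgroup.card_dvd_of_le hNK
    have h3 : N.index ≤ 6 := Nat.le_of_dvd (by norm_num) hNidx
    have h4 : Nat.card N ≤ 8 := Nat.le_of_dvd (by norm_num) h2
    have h5 : 4 ≤ Nat.card N := by nlinarith
    interval_cases hh : Nat.card N <;> omega
  -- the conjugate `K₂ = t K t⁻¹`
  obtain ⟨K₂, hK₂⟩ : ∃ K₂ : Subgroup G, K₂ = K.map (MulAut.conj t).toMonoidHom := ⟨_, rfl⟩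
  have hmemK₂ : ∀ x, x ∈ K₂ ↔ t⁻¹ * x * t ∈ K := by
    intro x
    rw [hK₂]
    constructor
    · rintro ⟨k, hk, rfl⟩
      simp only [MulEquiv.coe_toMonoidHom, MulAut.conj_apply]
      have e : t⁻¹ * (t * k * t⁻¹) * t = k := by group
      rw [e]; exact hk
    · intro h
      exact ⟨t⁻¹ * x * t, h, by simp only [MulEquiv.coe_toMonoidHom, MulAut.conj_apply]; group⟩
  have hcK₂ : c ∉ K₂ := by
    intro h
    rw [hmemK₂] at h
    apply hcd
    have e := hdc _ h
    calc c * (t * d * t⁻¹) = t * ((t⁻¹ * c * t) * d) * t⁻¹ := by group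
      _ = t * (d * (t⁻¹ * c * t)) * t⁻¹ := by rw [e]
      _ = t * d * t⁻¹ * c := by group
  have hNK₂ : N ≤ K₂ := by
    intro n hn
    rw [hmemK₂]
    have h := hNn.conj_mem n hn t⁻¹
    rw [inv_inv] at h
    exact hNK h
  have hd₂K₂ : t * d * t⁻¹ ∈ K₂ := by
    rw [hmemK₂]
    have e : t⁻¹ * (t * d * t⁻¹) * t = d := by group
    rw [e]; exact hd
  have hDcard : Nat.card ↥(K ⊓ K₂) ∣ 8 := hK ▸ Subgroup.card_dvd_of_le inf_le_left
  have hDne : Nat.card ↥(K ⊓ K₂) ≠ 8 := by
    intro h
    have h' : K ⊓ K₂ = K := Subgroup.eq_of_le_of_card_ge inf_le_left (by rw [h, hK])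
    have hc' : c ∈ K ⊓ K₂ := by rw [h']; exact hc
    exact hcK₂ (Subgroup.mem_inf.mp hc').2
  have hND : N ≤ K ⊓ K₂ := le_inf hNK hNK₂
  have hND' : Nat.card N ∣ Nat.card ↥(K ⊓ K₂) := Subgroup.card_dvd_of_le hND
  have hD4 : Nat.card ↥(K ⊓ K₂) = 4 ∧ Nat.card N = 4 := by
    have h4 : Nat.card ↥(K ⊓ K₂) ≤ 8 := Nat.le_of_dvd (by norm_num) hDcard
    rcases hNcard with h | h
    · rw [h] at hND'
      interval_cases hh : Nat.card ↥(K ⊓ K₂) <;> omega
    · rw [h] at hND'
      exfalso
      interval_cases hh : Nat.card ↥(K ⊓ K₂) <;> omega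
  have hN4 : Nat.card N = 4 := hD4.2
  have hNeq : N = K ⊓ K₂ := Subgroup.eq_of_le_of_card_ge hND (by rw [hD4.1, hD4.2])
  have hd₂N : t * d * t⁻¹ ∈ N := by rw [hNeq]; exact Subgroup.mem_inf.mpr ⟨htd, hd₂K₂⟩
  have hdN : d ∈ N := by
    have h := hNn.conj_mem _ hd₂N t⁻¹
    rw [inv_inv] at h
    have e : t⁻¹ * (t * d * t⁻¹) * t = d := by group
    rwa [e] at h
  -- Sylow 3-subgroups
  have : Fact (Nat.Prime 3) := ⟨Nat.prime_three⟩
  have hQcard : ∀ Q : Sylow 3 G, Nat.card (Q : Subgroup G) = 3 := by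
    intro Q
    have h1 := Subgroup.card_mul_index (Q : Subgroup G)
    rw [hcard] at h1
    have h2 := Q.not_dvd_index
    obtain ⟨n, hn⟩ := IsPGroup.iff_card.mp Q.2
    have hdvd : Nat.card (Q : Subgroup G) ∣ 24 := ⟨_, h1.symm⟩
    rcases n with _ | _ | n
    · exfalso
      rw [hn] at h1
      simp only [pow_zero, one_mul] at h1
      rw [h1] at h2
      omega
    · rw [hn]; norm_num
    · exfalso
      rw [hn] at hdvd
      have h9 : 9 ∣ 24 := (Dvd.intro_left (3 ^ n) (by ring) : 9 ∣ 3 ^ (n + 1 + 1)).trans hdvd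
      omega
  have hn3 : Nat.card (Sylow 3 G) = 4 := by
    obtain ⟨Q⟩ : Nonempty (Sylow 3 G) := inferInstance
    have h1 := Sylow.card_dvd_index Q
    have hQi : (Q : Subgroup G).index = 8 := by
      have h := Subgroup.card_mul_index (Q : Subgroup G)
      rw [hcard, hQcard Q] at h
      omega
    rw [hQi] at h1
    have h2 := card_sylow_modEq_one 3 G
    have h3 : Nat.card (Sylow 3 G) ≤ 8 := Nat.le_of_dvd (by norm_num) h1
    have h4 : Nat.card (Sylow 3 G) ≠ 1 := by
      intro h
      have hsub : Subsingleton (Sylow 3 G) := (Nat.card_eq_one_iff_unique.mp h).1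
      have hQn : (Q : Subgroup G).Normal := Sylow.normal_of_subsingleton Q
      have hdisj : Disjoint (Q : Subgroup G) N :=
        Subgroup.disjoint_of_coprime_natCard (by rw [hQcard Q, hN4]; norm_num)
      have hQle : (Q : Subgroup G) ≤ N := hXle _ hQn
        (fun l hl => Subgroup.commute_of_normal_of_disjoint _ _ hQn hNn hdisj l d hl hdN)
      have h5 := Subgroup.card_dvd_of_le hQle
      rw [hQcard Q, hN4] at h5
      omega
    unfold Nat.ModEq at h2
    interval_cases hh : Nat.card (Sylow 3 G) <;> omega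
  -- the kernel of the action on the Sylow 3-subgroups
  obtain ⟨M, hM⟩ : ∃ M : Subgroup G, M = (MulAction.toPermHom G (Sylow 3 G)).ker := ⟨_, rfl⟩
  have hMn : M.Normal := by rw [hM]; exact MonoidHom.normal_ker _
  have hMcard : Nat.card M ∣ 6 := by
    obtain ⟨Q⟩ : Nonempty (Sylow 3 G) := inferInstance
    have hle : M ≤ Subgroup.normalizer (Q : Set G) := by
      intro m hm
      rw [hM, MonoidHom.mem_ker] at hm
      rw [← Sylow.smul_eq_iff_mem_normalizer]
      have h := congrArg (fun σ => σ Q) hm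
      simpa using h
    have h1 := Sylow.card_eq_index_normalizer Q
    rw [hn3] at h1
    have h2 := Subgroup.card_mul_index (Subgroup.normalizer (Q : Set G))
    rw [hcard, ← h1] at h2
    have h3 : Nat.card ↥(Subgroup.normalizer (Q : Set G)) = 6 := by omega
    rw [← h3]; exact Subgroup.card_dvd_of_le hle
  have hMNcard : Nat.card ↥(M ⊓ N) ∣ 2 := by
    have h1 : Nat.card ↥(M ⊓ N) ∣ 6 := (Subgroup.card_dvd_of_le inf_le_left).trans hMcard
    have h2 : Nat.card ↥(M ⊓ N) ∣ 4 := hN4 ▸ Subgroup.card_dvd_of_le inf_le_right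
    exact Nat.dvd_gcd h1 h2
  have hMN : M ⊓ N = ⊥ := by
    rw [Subgroup.eq_bot_iff_forall]
    intro v hv
    by_contra hv1
    have h2 : Nat.card ↥(M ⊓ N) ≤ 2 := Nat.le_of_dvd (by norm_num) hMNcard
    have hall : ∀ x ∈ M ⊓ N, x = 1 ∨ x = v := by
      intro x hx
      by_contra hcon
      push Not at hcon
      have h3 := s4a_three_le (M ⊓ N) hv hx hv1 hcon.1 (Ne.symm hcon.2)
      omega
    have hMNn : (M ⊓ N).Normal := Subgroup.normal_inf_normal M N
    have hvc : ∀ g : G, g * v = v * g := by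
      intro g
      rcases hall _ (hMNn.conj_mem v hv g) with h | h
      · exfalso; apply hv1
        have e : v = g⁻¹ * (g * v * g⁻¹) * g := by group
        rw [e, h]; group
      · rw [mul_inv_eq_iff_eq_mul] at h
        exact h
    by_cases hvd : v = d
    · apply hcd
      have e : t * d * t⁻¹ = d := by
        rw [← hvd, hvc t]; group
      rw [e]; exact hdc c hc
    · have hvC : v ∈ N ⊓ Subgroup.centralizer {c} := by
        refine Subgroup.mem_inf.mpr ⟨(Subgroup.mem_inf.mp hv).2, ?_⟩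
        rw [Subgroup.mem_centralizer_singleton_iff]
        exact (hvc c).symm
      have hdC : d ∈ N ⊓ Subgroup.centralizer {c} := by
        refine Subgroup.mem_inf.mpr ⟨hdN, ?_⟩
        rw [Subgroup.mem_centralizer_singleton_iff]
        exact (hdc c hc).symm
      have h3 := s4a_three_le (N ⊓ Subgroup.centralizer {c}) hvC hdC hv1 hd1 hvd
      have h4 : Nat.card ↥(N ⊓ Subgroup.centralizer {c}) ∣ 4 :=
        hN4 ▸ Subgroup.card_dvd_of_le inf_le_left
      have h5 : Nat.card ↥(N ⊓ Subgroup.centralizer {c}) = 4 := by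
        have h6 := Nat.le_of_dvd (by norm_num) h4
        interval_cases hh : Nat.card ↥(N ⊓ Subgroup.centralizer {c}) <;> omega
      have h6 : N ⊓ Subgroup.centralizer {c} = N :=
        Subgroup.eq_of_le_of_card_ge inf_le_left (by rw [h5, hN4])
      have h7 : t * d * t⁻¹ ∈ N ⊓ Subgroup.centralizer {c} := by rw [h6]; exact hd₂N
      apply hcd
      exact (Subgroup.mem_centralizer_singleton_iff.mp (Subgroup.mem_inf.mp h7).2).symm
  have hMbot : M = ⊥ := by
    have hdisj : Disjoint M N := disjoint_iff.mpr hMN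
    have hMle : M ≤ N := hXle M hMn
      (fun l hl => Subgroup.commute_of_normal_of_disjoint M N hMn hNn hdisj l d hl hdN)
    rw [← hMN]; exact le_antisymm (le_inf le_rfl hMle) inf_le_left
  have hinj : Function.Injective (MulAction.toPermHom G (Sylow 3 G)) := by
    rw [← MonoidHom.ker_eq_bot_iff, ← hM]; exact hMbot
  have hbij : Function.Bijective (MulAction.toPermHom G (Sylow 3 G)) := by
    rw [Nat.bijective_iff_injective_and_card]
    refine ⟨hinj, ?_⟩
    rw [hcard, Nat.card_perm, hn3]; rfl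
  exact ⟨(MulEquiv.ofBijective _ hbij).trans (Equiv.permCongrHom (Finite.equivFinOfCardEq hn3))⟩

end Cfsg.Agent.Helper53.TriCall
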