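import Mathlib
import Cfsg.Agent.Helper21.SMDefs

/-!
# CALL S2086 (helper21), PIECE KILL3 (helper53)

Two commuting additive families swapped by an element, over the field with three elements:
lifts to a central extension commute.
-/

set_option autoImplicit false

namespace Cfsg.Agent.Helper53.SMKILL3

open Cfsg.Agent.Helper83 Cfsg.Agent.Helper21.SP Cfsg.Agent.Helper21.SM

variable {F : Type*} [Field F] {n : ℕ} {E : Type*} [Group E] {G : Type*} [Group G]

/-- PIECE KILL3: two commuting additive families swapped by an element, over the field with three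
elements: lifts commute. -/
theorem sm_kill3 {π : E →* G} (hπ : CE π) (X Y : F → G)
    (hX : ∀ t t', X (t + t') = X t * X t') (hY : ∀ u u', Y (u + u') = Y u * Y u')
    (hXY : ∀ t u, X t * Y u = Y u * X t) (h3 : ∀ t : F, t = 0 ∨ t = 1 ∨ t = -1)
    (h30 : (1 : F) + 1 + 1 = 0) (w : G)
    (hwX : ∀ t, w * X t * w⁻¹ = Y t) (hwY : ∀ u, w * Y u * w⁻¹ = X u)
    (t u : F) (a b : E) (ha : π a = X t) (hb : π b = Y u) : a * b = b * a := by
  obtain ⟨A, hA⟩ : ∃ A : F → E, ∀ t, π (A t) = X t :=
    ⟨fun t => lft hπ (X t), fun t => pi_lft hπ _⟩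
  obtain ⟨B, hB⟩ : ∃ B : F → E, ∀ u, π (B u) = Y u :=
    ⟨fun u => lft hπ (Y u), fun u => pi_lft hπ _⟩
  obtain ⟨W, hW⟩ : ∃ W : E, π W = w := hπ.surj w
  obtain ⟨f, hf⟩ : ∃ f : F → F → E, ∀ t u, f t u = cm (A t) (B u) := ⟨_, fun _ _ => rfl⟩
  -- f is central
  have hcen : ∀ t u g, f t u * g = g * f t u := by
    intro t u g
    apply hπ.cent
    rw [hf, pi_cm, hA, hB]
    unfold cm
    rw [hXY]; group
  -- additivity in the first variable
  have hadd1 : ∀ t t' u, f (t + t') u = f t u * f t' u := by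
    intro t t' u
    have h1 : f (t + t') u = cm (A t * A t') (B u) := by
      rw [hf]
      apply l0 hπ
      · rw [hA, hX, map_mul, hA, hA]
      · rfl
    have h2 : cm (A t * A t') (B u) = A t * cm (A t') (B u) * (A t)⁻¹ * cm (A t) (B u) := by
      unfold cm; group
    rw [h1, h2, ← hf, ← hf]
    have h3' := hcen t' u (A t)
    rw [← h3', mul_inv_cancel_right]
    exact hcen t' u (f t u)
  -- additivity in the second variable
  have hadd2 : ∀ t u u', f t (u + u') = f t u * f t u' := by
    intro t u u'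
    have h1 : f t (u + u') = cm (A t) (B u * B u') := by
      rw [hf]
      apply l0 hπ
      · rfl
      · rw [hB, hY, map_mul, hB, hB]
    have h2 : cm (A t) (B u * B u') = cm (A t) (B u) * (B u * cm (A t) (B u') * (B u)⁻¹) := by
      unfold cm; group
    rw [h1, h2, ← hf, ← hf]
    have h3' := hcen t u' (B u)
    rw [← h3', mul_inv_cancel_right]
  -- the swap
  have hswap : ∀ t u, f t u = (f u t)⁻¹ := by
    intro t u
    have h1 : W * f t u * W⁻¹ = cm (W * A t * W⁻¹) (W * B u * W⁻¹) := by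
      rw [hf]; unfold cm; group
    have h2 : cm (W * A t * W⁻¹) (W * B u * W⁻¹) = cm (B t) (A u) := by
      apply l0 hπ
      · rw [map_mul, map_mul, map_inv, hW, hA, hB, hwX]
      · rw [map_mul, map_mul, map_inv, hW, hA, hB, hwY]
    have h3' : cm (B t) (A u) = (cm (A u) (B t))⁻¹ := by
      unfold cm; group
    have h4 : W * f t u * W⁻¹ = f t u := by
      rw [← hcen t u W, mul_inv_cancel_right]
    rw [← h4, h1, h2, h3', ← hf]
  have hf0 : ∀ u, f 0 u = 1 := by
    intro u
    have h1 := hadd1 0 0 u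
    rw [add_zero] at h1
    have h2 : f 0 u * f 0 u = f 0 u * 1 := by rw [mul_one]; exact h1.symm
    exact mul_left_cancel h2
  have hfu0 : ∀ t, f t 0 = 1 := by
    intro t
    have h1 := hadd2 t 0 0
    rw [add_zero] at h1
    have h2 : f t 0 * f t 0 = f t 0 * 1 := by rw [mul_one]; exact h1.symm
    exact mul_left_cancel h2
  have h11 : f 1 1 = 1 := by
    have hs2 : f 1 1 = (f 1 1)⁻¹ := hswap 1 1
    have hs3 : f (1 + 1 + 1) 1 = f 1 1 * f 1 1 * f 1 1 := by
      rw [hadd1, hadd1]
    rw [h30, hf0] at hs3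
    have hs4 : f 1 1 * f 1 1 = 1 := by
      nth_rewrite 2 [hs2]
      exact mul_inv_cancel _
    rw [hs4, one_mul] at hs3
    exact hs3.symm
  have hneg1 : ∀ u, f (-1) u = (f 1 u)⁻¹ := by
    intro u
    have h1 := hadd1 (-1) 1 u
    rw [neg_add_cancel, hf0] at h1
    exact eq_inv_of_mul_eq_one_left h1.symm
  have hneg2 : ∀ t, f t (-1) = (f t 1)⁻¹ := by
    intro t
    have h1 := hadd2 t (-1) 1
    rw [neg_add_cancel, hfu0] at h1
    exact eq_inv_of_mul_eq_one_left h1.symm
  have hall : ∀ t u, f t u = 1 := by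
    intro t u
    rcases h3 t with rfl | rfl | rfl
    · exact hf0 u
    · rcases h3 u with rfl | rfl | rfl
      · exact hfu0 _
      · exact h11
      · rw [hneg2, h11, inv_one]
    · rcases h3 u with rfl | rfl | rfl
      · exact hfu0 _
      · rw [hneg1, h11, inv_one]
      · rw [hneg1, hneg2, h11, inv_one, inv_one]
  have hfin : cm a b = 1 := by
    have h1 : cm a b = cm (A t) (B u) :=
      l0 hπ (ha.trans (hA t).symm) (hb.trans (hB u).symm)
    rw [h1, ← hf, hall]
  unfold cm at hfin
  have h5 := mul_inv_eq_one.1 hfin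
  exact mul_inv_eq_iff_eq_mul.1 h5

end Cfsg.Agent.Helper53.SMKILL3
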