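import Mathlib

/-!
# CALL S5975 (helper35), PIECE AR (helper53): two arithmetic statements
-/

set_option autoImplicit false

namespace Cfsg.Agent.Helper53

/-- PIECE AR (two statements, pure arithmetic) -/
theorem c3e_ar1 (i c j : ℕ) (hi0 : 0 < i) (hc : c = if Even i then i else 2 * i)
    (hj : i ∣ 2 * j) (hj1 : 1 ≤ j) : ∃ j₀, 1 ≤ j₀ ∧ c = 2 * j₀ ∧ j₀ ∣ j := by
  have _ := hj1
  by_cases hev : Even i
  · rw [if_pos hev] at hc
    obtain ⟨m, hm⟩ := hev
    refine ⟨m, by omega, by omega, ?_⟩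
    have h2 : 2 * m ∣ 2 * j := by
      have : i = 2 * m := by omega
      rw [← this]; exact hj
    exact (Nat.mul_dvd_mul_iff_left (by norm_num)).1 h2
  · rw [if_neg hev] at hc
    refine ⟨i, hi0, hc, ?_⟩
    have hodd : Odd i := Nat.not_even_iff_odd.1 hev
    have hcop : Nat.Coprime i 2 := Nat.Coprime.symm (Nat.coprime_two_left.2 hodd)
    exact hcop.dvd_of_dvd_mul_left hj

theorem c3e_ar2 (r i c : ℕ) (hr : r.Prime) (hr2 : 2 < r) (hi0 : 0 < i) (hir : i ∣ r - 1)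
    (hc : c = if Even i then i else 2 * i) : ∃ j₀, 1 ≤ j₀ ∧ c = 2 * j₀ ∧ 2 * j₀ ≤ r - 1 := by
  have hle : i ≤ r - 1 := Nat.le_of_dvd (by omega) hir
  by_cases hev : Even i
  · rw [if_pos hev] at hc
    obtain ⟨m, hm⟩ := hev
    exact ⟨m, by omega, by omega, by omega⟩
  · rw [if_neg hev] at hc
    refine ⟨i, hi0, hc, ?_⟩
    have hodd : Odd i := Nat.not_even_iff_odd.1 hev
    have hrodd : Odd r := hr.odd_of_ne_two (by omega)
    have h2 : 2 ∣ r - 1 := by
      obtain ⟨m, hm⟩ := hrodd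
      exact ⟨m, by omega⟩
    have hcop : Nat.Coprime 2 i := Nat.coprime_two_left.2 hodd
    have h3 : 2 * i ∣ r - 1 := hcop.mul_dvd_of_dvd_of_dvd h2 hir
    exact Nat.le_of_dvd (by omega) h3

end Cfsg.Agent.Helper53
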