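import Mathlib

/-!
# CALL S5975 (helper35), PIECE FIXF (helper53)
-/

set_option autoImplicit false

namespace Cfsg.Agent.Helper53

open Matrix Module

section abs

variable {F : Type*} [Field F] {K' : Type*} [Field K'] [Algebra F K'] {V : Type*}
  [AddCommGroup V] [Module F V] [Module K' V] [IsScalarTower F K' V] [FiniteDimensional F V]

/-- PIECE FIXF -/
theorem c3e_fixf [Finite F] [Finite K'] (hp : (Module.finrank F K').Prime) (σ : K' ≃ₐ[F] K')
    (hσ : σ ≠ 1) (c : K') (hc : σ c = c) : c ∈ Set.range (algebraMap F K') := by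
  have : Fact (Module.finrank F K').Prime := ⟨hp⟩
  have hcard : Nat.card (K' ≃ₐ[F] K') = Module.finrank F K' := IsGalois.card_aut_eq_finrank F K'
  have htop : Subgroup.zpowers σ = ⊤ := zpowers_eq_top_of_prime_card hcard hσ
  rw [← IntermediateField.mem_bot, IsGalois.mem_bot_iff_fixed]
  intro f
  have hf : f ∈ Subgroup.zpowers σ := by rw [htop]; exact Subgroup.mem_top f
  obtain ⟨n, rfl⟩ := Subgroup.mem_zpowers_iff.1 hf
  -- σ ^ n fixes c
  have hinv : σ⁻¹ c = c := by
    have : σ⁻¹ (σ c) = c := by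
      show σ.symm (σ c) = c
      exact σ.symm_apply_apply c
    rwa [hc] at this
  have hnat : ∀ m : ℕ, (σ ^ m) c = c := by
    intro m
    induction m with
    | zero => rfl
    | succ m ih =>
      rw [pow_succ, AlgEquiv.mul_apply, hc, ih]
  have hnat' : ∀ m : ℕ, (σ⁻¹ ^ m) c = c := by
    intro m
    induction m with
    | zero => rfl
    | succ m ih =>
      rw [pow_succ, AlgEquiv.mul_apply, hinv, ih]
  rcases Int.eq_nat_or_neg n with ⟨m, rfl | rfl⟩
  · rw [zpow_natCast]; exact hnat m
  · rw [_root_.zpow_neg, zpow_natCast, ← inv_pow]; exact hnat' m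

end abs

end Cfsg.Agent.Helper53
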