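import Mathlib

/-!
# CALL S5975 (helper35), PIECE SIGPOW (helper53)
-/

set_option autoImplicit false

namespace Cfsg.Agent.Helper53

open Matrix Module

section abs

variable {F : Type*} [Field F] {K' : Type*} [Field K'] [Algebra F K'] {V : Type*}
  [AddCommGroup V] [Module F V] [Module K' V] [IsScalarTower F K' V] [FiniteDimensional F V]

/-- PIECE SIGPOW -/
theorem c3e_sigpow [Finite F] [Finite K'] (σ : K' ≃ₐ[F] K') (r : ℕ) (hr : r.Prime)
    (hk : (Module.finrank F K').Prime) (hrk : r ≠ Module.finrank F K') (h : σ ^ r = 1) :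
    σ = 1 := by
  have h1 : orderOf σ ∣ r := orderOf_dvd_of_pow_eq_one h
  have hcard : Nat.card (K' ≃ₐ[F] K') = Module.finrank F K' := IsGalois.card_aut_eq_finrank F K'
  have h2 : orderOf σ ∣ Module.finrank F K' := by
    rw [← hcard]; exact orderOf_dvd_natCard σ
  have h3 : orderOf σ ∣ Nat.gcd r (Module.finrank F K') := Nat.dvd_gcd h1 h2
  have h4 : Nat.gcd r (Module.finrank F K') = 1 :=
    (Nat.coprime_primes hr hk).2 hrk
  rw [h4, Nat.dvd_one] at h3
  exact orderOf_eq_one_iff.1 h3

end abs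

end Cfsg.Agent.Helper53
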