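import Mathlib
import Cfsg.Agent.Helper30.ConjFix
import Cfsg.Agent.Helper61.BRXNF1
import Cfsg.Agent.Helper79.BRBase

/-!
# CALL S0996, PIECE OP (helper53): a perfect group with a self-centralising Sylow `p`-subgroup of
order `p` and a non-exceptional number `1 + n p` of Sylow `p`-subgroups has no non-trivial normal
`p'`-subgroup.
-/

set_option autoImplicit false

namespace Cfsg.Agent.Helper53

open Cfsg
open scoped commutatorElement

universe u

/-- conjugations by two elements normalising `zpowers x` commute on `x` -/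
theorem brn_conj_comm {G : Type u} [Group G] (x n₁ n₂ : G)
    (h₁ : n₁ * x * n₁⁻¹ ∈ Subgroup.zpowers x) (h₂ : n₂ * x * n₂⁻¹ ∈ Subgroup.zpowers x) :
    n₁ * n₂ * x * (n₁ * n₂)⁻¹ = n₂ * n₁ * x * (n₂ * n₁)⁻¹ := by
  obtain ⟨a, ha⟩ := Subgroup.mem_zpowers_iff.mp h₁
  obtain ⟨b, hb⟩ := Subgroup.mem_zpowers_iff.mp h₂
  have e1 : n₁ * n₂ * x * (n₁ * n₂)⁻¹ = x ^ (a * b) := by
    calc n₁ * n₂ * x * (n₁ * n₂)⁻¹ = n₁ * (n₂ * x * n₂⁻¹) * n₁⁻¹ := by group
      _ = n₁ * x ^ b * n₁⁻¹ := by rw [← hb]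
      _ = (n₁ * x * n₁⁻¹) ^ b := conj_zpow.symm
      _ = (x ^ a) ^ b := by rw [← ha]
      _ = x ^ (a * b) := (zpow_mul x a b).symm
  have e2 : n₂ * n₁ * x * (n₂ * n₁)⁻¹ = x ^ (b * a) := by
    calc n₂ * n₁ * x * (n₂ * n₁)⁻¹ = n₂ * (n₁ * x * n₁⁻¹) * n₂⁻¹ := by group
      _ = n₂ * x ^ a * n₂⁻¹ := by rw [← ha]
      _ = (n₂ * x * n₂⁻¹) ^ a := conj_zpow.symm
      _ = (x ^ b) ^ a := by rw [← hb]
      _ = x ^ (b * a) := (zpow_mul x b a).symm
  rw [e1, e2, mul_comm]

/-- PIECE OP -/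
theorem brn_no_core {G : Type u} [Group G] [Finite G] (hperf : commutator G = ⊤) {p : ℕ}
    [Fact p.Prime] (P : Sylow p G) (hP : Nat.card (P : Subgroup G) = p)
    (hC : Nat.card (Subgroup.centralizer ((P : Subgroup G) : Set G)) = p) (n : ℕ)
    (hn : Nat.card (Sylow p G) = 1 + n * p)
    (hnF : ∀ h u : ℕ, 0 < h → 0 < u → n * (u + 1) ≠ h * u * p + u ^ 2 + u + h) :
    ∀ K : Subgroup G, K.Normal → (Nat.card K).Coprime p → K = ⊥ := by
  intro K hKn hKp
  have hpp : p.Prime := Fact.out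
  -- a generator of `P`
  obtain ⟨x, hxP, hx1⟩ : ∃ x ∈ (P : Subgroup G), x ≠ 1 := by
    by_contra hcon
    push Not at hcon
    have hbot : (P : Subgroup G) = ⊥ := (Subgroup.eq_bot_iff_forall _).mpr hcon
    rw [hbot, Subgroup.card_bot] at hP
    exact hpp.one_lt.ne hP
  have hxord : orderOf x = p := by
    have hd : orderOf x ∣ p := by
      have h := orderOf_dvd_natCard (⟨x, hxP⟩ : ↥(P : Subgroup G))
      rw [hP, Subgroup.orderOf_mk] at h
      exact h
    rcases (Nat.dvd_prime hpp).mp hd with h | h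
    · exact absurd (orderOf_eq_one_iff.mp h) hx1
    · exact h
  have hPz : (P : Subgroup G) = Subgroup.zpowers x := by
    symm
    apply Subgroup.eq_of_le_of_card_ge
    · exact Subgroup.zpowers_le.mpr hxP
    · rw [hP, Nat.card_zpowers, hxord]
  have hcent : ∀ g : G, g * x = x * g →
      g ∈ Subgroup.centralizer ((P : Subgroup G) : Set G) := by
    intro g hg
    rw [Subgroup.mem_centralizer_iff]
    intro h hh
    have hh' : h ∈ Subgroup.zpowers x := hPz ▸ hh
    obtain ⟨k, rfl⟩ := Subgroup.mem_zpowers_iff.mp hh'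
    exact (Commute.zpow_right (show Commute g x from hg) k).eq.symm
  have hPC : (P : Subgroup G) ≤ Subgroup.centralizer ((P : Subgroup G) : Set G) := by
    intro y hy
    apply hcent
    have hy' : y ∈ Subgroup.zpowers x := hPz ▸ hy
    obtain ⟨k, rfl⟩ := Subgroup.mem_zpowers_iff.mp hy'
    exact ((Commute.refl x).zpow_left k).eq
  have hCP : Subgroup.centralizer ((P : Subgroup G) : Set G) = (P : Subgroup G) :=
    (Subgroup.eq_of_le_of_card_ge hPC (by rw [hC, hP])).symm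
  have hKP : K ⊓ (P : Subgroup G) = ⊥ :=
    (Subgroup.disjoint_of_coprime_natCard (by rw [hP]; exact hKp)).eq_bot
  have hKcent : ∀ k ∈ K, k * x = x * k → k = 1 := by
    intro k hk hkx
    have h1 : k ∈ (P : Subgroup G) := hCP.le (hcent k hkx)
    have h2 : k ∈ K ⊓ (P : Subgroup G) := Subgroup.mem_inf.mpr ⟨hk, h1⟩
    rw [hKP] at h2
    exact Subgroup.mem_bot.mp h2
  -- `K ⊓ N(P) = 1`
  have hKN : ∀ k ∈ K, k ∈ Subgroup.normalizer ((P : Subgroup G) : Set G) → k = 1 := by
    intro k hk hkN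
    apply hKcent k hk
    have h1 : k * x * k⁻¹ * x⁻¹ ∈ K := by
      have h0 : x * k⁻¹ * x⁻¹ ∈ K := hKn.conj_mem k⁻¹ (K.inv_mem hk) x
      have h2 := K.mul_mem hk h0
      simpa [mul_assoc] using h2
    have h2 : k * x * k⁻¹ * x⁻¹ ∈ (P : Subgroup G) := by
      have h0 : k * x * k⁻¹ ∈ (P : Subgroup G) :=
        (Subgroup.mem_normalizer_iff.mp hkN x).mp hxP
      exact (P : Subgroup G).mul_mem h0 ((P : Subgroup G).inv_mem hxP)
    have h3 : k * x * k⁻¹ * x⁻¹ ∈ K ⊓ (P : Subgroup G) := Subgroup.mem_inf.mpr ⟨h1, h2⟩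
    rw [hKP] at h3
    have h4 : k * x * k⁻¹ * x⁻¹ = 1 := Subgroup.mem_bot.mp h3
    calc k * x = (k * x * k⁻¹ * x⁻¹) * (x * k) := by group
      _ = x * k := by rw [h4, one_mul]
  -- `|K| ≡ 1 (mod p)`
  have hxp : x ^ p = 1 := by rw [← hxord]; exact pow_orderOf_eq_one x
  have hmod := Cfsg.Agent.Helper30.card_modEq_card_inf_centralizer p K x hxp
    (fun k hk => hKn.conj_mem k hk x)
  have hfix : K ⊓ Subgroup.centralizer ({x} : Set G) = ⊥ := by
    rw [Subgroup.eq_bot_iff_forall]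
    intro k hk
    obtain ⟨hk1, hk2⟩ := Subgroup.mem_inf.mp hk
    exact hKcent k hk1 (Subgroup.mem_centralizer_singleton_iff.mp hk2)
  rw [hfix, Subgroup.card_bot] at hmod
  have hmodZ : ((Nat.card K : ℕ) : ℤ) ≡ 1 [ZMOD p] := by
    have h := (Int.natCast_modEq_iff).mpr hmod
    simpa using h
  -- the injective homomorphism `N(P) → G ⧸ K`
  have hKn' : K.Normal := hKn
  have hf : Function.Injective
      ((QuotientGroup.mk' K).comp (Subgroup.normalizer ((P : Subgroup G) : Set G)).subtype) := by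
    rw [injective_iff_map_eq_one]
    intro g hg
    have h1 : (g : G) ∈ K := by
      have h0 : (QuotientGroup.mk' K) (g : G) = 1 := hg
      rwa [QuotientGroup.mk'_apply, QuotientGroup.eq_one_iff] at h0
    apply Subtype.ext
    exact hKN _ h1 g.2
  have hdvd1 : Nat.card ↥(Subgroup.normalizer ((P : Subgroup G) : Set G)) ∣ Nat.card (G ⧸ K) :=
    Subgroup.card_dvd_of_injective _ hf
  have hmul : Nat.card G = Nat.card (G ⧸ K) * Nat.card K :=
    Subgroup.card_eq_card_quotient_mul_card_subgroup K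
  have hidx : Nat.card ↥(Subgroup.normalizer ((P : Subgroup G) : Set G)) * (1 + n * p) =
      Nat.card G := by
    have h1 := Subgroup.card_mul_index (Subgroup.normalizer ((P : Subgroup G) : Set G))
    have h2 : Nat.card (Sylow p G) =
        (Subgroup.normalizer ((P : Subgroup G) : Set G)).index :=
      Sylow.card_eq_index_normalizer P
    rw [← h2, hn] at h1
    exact h1
  have hNpos : 0 < Nat.card ↥(Subgroup.normalizer ((P : Subgroup G) : Set G)) := Nat.card_pos
  obtain ⟨j, hj⟩ := hdvd1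
  have hjK : j * Nat.card K = 1 + n * p := by
    have h0 : Nat.card ↥(Subgroup.normalizer ((P : Subgroup G) : Set G)) * (1 + n * p) =
        Nat.card ↥(Subgroup.normalizer ((P : Subgroup G) : Set G)) * (j * Nat.card K) := by
      rw [hidx, hmul, hj]; ring
    exact (Nat.eq_of_mul_eq_mul_left hNpos h0).symm
  have hKdvd : Nat.card K ∣ (1 + n * p) * (p - 1) := by
    rw [← hjK]
    exact ⟨j * (p - 1), by ring⟩
  rcases Cfsg.Agent.Helper61.brn_nonF p n (Nat.card K) hpp.two_le hnF hmodZ hKdvd with h1 | h1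
  · exact Subgroup.card_eq_one.mp h1
  · exfalso
    have hj1 : j = 1 := by
      rw [h1] at hjK
      have hpos : 0 < 1 + n * p := by omega
      nlinarith
    have hcardQ : Nat.card (G ⧸ K) =
        Nat.card ↥(Subgroup.normalizer ((P : Subgroup G) : Set G)) := by
      rw [hj, hj1, mul_one]
    have hbij := hf.bijective_of_nat_card_le (le_of_eq hcardQ)
    have hz : ∀ g : G, g ∈ Subgroup.normalizer ((P : Subgroup G) : Set G) →
        g * x * g⁻¹ ∈ Subgroup.zpowers x := by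
      intro g hg
      rw [← hPz]
      exact (Subgroup.mem_normalizer_iff.mp hg x).mp hxP
    -- every commutator lies in `P ⊔ K`
    have hcomm : ∀ a b : G, ⁅a, b⁆ ∈ (P : Subgroup G) ⊔ K := by
      intro a b
      obtain ⟨n₁, hn₁⟩ := hbij.2 (QuotientGroup.mk' K a)
      obtain ⟨n₂, hn₂⟩ := hbij.2 (QuotientGroup.mk' K b)
      have e1 : QuotientGroup.mk' K (n₁ : G) = QuotientGroup.mk' K a := hn₁
      have e2 : QuotientGroup.mk' K (n₂ : G) = QuotientGroup.mk' K b := hn₂
      have e3 : QuotientGroup.mk' K ⁅(n₁ : G), (n₂ : G)⁆ = QuotientGroup.mk' K ⁅a, b⁆ := by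
        rw [map_commutatorElement, map_commutatorElement, e1, e2]
      have h2 : (⁅(n₁ : G), (n₂ : G)⁆)⁻¹ * ⁅a, b⁆ ∈ K := by
        rw [QuotientGroup.mk'_apply, QuotientGroup.mk'_apply] at e3
        exact QuotientGroup.eq.mp e3
      have h3 : ⁅(n₁ : G), (n₂ : G)⁆ ∈ (P : Subgroup G) := by
        apply hCP.le
        apply hcent
        have h := brn_conj_comm x (n₁ : G)⁻¹ (n₂ : G)⁻¹
          (hz _ (Subgroup.inv_mem _ n₁.2)) (hz _ (Subgroup.inv_mem _ n₂.2))
        calc ⁅(n₁ : G), (n₂ : G)⁆ * x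
            = (n₁ : G) * n₂ * ((n₁ : G)⁻¹ * (n₂ : G)⁻¹ * x * ((n₁ : G)⁻¹ * (n₂ : G)⁻¹)⁻¹) *
                ((n₂ : G) * n₁)⁻¹ := by
              rw [commutatorElement_def]; group
          _ = (n₁ : G) * n₂ * ((n₂ : G)⁻¹ * (n₁ : G)⁻¹ * x * ((n₂ : G)⁻¹ * (n₁ : G)⁻¹)⁻¹) *
                ((n₂ : G) * n₁)⁻¹ := by rw [h]
          _ = x * ⁅(n₁ : G), (n₂ : G)⁆ := by
              rw [commutatorElement_def]; group
      have h4 : ⁅a, b⁆ = ⁅(n₁ : G), (n₂ : G)⁆ * ((⁅(n₁ : G), (n₂ : G)⁆)⁻¹ * ⁅a, b⁆) := by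
        group
      rw [h4]
      exact Subgroup.mul_mem_sup h3 h2
    have htop : (P : Subgroup G) ⊔ K = ⊤ := by
      rw [eq_top_iff, ← hperf, commutator_eq_closure, Subgroup.closure_le]
      rintro g ⟨a, b, rfl⟩
      exact hcomm a b
    have hNP : Subgroup.normalizer ((P : Subgroup G) : Set G) ≤
        Subgroup.centralizer ((P : Subgroup G) : Set G) := by
      intro g hg
      have hgt : g ∈ (P : Subgroup G) ⊔ K := by rw [htop]; exact Subgroup.mem_top g
      obtain ⟨y, hy, z, hz', hyz⟩ := Subgroup.mem_sup_of_normal_right.mp hgt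
      have hzN : z ∈ Subgroup.normalizer ((P : Subgroup G) : Set G) := by
        have e : z = y⁻¹ * g := by rw [← hyz]; group
        rw [e]
        exact Subgroup.mul_mem _ (Subgroup.inv_mem _ (Subgroup.le_normalizer hy)) hg
      have hz1 : z = 1 := hKN z hz' hzN
      rw [← hyz, hz1, mul_one]
      exact hPC hy
    have hne : (P : Subgroup G) ≠ ⊥ := by
      intro h
      rw [h, Subgroup.card_bot] at hP
      exact hpp.one_lt.ne hP
    exact Cfsg.Agent.Helper79.br_burnside hperf p P hne hNP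

end Cfsg.Agent.Helper53
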