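import Mathlib

/-!
# CALL S0996, PIECE Z0 (helper53): a self-centralising element of prime order `p` generates a
Sylow `p`-subgroup, which is its own centraliser.
-/

set_option autoImplicit false

namespace Cfsg.Agent.Helper53

open Cfsg

universe u

/-- PIECE Z0 -/
theorem brn_sylow_of_elt {G : Type u} [Group G] [Finite G] (p : ℕ) [Fact p.Prime] (z : G)
    (hz : orderOf z = p) (hC : Subgroup.centralizer ({z} : Set G) = Subgroup.zpowers z) :
    ∃ P : Sylow p G, Nat.card (P : Subgroup G) = p ∧
      Nat.card (Subgroup.centralizer ((P : Subgroup G) : Set G)) = p := by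
  have hpp : p.Prime := Fact.out
  have hcardZ : Nat.card (Subgroup.zpowers z) = p := by rw [Nat.card_zpowers, hz]
  have hZp : IsPGroup p (Subgroup.zpowers z) :=
    IsPGroup.of_card (n := 1) (by rw [hcardZ, pow_one])
  obtain ⟨P, hP⟩ := hZp.exists_le_sylow
  have hzP : z ∈ (P : Subgroup G) := hP (Subgroup.mem_zpowers z)
  have hz1 : z ≠ 1 := by
    rintro rfl
    rw [orderOf_one] at hz
    exact hpp.one_lt.ne hz
  have hnt : Nontrivial ↥(P : Subgroup G) :=
    ⟨⟨⟨z, hzP⟩, 1, fun h => hz1 (congrArg Subtype.val h)⟩⟩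
  have hcnt : Nontrivial (Subgroup.center ↥(P : Subgroup G)) := P.isPGroup'.center_nontrivial
  obtain ⟨c, hc1⟩ := exists_ne (1 : Subgroup.center ↥(P : Subgroup G))
  -- `c'` : the underlying element of `G`
  have hcP : ((c : ↥(P : Subgroup G)) : G) ∈ (P : Subgroup G) := (c : ↥(P : Subgroup G)).2
  have hc1' : ((c : ↥(P : Subgroup G)) : G) ≠ 1 := by
    intro h
    apply hc1
    apply Subtype.ext
    apply Subtype.ext
    exact h
  have hccomm : ∀ x ∈ (P : Subgroup G), x * ((c : ↥(P : Subgroup G)) : G) =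
      ((c : ↥(P : Subgroup G)) : G) * x := by
    intro x hx
    have h := Subgroup.mem_center_iff.mp c.2 ⟨x, hx⟩
    exact congrArg Subtype.val h
  have hcz : ((c : ↥(P : Subgroup G)) : G) ∈ Subgroup.zpowers z := by
    rw [← hC, Subgroup.mem_centralizer_singleton_iff]
    exact (hccomm z hzP).symm
  have hzc : Subgroup.zpowers ((c : ↥(P : Subgroup G)) : G) = Subgroup.zpowers z := by
    apply Subgroup.eq_of_le_of_card_ge
    · exact (Subgroup.zpowers_le).mpr hcz
    · rw [hcardZ, Nat.card_zpowers]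
      have hd : orderOf ((c : ↥(P : Subgroup G)) : G) ∣ p := by
        have h := orderOf_dvd_natCard (⟨_, hcz⟩ : ↥(Subgroup.zpowers z))
        rw [hcardZ, Subgroup.orderOf_mk] at h
        exact h
      rcases (Nat.dvd_prime hpp).mp hd with h | h
      · exact absurd (orderOf_eq_one_iff.mp h) hc1'
      · exact le_of_eq h.symm
  have hzmem : z ∈ Subgroup.zpowers ((c : ↥(P : Subgroup G)) : G) := by
    rw [hzc]; exact Subgroup.mem_zpowers z
  obtain ⟨k, hk⟩ := Subgroup.mem_zpowers_iff.mp hzmem
  have hPle : (P : Subgroup G) ≤ Subgroup.zpowers z := by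
    intro x hx
    rw [← hC, Subgroup.mem_centralizer_singleton_iff, ← hk]
    exact ((Commute.zpow_right (hccomm x hx) k)).eq
  have hPeq : (P : Subgroup G) = Subgroup.zpowers z := le_antisymm hPle hP
  have hCent : Subgroup.centralizer ((P : Subgroup G) : Set G) = Subgroup.zpowers z := by
    apply le_antisymm
    · intro g hg
      rw [← hC, Subgroup.mem_centralizer_singleton_iff]
      exact (Subgroup.mem_centralizer_iff.mp hg z hzP).symm
    · intro g hg
      rw [Subgroup.mem_centralizer_iff]
      intro h hh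
      have hh' : h ∈ Subgroup.zpowers z := hPeq ▸ hh
      obtain ⟨a, rfl⟩ := Subgroup.mem_zpowers_iff.mp hg
      obtain ⟨b, rfl⟩ := Subgroup.mem_zpowers_iff.mp hh'
      exact ((Commute.refl z).zpow_zpow b a).eq
  refine ⟨P, ?_, ?_⟩
  · rw [hPeq, hcardZ]
  · rw [hCent, hcardZ]

end Cfsg.Agent.Helper53
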