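import Cfsg.Agent.Helper43.C3ODefs
import Cfsg.Agent.Helper45.Spinor
import Cfsg.Agent.Helper45.Dickson

/-!
# CALL C3O (helper43), PIECE ARHO (helper53): a reflection commuting with an involution.
-/

set_option autoImplicit false

namespace Cfsg.Agent.Helper53

open Matrix Module Polynomial
open Cfsg.Agent.Helper43.C3O

universe u

section quad

variable {F : Type u} [Field F] [Fintype F] {ι : Type} [Fintype ι] [DecidableEq ι]

omit [Fintype F] in
/-- reflections in equal vectors are equal -/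
theorem c3o_reflO_congr (Q : QuadraticForm F (ι → F)) (a b : ι → F) (ha : Q a ≠ 0) (hb : Q b ≠ 0)
    (hab : a = b) : Cfsg.Agent.Helper45.reflO Q a ha = Cfsg.Agent.Helper45.reflO Q b hb := by
  subst hab
  rfl

/-- PIECE ARHO -/
theorem c3o_arho (h2 : (2 : F) ≠ 0) (Q : QuadraticForm F (ι → F))
    (hQ : (QuadraticMap.polarBilin Q).Nondegenerate) [Nonempty ι]
    (g : ↥(Cfsg.isometryGroup F ⇑Q)) (hg : gm g * gm g = 1) :
    ∃ ρ : ↥(Cfsg.isometryGroup F ⇑Q), (gm ρ).det = -1 ∧ ρ * g = g * ρ := by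
  obtain ⟨w, hw⟩ := Cfsg.Agent.Helper45.exists_nonsingular Q hQ
  have hgg : ∀ x, Cfsg.Agent.Helper45.mv ⇑Q g (Cfsg.Agent.Helper45.mv ⇑Q g x) = x := by
    intro x
    show (gm g) *ᵥ ((gm g) *ᵥ x) = x
    rw [Matrix.mulVec_mulVec, hg, Matrix.one_mulVec]
  have hsum : Q (w + Cfsg.Agent.Helper45.mv ⇑Q g w) + Q (w - Cfsg.Agent.Helper45.mv ⇑Q g w)
      = 4 * Q w := by
    rw [Cfsg.Agent.Helper13.Q_add', Cfsg.Agent.Helper45.q_sub, Cfsg.Agent.Helper45.mv_quad ⇑Q g w]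
    ring
  have key : ∀ v : ι → F, Q v ≠ 0 →
      (Cfsg.Agent.Helper45.mv ⇑Q g v = v ∨ Cfsg.Agent.Helper45.mv ⇑Q g v = -v) →
      ∃ ρ : ↥(Cfsg.isometryGroup F ⇑Q), (gm ρ).det = -1 ∧ ρ * g = g * ρ := by
    intro v hv hgv
    refine ⟨Cfsg.Agent.Helper45.reflO Q v hv, ?_, ?_⟩
    · show (Cfsg.reflectionMatrix ⇑Q v).det = -1
      exact Cfsg.Agent.Helper13.reflection_det Q v hv
    · have hq : Q (Cfsg.Agent.Helper45.mv ⇑Q g v) ≠ 0 := by
        rw [Cfsg.Agent.Helper45.mv_quad ⇑Q g v]; exact hv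
      have hc : g * Cfsg.Agent.Helper45.reflO Q v hv * g⁻¹ = Cfsg.Agent.Helper45.reflO Q v hv := by
        rw [Cfsg.Agent.Helper45.conj_reflO Q g v hv hq]
        rcases hgv with h | h
        · exact c3o_reflO_congr Q _ _ hq hv h
        · have hq' : Q ((-1 : F) • v) ≠ 0 := by
            rw [neg_one_smul, ← h]; exact hq
          rw [c3o_reflO_congr Q _ _ hq hq' (by rw [h, neg_one_smul])]
          exact Cfsg.Agent.Helper45.reflO_smul Q (-1) (neg_ne_zero.2 one_ne_zero) v hv hq'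
      exact (mul_inv_eq_iff_eq_mul.mp hc).symm
  have h4 : (4 : F) * Q w ≠ 0 := by
    have h44 : (4 : F) = 2 * 2 := by norm_num
    rw [h44]
    exact mul_ne_zero (mul_ne_zero h2 h2) hw
  by_cases hp : Q (w + Cfsg.Agent.Helper45.mv ⇑Q g w) = 0
  · have hm : Q (w - Cfsg.Agent.Helper45.mv ⇑Q g w) ≠ 0 := by
      intro h0
      rw [hp, h0, add_zero] at hsum
      exact h4 hsum.symm
    apply key _ hm
    right
    rw [Cfsg.Agent.Helper45.mv_sub, hgg, neg_sub]
  · apply key _ hp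
    left
    rw [Cfsg.Agent.Helper45.mv_add, hgg, add_comm]

end quad

end Cfsg.Agent.Helper53
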