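import Cfsg.Agent.Helper43.C3ODefs
import Cfsg.Agent.Helper45.Spinor
import Cfsg.Agent.Helper14.Forms

/-!
# CALL C3O (helper43), PIECE NCASE (helper53): the case `x² = -1`.
-/

set_option autoImplicit false

namespace Cfsg.Agent.Helper53

open Matrix Module Polynomial
open Cfsg.Agent.Helper43.C3O

universe u

/-- ring identity for NCASE, part 1 -/
theorem c3o_ncase_alg1 {A : Type*} [Ring A] (X R P : A) (hRX : R * X = -(X * R))
    (hP : P * P = 1) (hPR : P * R = R * P) :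
    X * (P * R * P) = -(P * R * P * X) := by
  have h1 : P * R * P = R := by rw [hPR, mul_assoc, hP, mul_one]
  rw [h1, hRX, neg_neg]

/-- ring identity for NCASE, part 2 -/
theorem c3o_ncase_alg2 {A : Type*} [Ring A] (X R P : A) (hRX : R * X = -(X * R))
    (hPR : P * R = R * P) (hf : X * P * X * P = P * X * P * X) :
    X * (P * (X * R) * P) = -(P * (X * R) * P * X) := by
  have h1 : P * (X * R) * P = P * X * P * R := by
    rw [mul_assoc P (X * R) P, mul_assoc X R P, ← hPR]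
    noncomm_ring
  rw [h1]
  calc X * (P * X * P * R) = (X * P * X * P) * R := by noncomm_ring
    _ = (P * X * P * X) * R := by rw [hf]
    _ = -(P * X * P * (-(X * R))) := by noncomm_ring
    _ = -(P * X * P * (R * X)) := by rw [hRX]
    _ = -(P * X * P * R * X) := by noncomm_ring

section quad

variable {F : Type u} [Field F] [Fintype F] {ι : Type} [Fintype ι] [DecidableEq ι]

omit [Fintype F] in
/-- reflections in equal vectors are equal -/
theorem c3o_reflO_congr2 (Q : QuadraticForm F (ι → F)) (a b : ι → F) (ha : Q a ≠ 0) (hb : Q b ≠ 0)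
    (hab : a = b) : Cfsg.Agent.Helper45.reflO Q a ha = Cfsg.Agent.Helper45.reflO Q b hb := by
  subst hab
  rfl

/-- PIECE NCASE -/
theorem c3o_ncase (h2 : (2 : F) ≠ 0) (Q : QuadraticForm F (ι → F))
    (hQ : (QuadraticMap.polarBilin Q).Nondegenerate) (n : F)
    (g : ↥(Cfsg.isometryGroup F ⇑Q)) (hg : gm g * gm g = -1) (R : ↥(Cfsg.isometryGroup F ⇑Q))
    (hR : R * R = 1) (hRg : gm R * gm g = -(gm g * gm R)) (u₀ : ι → F) (hu₀ : Q u₀ ≠ 0)
    (hRu : (gm R).mulVec u₀ = u₀) :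
    ∃ (J' : Matrix ι ι F) (ρ : ↥(Cfsg.isometryGroup F ⇑Q)), IsJ Q n J' ∧ (gm ρ).det = -1 ∧
      gm g * J' = -(J' * gm g) ∧
      gm g * (gm ρ * J' * gm ρ⁻¹) = -((gm ρ * J' * gm ρ⁻¹) * gm g) := by
  obtain ⟨s, t, hst⟩ := Cfsg.Agent.Helper14.exists_sq_add_sq h2 (one_ne_zero (α := F))
    (one_ne_zero (α := F)) n
  have hmul : ∀ a b : ↥(Cfsg.isometryGroup F ⇑Q), gm (a * b) = gm a * gm b := fun a b => rfl
  have hone : gm (1 : ↥(Cfsg.isometryGroup F ⇑Q)) = 1 := rfl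
  have hRR : gm R * gm R = 1 := by rw [← hmul, hR, hone]
  have hρρ : Cfsg.Agent.Helper45.reflO Q u₀ hu₀ * Cfsg.Agent.Helper45.reflO Q u₀ hu₀ = 1 :=
    Cfsg.Agent.Helper45.reflO_mul_self Q u₀ hu₀
  have hρinv : (Cfsg.Agent.Helper45.reflO Q u₀ hu₀)⁻¹ = Cfsg.Agent.Helper45.reflO Q u₀ hu₀ :=
    inv_eq_of_mul_eq_one_right hρρ
  have hPP : gm (Cfsg.Agent.Helper45.reflO Q u₀ hu₀) * gm (Cfsg.Agent.Helper45.reflO Q u₀ hu₀) = 1 := by
    rw [← hmul, hρρ, hone]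
  -- `R` commutes with `ρ`
  have hPR : gm (Cfsg.Agent.Helper45.reflO Q u₀ hu₀) * gm R =
      gm R * gm (Cfsg.Agent.Helper45.reflO Q u₀ hu₀) := by
    have hq : Q (Cfsg.Agent.Helper45.mv ⇑Q R u₀) ≠ 0 := by
      rw [Cfsg.Agent.Helper45.mv_quad ⇑Q R u₀]; exact hu₀
    have hRρ : R * Cfsg.Agent.Helper45.reflO Q u₀ hu₀ * R⁻¹ = Cfsg.Agent.Helper45.reflO Q u₀ hu₀ := by
      rw [Cfsg.Agent.Helper45.conj_reflO Q R u₀ hu₀ hq]
      exact c3o_reflO_congr2 Q _ _ hq hu₀ hRu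
    have h3 : Cfsg.Agent.Helper45.reflO Q u₀ hu₀ * R = R * Cfsg.Agent.Helper45.reflO Q u₀ hu₀ :=
      (mul_inv_eq_iff_eq_mul.mp hRρ).symm
    rw [← hmul, ← hmul, h3]
  have hggv : ∀ x, Cfsg.Agent.Helper45.mv ⇑Q g (Cfsg.Agent.Helper45.mv ⇑Q g x) = -x := by
    intro x
    show (gm g) *ᵥ ((gm g) *ᵥ x) = -x
    rw [Matrix.mulVec_mulVec, hg, Matrix.neg_mulVec, Matrix.one_mulVec]
  have hRRv : ∀ x, Cfsg.Agent.Helper45.mv ⇑Q R (Cfsg.Agent.Helper45.mv ⇑Q R x) = x := by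
    intro x
    show (gm R) *ᵥ ((gm R) *ᵥ x) = x
    rw [Matrix.mulVec_mulVec, hRR, Matrix.one_mulVec]
  have hRgv : ∀ x, Cfsg.Agent.Helper45.mv ⇑Q R (Cfsg.Agent.Helper45.mv ⇑Q g x) =
      -Cfsg.Agent.Helper45.mv ⇑Q g (Cfsg.Agent.Helper45.mv ⇑Q R x) := by
    intro x
    show (gm R) *ᵥ ((gm g) *ᵥ x) = -((gm g) *ᵥ ((gm R) *ᵥ x))
    rw [Matrix.mulVec_mulVec, hRg, Matrix.neg_mulVec, ← Matrix.mulVec_mulVec]
  -- `g u₀ ⊥ u₀`
  have hperp : QuadraticMap.polar ⇑Q u₀ (Cfsg.Agent.Helper45.mv ⇑Q g u₀) = 0 := by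
    have h1 := Cfsg.Agent.Helper45.mv_polar Q g u₀ (Cfsg.Agent.Helper45.mv ⇑Q g u₀)
    rw [hggv, QuadraticMap.polar_neg_right, QuadraticMap.polar_comm] at h1
    have h4 : (2 : F) * QuadraticMap.polar ⇑Q u₀ (Cfsg.Agent.Helper45.mv ⇑Q g u₀) = 0 := by
      linear_combination -h1
    exact (mul_eq_zero.mp h4).resolve_left h2
  have hperp' : QuadraticMap.polar ⇑Q (Cfsg.Agent.Helper45.mv ⇑Q g u₀) u₀ = 0 := by
    rw [QuadraticMap.polar_comm]; exact hperp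
  have hq' : Q (Cfsg.Agent.Helper45.mv ⇑Q g u₀) ≠ 0 := by
    rw [Cfsg.Agent.Helper45.mv_quad ⇑Q g u₀]; exact hu₀
  have hcomm : Cfsg.Agent.Helper45.reflO Q u₀ hu₀ * (g * Cfsg.Agent.Helper45.reflO Q u₀ hu₀ * g⁻¹) =
      (g * Cfsg.Agent.Helper45.reflO Q u₀ hu₀ * g⁻¹) * Cfsg.Agent.Helper45.reflO Q u₀ hu₀ := by
    rw [Cfsg.Agent.Helper45.conj_reflO Q g u₀ hu₀ hq']
    apply Cfsg.Agent.Helper45.ext_mv
    intro x
    rw [Cfsg.Agent.Helper45.mv_mul, Cfsg.Agent.Helper45.mv_mul, Cfsg.Agent.Helper45.mv_reflO,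
      Cfsg.Agent.Helper45.mv_reflO, Cfsg.Agent.Helper45.mv_reflO, Cfsg.Agent.Helper45.mv_reflO]
    simp only [QuadraticMap.polar_sub_right, QuadraticMap.polar_smul_right, smul_eq_mul, hperp,
      hperp', mul_zero, sub_zero]
    abel
  have hXi : gm g⁻¹ = -gm g := by
    have h1 : gm g * gm g⁻¹ = 1 := by rw [← hmul, mul_inv_cancel, hone]
    calc gm g⁻¹ = -(gm g * gm g) * gm g⁻¹ := by rw [hg, neg_neg, one_mul]
      _ = -(gm g * (gm g * gm g⁻¹)) := by rw [neg_mul, mul_assoc]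
      _ = -gm g := by rw [h1, mul_one]
  have hf : gm g * gm (Cfsg.Agent.Helper45.reflO Q u₀ hu₀) * gm g *
      gm (Cfsg.Agent.Helper45.reflO Q u₀ hu₀) =
      gm (Cfsg.Agent.Helper45.reflO Q u₀ hu₀) * gm g * gm (Cfsg.Agent.Helper45.reflO Q u₀ hu₀) *
        gm g := by
    have h5 : gm (Cfsg.Agent.Helper45.reflO Q u₀ hu₀) *
        (gm g * gm (Cfsg.Agent.Helper45.reflO Q u₀ hu₀) * gm g⁻¹) =
        (gm g * gm (Cfsg.Agent.Helper45.reflO Q u₀ hu₀) * gm g⁻¹) *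
          gm (Cfsg.Agent.Helper45.reflO Q u₀ hu₀) := congrArg gm hcomm
    rw [hXi] at h5
    calc gm g * gm (Cfsg.Agent.Helper45.reflO Q u₀ hu₀) * gm g *
          gm (Cfsg.Agent.Helper45.reflO Q u₀ hu₀)
        = -(gm g * gm (Cfsg.Agent.Helper45.reflO Q u₀ hu₀) * -gm g *
          gm (Cfsg.Agent.Helper45.reflO Q u₀ hu₀)) := by noncomm_ring
      _ = -(gm (Cfsg.Agent.Helper45.reflO Q u₀ hu₀) *
          (gm g * gm (Cfsg.Agent.Helper45.reflO Q u₀ hu₀) * -gm g)) := by rw [h5]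
      _ = _ := by noncomm_ring
  -- the matrix `J'`
  have hJv : ∀ u, ((s • (1 : Matrix ι ι F) + t • gm g) * gm R) *ᵥ u =
      s • Cfsg.Agent.Helper45.mv ⇑Q R u +
        t • Cfsg.Agent.Helper45.mv ⇑Q g (Cfsg.Agent.Helper45.mv ⇑Q R u) := by
    intro u
    show ((s • (1 : Matrix ι ι F) + t • gm g) * gm R) *ᵥ u =
      s • (gm R *ᵥ u) + t • (gm g *ᵥ (gm R *ᵥ u))
    rw [← Matrix.mulVec_mulVec, Matrix.add_mulVec, Matrix.smul_mulVec, Matrix.one_mulVec,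
      Matrix.smul_mulVec]
  have ha : ∀ u v, QuadraticMap.polar ⇑Q (Cfsg.Agent.Helper45.mv ⇑Q R u) v =
      QuadraticMap.polar ⇑Q u (Cfsg.Agent.Helper45.mv ⇑Q R v) := by
    intro u v
    have h := Cfsg.Agent.Helper45.mv_polar Q R (Cfsg.Agent.Helper45.mv ⇑Q R u) v
    rw [hRRv] at h
    exact h.symm
  have hga : ∀ u v, QuadraticMap.polar ⇑Q (Cfsg.Agent.Helper45.mv ⇑Q g u) v =
      -QuadraticMap.polar ⇑Q u (Cfsg.Agent.Helper45.mv ⇑Q g v) := by
    intro u v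
    have h := Cfsg.Agent.Helper45.mv_polar Q g (Cfsg.Agent.Helper45.mv ⇑Q g u) v
    rw [hggv, QuadraticMap.polar_neg_left] at h
    exact h.symm
  have hXc : gm g * (s • (1 : Matrix ι ι F) + t • gm g) = (s • 1 + t • gm g) * gm g := by
    simp only [mul_add, add_mul, mul_smul_comm, smul_mul_assoc, mul_one, one_mul]
  have hRs : gm R * (s • (1 : Matrix ι ι F) + t • gm g) = (s • 1 - t • gm g) * gm R := by
    rw [mul_add, mul_smul_comm, mul_one, mul_smul_comm, hRg, sub_mul, smul_mul_assoc, one_mul,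
      smul_mul_assoc, smul_neg, sub_eq_add_neg]
  have hsq : (s • (1 : Matrix ι ι F) + t • gm g) * (s • 1 - t • gm g) = n • 1 := by
    have h1 : (s • (1 : Matrix ι ι F) + t • gm g) * (s • 1 - t • gm g) =
        (s * s) • 1 - (t * t) • (gm g * gm g) := by
      simp only [add_mul, mul_sub, smul_mul_assoc, mul_smul_comm, one_mul, mul_one]
      module
    rw [h1, hg, ← hst]
    module
  refine ⟨(s • (1 : Matrix ι ι F) + t • gm g) * gm R, Cfsg.Agent.Helper45.reflO Q u₀ hu₀,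
    ⟨?_, ?_⟩, ?_, ?_, ?_⟩
  · calc (s • (1 : Matrix ι ι F) + t • gm g) * gm R * ((s • (1 : Matrix ι ι F) + t • gm g) * gm R)
        = (s • (1 : Matrix ι ι F) + t • gm g) * (gm R * (s • (1 : Matrix ι ι F) + t • gm g)) *
          gm R := by noncomm_ring
      _ = (s • (1 : Matrix ι ι F) + t • gm g) * (s • 1 - t • gm g) * (gm R * gm R) := by
        rw [hRs]; noncomm_ring
      _ = n • 1 := by rw [hRR, mul_one, hsq]
  · intro u v
    rw [hJv, hJv]
    simp only [QuadraticMap.polar_add_left, QuadraticMap.polar_add_right,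
      QuadraticMap.polar_smul_left, QuadraticMap.polar_smul_right, smul_eq_mul]
    rw [ha u v, hga (Cfsg.Agent.Helper45.mv ⇑Q R u) v, ha u (Cfsg.Agent.Helper45.mv ⇑Q g v), hRgv v,
      QuadraticMap.polar_neg_right, neg_neg]
  · show (Cfsg.reflectionMatrix ⇑Q u₀).det = -1
    exact Cfsg.Agent.Helper13.reflection_det Q u₀ hu₀
  · calc gm g * ((s • (1 : Matrix ι ι F) + t • gm g) * gm R)
        = (gm g * (s • (1 : Matrix ι ι F) + t • gm g)) * gm R := (mul_assoc _ _ _).symm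
      _ = (s • (1 : Matrix ι ι F) + t • gm g) * (gm g * gm R) := by rw [hXc, mul_assoc]
      _ = -((s • (1 : Matrix ι ι F) + t • gm g) * (gm R * gm g)) := by rw [hRg, mul_neg, neg_neg]
      _ = -((s • (1 : Matrix ι ι F) + t • gm g) * gm R * gm g) := by rw [mul_assoc]
  · rw [hρinv]
    have hA := c3o_ncase_alg1 (gm g) (gm R) (gm (Cfsg.Agent.Helper45.reflO Q u₀ hu₀)) hRg hPP hPR
    have hB := c3o_ncase_alg2 (gm g) (gm R) (gm (Cfsg.Agent.Helper45.reflO Q u₀ hu₀)) hRg hPR hf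
    have hJP : gm (Cfsg.Agent.Helper45.reflO Q u₀ hu₀) *
        ((s • (1 : Matrix ι ι F) + t • gm g) * gm R) * gm (Cfsg.Agent.Helper45.reflO Q u₀ hu₀) =
        s • (gm (Cfsg.Agent.Helper45.reflO Q u₀ hu₀) * gm R *
          gm (Cfsg.Agent.Helper45.reflO Q u₀ hu₀)) +
        t • (gm (Cfsg.Agent.Helper45.reflO Q u₀ hu₀) * (gm g * gm R) *
          gm (Cfsg.Agent.Helper45.reflO Q u₀ hu₀)) := by
      simp only [add_mul, mul_add, smul_mul_assoc, mul_smul_comm, one_mul]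
    rw [hJP, mul_add, mul_smul_comm, mul_smul_comm, hA, hB, add_mul, smul_mul_assoc,
      smul_mul_assoc, neg_add, smul_neg, smul_neg]

end quad

end Cfsg.Agent.Helper53
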