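import Cfsg.Agent.Helper35.CoprimeAbelian

/-!
# An odd-order element centralizing all involutions of a 2-group (PIECE P5 of CALL S3797)

If `u` of odd order normalizes the 2-group `P` and centralizes all its involutions, then the
fixed points of `u` in `[P, u]` have exponent at most 2.
-/

set_option autoImplicit false

namespace Cfsg.Agent.Helper53

open Subgroup
open scoped commutatorElement Pointwise

universe u

variable {G : Type u} [Group G]

/-- (a) `u` commutes with every 2-element `x` of `P` that commutes with its conjugate. -/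
theorem sp_fix (P : Subgroup G) (u : G) (hu : Odd (orderOf u))
    (hnorm : ∀ x ∈ P, u * x * u⁻¹ ∈ P) (hinv : ∀ x ∈ P, x * x = 1 → u * x = x * u) :
    ∀ k : ℕ, ∀ x ∈ P, x ^ 2 ^ k = 1 → Commute x (u * x * u⁻¹) → u * x = x * u := by
  intro k
  induction k with
  | zero =>
    intro x _ hx _
    rw [pow_zero, pow_one] at hx
    rw [hx, mul_one, one_mul]
  | succ k ih =>
    intro x hxP hx hc
    have h2 : u * (x * x) = (x * x) * u := by
      apply ih (x * x) (P.mul_mem hxP hxP)
      · rw [← pow_two, ← pow_mul, ← pow_succ']; exact hx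
      · have : u * (x * x) * u⁻¹ = (u * x * u⁻¹) * (u * x * u⁻¹) := by group
        rw [this]
        exact (hc.mul_left hc).mul_right (hc.mul_left hc)
    obtain ⟨y, hy⟩ : ∃ y : G, y = x⁻¹ * (u * x * u⁻¹) := ⟨_, rfl⟩
    have hyP : y ∈ P := by rw [hy]; exact P.mul_mem (P.inv_mem hxP) (hnorm x hxP)
    have hcinv : x⁻¹ * (u * x * u⁻¹) = (u * x * u⁻¹) * x⁻¹ := (hc.inv_left).eq
    have hyy : y * y = 1 := by
      calc y * y = x⁻¹ * ((u * x * u⁻¹) * x⁻¹) * (u * x * u⁻¹) := by rw [hy]; group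
        _ = x⁻¹ * (x⁻¹ * (u * x * u⁻¹)) * (u * x * u⁻¹) := by rw [← hcinv]
        _ = x⁻¹ * x⁻¹ * (u * (x * x)) * u⁻¹ := by group
        _ = x⁻¹ * x⁻¹ * ((x * x) * u) * u⁻¹ := by rw [h2]
        _ = 1 := by group
    have huy : u * y = y * u := hinv y hyP hyy
    have hφx : MulAut.conj u x = x * y := by
      rw [MulAut.conj_apply, hy]; group
    have hφy : MulAut.conj u y = y := by
      rw [MulAut.conj_apply, huy]; group
    have hj : ∀ j : ℕ, (MulAut.conj u ^ j) x = x * y ^ j := by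
      intro j
      induction j with
      | zero => simp
      | succ j ihj =>
        rw [pow_succ', MulAut.mul_apply, ihj, map_mul, map_pow, hφx, hφy, pow_succ', mul_assoc]
    have hone : MulAut.conj u ^ orderOf u = 1 := by
      rw [← map_pow, pow_orderOf_eq_one, map_one]
    have hym : y ^ orderOf u = 1 := by
      have h := hj (orderOf u)
      rw [hone, MulAut.one_apply] at h
      have h' : x * 1 = x * y ^ orderOf u := by rw [mul_one]; exact h
      exact (mul_left_cancel h').symm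
    have hy1 : y = 1 := by
      obtain ⟨q, hq⟩ := hu
      rw [hq, pow_succ, pow_mul, pow_two, hyy, one_pow, one_mul] at hym
      exact hym
    have hfin : u * x * u⁻¹ = x := by
      have h := hφx
      rw [MulAut.conj_apply, hy1, mul_one] at h
      exact h
    calc u * x = (u * x * u⁻¹) * u := by group
      _ = x * u := by rw [hfin]

/-- An element normalizing `H` and `K` normalizes `⁅H, K⁆`. -/
theorem sp_conj_commutator {H K : Subgroup G} {a : G} (hH : a ∈ normalizer (H : Set G))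
    (hK : a ∈ normalizer (K : Set G)) : a ∈ normalizer ((⁅H, K⁆ : Subgroup G) : Set G) := by
  rw [Helper35.mem_normalizer_iff_conj_smul_eq]
  have h1 : MulAut.conj a • (⁅H, K⁆ : Subgroup G) = ⁅MulAut.conj a • H, MulAut.conj a • K⁆ :=
    Subgroup.map_commutator H K (MulAut.conj a).toMonoidHom
  rw [h1, Helper35.conj_smul_eq_self_of_mem_normalizer hH,
    Helper35.conj_smul_eq_self_of_mem_normalizer hK]

/-- In a finite group, one-sided conjugation invariance gives normalization. -/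
theorem sp_mem_normalizer [Finite G] {M : Subgroup G} {u : G}
    (h : ∀ x ∈ M, u * x * u⁻¹ ∈ M) : u ∈ normalizer (M : Set G) := by
  have hpow : ∀ n : ℕ, ∀ x ∈ M, u ^ n * x * (u ^ n)⁻¹ ∈ M := by
    intro n
    induction n with
    | zero => intro x hx; simpa using hx
    | succ n ih =>
      intro x hx
      have := h _ (ih x hx)
      have e : u ^ (n + 1) * x * (u ^ (n + 1))⁻¹ = u * (u ^ n * x * (u ^ n)⁻¹) * u⁻¹ := by
        rw [pow_succ']; group
      rw [e]; exact this
  have hinv : u⁻¹ = u ^ (orderOf u - 1) := by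
    have h1 : u ^ (orderOf u - 1) * u = 1 := by
      rw [← pow_succ, Nat.sub_add_cancel (orderOf_pos u), pow_orderOf_eq_one]
    exact (eq_inv_of_mul_eq_one_left h1).symm
  rw [Subgroup.mem_normalizer_iff]
  intro x
  refine ⟨h x, fun hx => ?_⟩
  have := hpow (orderOf u - 1) _ hx
  rw [← hinv] at this
  have e : u⁻¹ * (u * x * u⁻¹) * u⁻¹⁻¹ = x := by group
  rw [e] at this
  exact this

/-- (b) abelian subgroups of `R = [R, u]` normalized by `R` and `u` are central in `R`. -/
theorem sp_central {P : Subgroup G} {u : G} (hu : Odd (orderOf u))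
    (hnorm : ∀ x ∈ P, u * x * u⁻¹ ∈ P) (hinv : ∀ x ∈ P, x * x = 1 → u * x = x * u)
    (hP : IsPGroup 2 P)
    {R M : Subgroup G} (hRP : R ≤ P) (hRA : (⁅R, zpowers u⁆ : Subgroup G) = R)
    (hMR : M ≤ R) (hMc : ∀ x ∈ M, ∀ y ∈ M, x * y = y * x)
    (hRM : R ≤ normalizer (M : Set G)) (huM : ∀ x ∈ M, u * x * u⁻¹ ∈ M) :
    (⁅R, M⁆ : Subgroup G) = ⊥ := by
  have h1 : (⁅M, zpowers u⁆ : Subgroup G) = ⊥ := by
    rw [Subgroup.commutator_eq_bot_iff_le_centralizer]
    intro x hx
    rw [Subgroup.mem_centralizer_iff]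
    intro a ha
    obtain ⟨n, rfl⟩ := ha
    obtain ⟨k, hk⟩ := hP ⟨x, hRP (hMR hx)⟩
    have hk' : x ^ 2 ^ k = 1 := by
      have := congrArg Subtype.val hk
      simpa using this
    have hux : u * x = x * u :=
      sp_fix P u hu hnorm hinv k x (hRP (hMR hx)) hk' (hMc x hx _ (huM x hx))
    have hcu : Commute u x := hux
    exact (hcu.zpow_left n).eq
  have h2 : (⁅⁅M, zpowers u⁆, R⁆ : Subgroup G) = ⊥ := by
    rw [h1]; exact Subgroup.commutator_bot_left R
  have h3 : (⁅⁅R, M⁆, zpowers u⁆ : Subgroup G) = ⊥ := by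
    rw [eq_bot_iff, ← h1]
    apply Subgroup.commutator_mono _ le_rfl
    rw [Subgroup.commutator_comm]
    exact Helper35.commutator_le_of_le_normalizer hRM
  have h4 : (⁅⁅zpowers u, R⁆, M⁆ : Subgroup G) = ⊥ :=
    Subgroup.commutator_commutator_eq_bot_of_rotate h3 h2
  rw [Subgroup.commutator_comm (zpowers u) R, hRA] at h4
  exact h4

/-- (c) class at most 2 from (b). -/
theorem sp_class_two {R : Subgroup G} {u : G} (hnil : Group.IsNilpotent R)
    (huR : u ∈ normalizer (R : Set G))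
    (hb : ∀ M : Subgroup G, M ≤ R → (∀ x ∈ M, ∀ y ∈ M, x * y = y * x) →
      R ≤ normalizer (M : Set G) → u ∈ normalizer (M : Set G) → (⁅R, M⁆ : Subgroup G) = ⊥) :
    (⁅⁅R, R⁆, R⁆ : Subgroup G) = ⊥ := by
  obtain ⟨n, hn⟩ := (Subgroup.isNilpotent_iff_lowerCentralSeries R).mp hnil
  have hun : ∀ n : ℕ, u ∈ normalizer ((R.lowerCentralSeries n : Subgroup G) : Set G) := by
    intro n
    induction n with
    | zero => exact huR
    | succ n ih => rw [Subgroup.lowerCentralSeries_succ]; exact sp_conj_commutator ih huR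
  have key : ∀ n, R.lowerCentralSeries n = ⊥ → R.lowerCentralSeries 2 = ⊥ := by
    intro n
    induction n with
    | zero =>
      intro h
      exact le_bot_iff.mp (h ▸ R.lowerCentralSeries_antitone (Nat.zero_le 2))
    | succ n ih =>
      intro h
      by_cases hn2 : n + 1 ≤ 2
      · exact le_bot_iff.mp (h ▸ R.lowerCentralSeries_antitone hn2)
      · obtain ⟨k, rfl⟩ : ∃ k, n = k + 2 := ⟨n - 2, by omega⟩
        apply ih
        have hDR : R.lowerCentralSeries (k + 1) ≤ R :=
          R.lowerCentralSeries_antitone (Nat.zero_le (k + 1))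
        have hD1 : R.lowerCentralSeries (k + 1) ≤ ⁅R, R⁆ :=
          R.lowerCentralSeries_antitone (Nat.succ_le_succ (Nat.zero_le k))
        have h3 : (⁅⁅R.lowerCentralSeries (k + 1), R⁆, R⁆ : Subgroup G) = ⊥ := h
        have hDD : (⁅⁅R, R⁆, R.lowerCentralSeries (k + 1)⁆ : Subgroup G) = ⊥ :=
          Subgroup.commutator_commutator_eq_bot_of_rotate
            (by rw [Subgroup.commutator_comm R (R.lowerCentralSeries (k + 1))]; exact h3) h3
        have hDab : ∀ x ∈ R.lowerCentralSeries (k + 1), ∀ y ∈ R.lowerCentralSeries (k + 1),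
            x * y = y * x := by
          intro x hx y hy
          have hxy : ⁅x, y⁆ ∈ (⁅⁅R, R⁆, R.lowerCentralSeries (k + 1)⁆ : Subgroup G) :=
            Subgroup.commutator_mem_commutator (hD1 hx) hy
          rw [hDD, Subgroup.mem_bot, commutatorElement_eq_one_iff_mul_comm] at hxy
          exact hxy
        have hfin := hb _ hDR hDab (R.self_le_normalizer_lowerCentralSeries _) (hun _)
        rw [Subgroup.lowerCentralSeries_succ, Subgroup.commutator_comm]
        exact hfin
  exact key n hn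

/-- (f) a fixed point of `A` in `R = [R, A]` has its `|A|`-th power in `R'`. -/
theorem sp_abel_fix [Finite G] {R A : Subgroup G} (hAR : A ≤ normalizer (R : Set G))
    (hRA : (⁅R, A⁆ : Subgroup G) = R) {x : G} (hx : x ∈ R)
    (hxA : ∀ a ∈ A, a * x = x * a) : x ^ Nat.card A ∈ (⁅R, R⁆ : Subgroup G) := by
  classical
  let _ : Fintype A := Fintype.ofFinite A
  let φ : A → (R →* R) := fun a =>
    MonoidHom.mk' (fun r => ⟨(a : G) * r * (a : G)⁻¹,
      (Subgroup.mem_normalizer_iff.mp (hAR a.2) r).mp r.2⟩)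
      (fun r s => Subtype.ext (by simp [mul_assoc]))
  have hφ : ∀ (a : A) (r : R), ((φ a r : R) : G) = (a : G) * r * (a : G)⁻¹ := fun a r => rfl
  let ψ : A → (Abelianization R →* Abelianization R) := fun a => Abelianization.map (φ a)
  have hψ : ∀ (a b : A) (v : Abelianization R), ψ a (ψ b v) = ψ (a * b) v := by
    intro a b v
    have hcomp : (φ a).comp (φ b) = φ (a * b) := by
      ext r
      rw [MonoidHom.comp_apply, hφ, hφ, hφ]
      simp [mul_assoc]
    change Abelianization.map (φ a) (Abelianization.map (φ b) v) = _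
    rw [Abelianization.map_map_apply, hcomp]
  let ν : Abelianization R →* Abelianization R := ∏ a : A, ψ a
  have hν : ∀ v : Abelianization R, ν v = ∏ a : A, ψ a v :=
    fun v => MonoidHom.finsetProd_apply _ _ _
  have hνψ : ∀ (b : A) (v : Abelianization R), ν (ψ b v) = ν v := by
    intro b v
    rw [hν, hν]
    refine Fintype.prod_equiv (Equiv.mulRight b) _ _ ?_
    intro a
    rw [hψ]; rfl
  have hker : (⁅R, A⁆ : Subgroup G) ≤ ((ν.comp Abelianization.of).ker).map R.subtype := by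
    rw [Subgroup.commutator_le]
    intro k hk a ha
    refine ⟨(⟨k, hk⟩ : R) * φ ⟨a, ha⟩ (⟨k, hk⟩ : R)⁻¹, ?_, ?_⟩
    · rw [SetLike.mem_coe, MonoidHom.mem_ker, MonoidHom.comp_apply, map_mul, map_mul]
      have e : Abelianization.of (φ ⟨a, ha⟩ (⟨k, hk⟩ : R)⁻¹)
          = ψ ⟨a, ha⟩ (Abelianization.of (⟨k, hk⟩ : R)⁻¹) := rfl
      rw [e, hνψ, ← map_mul, ← map_mul, mul_inv_cancel, map_one, map_one]
    · rw [commutatorElement_def]
      simp [hφ, mul_assoc]
  rw [hRA] at hker
  obtain ⟨r, hr, hrx⟩ := hker hx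
  have hrx' : (r : G) = x := hrx
  rw [SetLike.mem_coe, MonoidHom.mem_ker, MonoidHom.comp_apply] at hr
  have hfixr : ∀ a : A, φ a r = r := by
    intro a
    apply Subtype.ext
    rw [hφ, hrx', hxA a a.2]; group
  have hψr : ∀ a : A, ψ a (Abelianization.of r) = Abelianization.of r := by
    intro a
    change Abelianization.map (φ a) (Abelianization.of r) = _
    rw [Abelianization.map_of, hfixr]
  rw [hν, Finset.prod_congr rfl (fun a _ => hψr a), Finset.prod_const, Finset.card_univ,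
    ← Nat.card_eq_fintype_card, ← map_pow] at hr
  have hmem : r ^ Nat.card A ∈ _root_.commutator R := by
    rw [← Abelianization.ker_of, MonoidHom.mem_ker]; exact hr
  rw [← Subgroup.map_subtype_commutator]
  exact ⟨r ^ Nat.card A, hmem, by rw [← hrx']; rfl⟩

variable [Finite G]

/-- PIECE P5 of CALL S3797. -/
theorem shaw_sp (P : Subgroup G) (hP : IsPGroup 2 P) (u : G) (hu : Odd (orderOf u))
    (hnorm : ∀ x ∈ P, u * x * u⁻¹ ∈ P) (hinv : ∀ x ∈ P, x * x = 1 → u * x = x * u) :
    ∀ x ∈ Subgroup.closure {y : G | ∃ g ∈ P, y = g⁻¹ * u⁻¹ * g * u},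
      u * x = x * u → x * x = 1 := by
  have hAP : zpowers u ≤ normalizer (P : Set G) := by
    rw [Subgroup.zpowers_le]; exact sp_mem_normalizer hnorm
  have hcop : (Nat.card (zpowers u)).Coprime (Nat.card P) := by
    obtain ⟨n, hn⟩ := IsPGroup.iff_card.mp hP
    rw [Nat.card_zpowers, hn]
    exact Nat.Coprime.pow_right n hu.coprime_two_right
  obtain ⟨R, hR⟩ : ∃ R : Subgroup G, R = ⁅P, zpowers u⁆ := ⟨_, rfl⟩
  have hRP : R ≤ P := by rw [hR]; exact Helper35.commutator_le_of_le_normalizer hAP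
  have hAR : zpowers u ≤ normalizer (R : Set G) := by
    rw [hR]; exact Helper35.le_normalizer_commutator hAP
  have hRA : (⁅R, zpowers u⁆ : Subgroup G) = R := by
    rw [hR]
    exact Helper35.commutator_commutator_eq_of_coprime hAP hcop (Or.inl inferInstance)
  have huR : u ∈ normalizer (R : Set G) := hAR (mem_zpowers u)
  have hcl : Subgroup.closure {y : G | ∃ g ∈ P, y = g⁻¹ * u⁻¹ * g * u} ≤ R := by
    rw [Subgroup.closure_le]
    rintro y ⟨g, hg, rfl⟩
    have e : g⁻¹ * u⁻¹ * g * u = ⁅g⁻¹, u⁻¹⁆ := by rw [commutatorElement_def]; group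
    rw [e, SetLike.mem_coe, hR]
    exact Subgroup.commutator_mem_commutator (P.inv_mem hg) ((zpowers u).inv_mem (mem_zpowers u))
  have hpow2 : ∀ x ∈ P, ∃ k : ℕ, x ^ 2 ^ k = 1 := by
    intro x hx
    obtain ⟨k, hk⟩ := hP ⟨x, hx⟩
    refine ⟨k, ?_⟩
    have := congrArg Subtype.val hk
    simpa using this
  -- (b)
  have hb : ∀ M : Subgroup G, M ≤ R → (∀ x ∈ M, ∀ y ∈ M, x * y = y * x) →
      R ≤ normalizer (M : Set G) → u ∈ normalizer (M : Set G) → (⁅R, M⁆ : Subgroup G) = ⊥ := by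
    intro M hMR hMc hRM huM
    exact sp_central hu hnorm hinv hP hRP hRA hMR hMc hRM
      (fun x hx => (Subgroup.mem_normalizer_iff.mp huM x).mp hx)
  -- (c)
  have hRp : IsPGroup 2 R := hP.to_le hRP
  have : Fact (Nat.Prime 2) := ⟨Nat.prime_two⟩
  have hc : (⁅⁅R, R⁆, R⁆ : Subgroup G) = ⊥ := sp_class_two hRp.isNilpotent huR hb
  have hcen : ∀ x ∈ R, ∀ y ∈ R, ∀ z ∈ R, Commute ⁅x, y⁆ z := by
    intro x hx y hy z hz
    have h1 : ⁅⁅x, y⁆, z⁆ ∈ (⁅⁅R, R⁆, R⁆ : Subgroup G) :=
      Subgroup.commutator_mem_commutator (Subgroup.commutator_mem_commutator hx hy) hz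
    rw [hc, Subgroup.mem_bot] at h1
    exact commutatorElement_eq_one_iff_commute.mp h1
  have hcomR : ∀ x ∈ R, ∀ y ∈ R, ⁅x, y⁆ ∈ R := fun x hx y hy =>
    R.mul_mem (R.mul_mem (R.mul_mem hx hy) (R.inv_mem hx)) (R.inv_mem hy)
  -- bimultiplicativity
  have hbim : ∀ x ∈ R, ∀ y ∈ R, ∀ n : ℕ, ⁅x ^ n, y⁆ = ⁅x, y⁆ ^ n := by
    intro x hx y hy n
    induction n with
    | zero => simp
    | succ n ih =>
      have hxn : x ^ n ∈ R := R.pow_mem hx n
      have e : ⁅x ^ (n + 1), y⁆ = x * ⁅x ^ n, y⁆ * x⁻¹ * ⁅x, y⁆ := by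
        rw [pow_succ', commutatorElement_def, commutatorElement_def, commutatorElement_def]
        group
      have hcm : x * ⁅x ^ n, y⁆ = ⁅x ^ n, y⁆ * x := ((hcen _ hxn y hy x hx).symm).eq
      rw [e, hcm, ih, pow_succ]
      group
  -- (d)
  have hd : ∀ e : ℕ, (∀ x ∈ R, ∀ y ∈ R, Commute (x ^ 2 ^ (e + 2)) y) →
      (∀ x ∈ R, ∀ y ∈ R, Commute (x ^ 2 ^ (e + 1)) y) := by
    intro e hD
    obtain ⟨S, hS⟩ : ∃ S : Set G, S = {s | ∃ x ∈ R, s = x ^ 2 ^ (e + 1)} := ⟨_, rfl⟩
    have hSR : S ⊆ R := by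
      rw [hS]; rintro s ⟨x, hx, rfl⟩; exact R.pow_mem hx _
    have hScomm : ∀ s ∈ S, ∀ t ∈ S, s * t = t * s := by
      rw [hS]
      rintro s ⟨x, hx, rfl⟩ t ⟨y, hy, rfl⟩
      have hya : y ^ 2 ^ (e + 1) ∈ R := R.pow_mem hy _
      have h1 : ⁅x ^ 2 ^ (e + 1), y ^ 2 ^ (e + 1)⁆ = ⁅x, y ^ 2 ^ (e + 1)⁆ ^ 2 ^ (e + 1) :=
        hbim x hx _ hya _
      have h2 : ⁅x, y ^ 2 ^ (e + 1)⁆ = (⁅y, x⁆ ^ 2 ^ (e + 1))⁻¹ := by
        rw [← hbim y hy x hx, commutatorElement_inv]
      have h3 : ⁅y ^ (2 ^ (e + 1) * 2 ^ (e + 1)), x⁆ = 1 := by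
        rw [commutatorElement_eq_one_iff_commute]
        have e1 : 2 ^ (e + 1) * 2 ^ (e + 1) = 2 ^ (e + 2) * 2 ^ e := by
          rw [← pow_add, ← pow_add]; congr 1; omega
        rw [e1, pow_mul]
        exact (hD y hy x hx).pow_left _
      have h4 : ⁅x ^ 2 ^ (e + 1), y ^ 2 ^ (e + 1)⁆ = 1 := by
        rw [h1, h2, inv_pow, ← pow_mul, ← hbim y hy x hx, h3, inv_one]
      exact commutatorElement_eq_one_iff_mul_comm.mp h4
    have hDR : closure S ≤ R := (Subgroup.closure_le R).mpr hSR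
    have hDc : ∀ x ∈ closure S, ∀ y ∈ closure S, x * y = y * x := by
      intro x hx y hy
      have := (Subgroup.isMulCommutative_closure hScomm).is_comm.comm
        (⟨x, hx⟩ : closure S) ⟨y, hy⟩
      exact congrArg Subtype.val this
    have hnD : ∀ g : G, g ∈ normalizer (R : Set G) →
        g ∈ normalizer ((closure S : Subgroup G) : Set G) := by
      intro g hg
      apply sp_mem_normalizer
      intro d hd
      have hmap : (closure S).map (MulAut.conj g).toMonoidHom ≤ closure S := by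
        rw [MonoidHom.map_closure, Subgroup.closure_le]
        rintro _ ⟨s, hs, rfl⟩
        apply Subgroup.subset_closure
        rw [hS] at hs ⊢
        obtain ⟨x, hx, rfl⟩ := hs
        refine ⟨g * x * g⁻¹, (Subgroup.mem_normalizer_iff.mp hg x).mp hx, ?_⟩
        change MulAut.conj g (x ^ 2 ^ (e + 1)) = _
        rw [map_pow, MulAut.conj_apply]
      exact hmap ⟨d, hd, rfl⟩
    have hfin := hb (closure S) hDR hDc (fun g hg => hnD g (Subgroup.le_normalizer hg))
      (hnD u huR)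
    intro x hx y hy
    have hmem : ⁅y, x ^ 2 ^ (e + 1)⁆ ∈ (⁅R, closure S⁆ : Subgroup G) :=
      Subgroup.commutator_mem_commutator hy
        (Subgroup.subset_closure (by rw [hS]; exact ⟨x, hx, rfl⟩))
    rw [hfin, Subgroup.mem_bot, commutatorElement_eq_one_iff_commute] at hmem
    exact hmem.symm
  -- squares are central
  have hsq : ∀ x ∈ R, ∀ y ∈ R, Commute (x ^ 2 ^ (0 + 1)) y := by
    obtain ⟨n, hn⟩ := IsPGroup.iff_card.mp hP
    have hbig : ∀ N : ℕ, n ≤ N + 1 → ∀ x ∈ R, ∀ y ∈ R, Commute (x ^ 2 ^ (N + 1)) y := by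
      intro N hN x hx y _
      have h1 : x ^ 2 ^ n = 1 := by
        have h := pow_card_eq_one' (G := P) (x := ⟨x, hRP hx⟩)
        rw [hn] at h
        have := congrArg Subtype.val h
        simpa using this
      have h2 : x ^ 2 ^ (N + 1) = 1 := by
        obtain ⟨d, hd⟩ := Nat.exists_eq_add_of_le hN
        rw [hd, pow_add, pow_mul, h1, one_pow]
      rw [h2]; exact Commute.one_left y
    have hdesc : ∀ N : ℕ, (∀ x ∈ R, ∀ y ∈ R, Commute (x ^ 2 ^ (N + 1)) y) →
        (∀ x ∈ R, ∀ y ∈ R, Commute (x ^ 2 ^ (0 + 1)) y) := by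
      intro N
      induction N with
      | zero => exact fun h => h
      | succ N ih => exact fun h => ih (hd N h)
    exact hdesc n (hbig n (Nat.le_succ n))
  -- (e) commutators have order at most 2
  have he : ∀ x ∈ R, ∀ y ∈ R, ⁅x, y⁆ * ⁅x, y⁆ = 1 := by
    intro x hx y hy
    have h1 := hbim x hx y hy 2
    have h2 : ⁅x ^ 2, y⁆ = 1 := by
      rw [commutatorElement_eq_one_iff_commute]
      have := hsq x hx y hy
      simpa using this
    rw [← pow_two, ← h1, h2]
  -- the derived subgroup has exponent 2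
  let W : Subgroup G :=
    { carrier := {c | c ∈ R ∧ (∀ z ∈ R, c * z = z * c) ∧ c * c = 1}
      mul_mem' := by
        rintro c d ⟨hc1, hc2, hc3⟩ ⟨hd1, hd2, hd3⟩
        refine ⟨R.mul_mem hc1 hd1, fun z hz => ?_, ?_⟩
        · rw [mul_assoc, hd2 z hz, ← mul_assoc, hc2 z hz, mul_assoc]
        · calc c * d * (c * d) = c * (d * c) * d := by group
            _ = c * (c * d) * d := by rw [hc2 d hd1]
            _ = (c * c) * (d * d) := by group
            _ = 1 := by rw [hc3, hd3, one_mul]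
      one_mem' := ⟨R.one_mem, fun z _ => by rw [one_mul, mul_one], one_mul 1⟩
      inv_mem' := by
        rintro c ⟨hc1, hc2, hc3⟩
        refine ⟨R.inv_mem hc1, fun z hz => ?_, ?_⟩
        · have h := hc2 z hz
          calc c⁻¹ * z = c⁻¹ * (z * c) * c⁻¹ := by group
            _ = c⁻¹ * (c * z) * c⁻¹ := by rw [h]
            _ = z * c⁻¹ := by group
        · rw [← mul_inv_rev, hc3, inv_one] }
  have hW : (⁅R, R⁆ : Subgroup G) ≤ W := by
    rw [Subgroup.commutator_le]
    intro x hx y hy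
    exact ⟨hcomR x hx y hy, fun z hz => (hcen x hx y hy z hz).eq, he x hx y hy⟩
  -- (f) and conclusion
  intro x hxcl hux
  have hx : x ∈ R := hcl hxcl
  have hxA : ∀ a ∈ zpowers u, a * x = x * a := by
    rintro a ⟨n, rfl⟩
    have hcu : Commute u x := hux
    exact (hcu.zpow_left n).eq
  have hm := sp_abel_fix hAR hRA hx hxA
  rw [Nat.card_zpowers] at hm
  have hm2 : x ^ orderOf u * x ^ orderOf u = 1 := (hW hm).2.2
  have hm3 : (x * x) ^ orderOf u = 1 := by
    rw [← pow_two, ← pow_mul, mul_comm, pow_mul, pow_two]; exact hm2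
  obtain ⟨k, hk⟩ := hpow2 (x * x) (P.mul_mem (hRP hx) (hRP hx))
  have hd1 : orderOf (x * x) ∣ orderOf u := orderOf_dvd_of_pow_eq_one hm3
  have hd2 : orderOf (x * x) ∣ 2 ^ k := orderOf_dvd_of_pow_eq_one hk
  have hcop2 : (orderOf (x * x)).Coprime (orderOf u) :=
    Nat.Coprime.coprime_dvd_left hd2 (Nat.Coprime.pow_left k hu.coprime_two_left)
  have h1 : orderOf (x * x) = 1 := Nat.Coprime.eq_one_of_dvd hcop2 hd1
  exact orderOf_eq_one_iff.mp h1

end Cfsg.Agent.Helper53
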