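-- helper53 library: the Lie ring associated with the lower central series of a group
-- (towards S3779); add-only.
import Mathlib

set_option autoImplicit false

namespace Cfsg.Agent.Helper53.HK

open scoped commutatorElement

universe u

section Three

variable {G : Type u} [Group G]

/-- The three subgroups lemma modulo a normal subgroup. -/
theorem three_subgroups (N : Subgroup G) [N.Normal] {H1 H2 H3 : Subgroup G}
    (h1 : ⁅⁅H2, H3⁆, H1⁆ ≤ N) (h2 : ⁅⁅H3, H1⁆, H2⁆ ≤ N) : ⁅⁅H1, H2⁆, H3⁆ ≤ N := by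
  have key : ∀ A B C : Subgroup G, ⁅⁅A, B⁆, C⁆ ≤ N ↔
      ⁅⁅A.map (QuotientGroup.mk' N), B.map (QuotientGroup.mk' N)⁆,
        C.map (QuotientGroup.mk' N)⁆ = ⊥ := by
    intro A B C
    rw [← Subgroup.map_commutator, ← Subgroup.map_commutator, Subgroup.map_eq_bot_iff,
      QuotientGroup.ker_mk']
  rw [key] at h1 h2 ⊢
  exact Subgroup.commutator_commutator_eq_bot_of_rotate h1 h2

theorem lcs_comm_le : ∀ (j i : ℕ),
    ⁅(⊤ : Subgroup G).lowerCentralSeries i, (⊤ : Subgroup G).lowerCentralSeries j⁆ ≤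
      (⊤ : Subgroup G).lowerCentralSeries (i + j + 1)
  | 0, i => le_of_eq rfl
  | j + 1, i => by
    rw [Subgroup.commutator_comm]
    show ⁅⁅(⊤ : Subgroup G).lowerCentralSeries j, ⊤⁆, (⊤ : Subgroup G).lowerCentralSeries i⁆ ≤ _
    apply three_subgroups
    · rw [Subgroup.commutator_comm ⊤ _]
      have h := lcs_comm_le j (i + 1)
      have e : i + 1 + j + 1 = i + (j + 1) + 1 := by omega
      rw [e] at h
      exact h
    · have h := lcs_comm_le j i
      have h2 := Subgroup.commutator_mono h (le_refl (⊤ : Subgroup G))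
      have e : i + j + 1 + 1 = i + (j + 1) + 1 := by omega
      rw [← e]
      exact h2

end Three

section Gamma

variable (G : Type u) [Group G]

/-- The lower central series indexed by weights: `Gam 0 = Gam 1 = ⊤`. -/
def Gam : ℕ → Subgroup G
  | 0 => ⊤
  | w + 1 => (⊤ : Subgroup G).lowerCentralSeries w

theorem Gam_zero : Gam G 0 = ⊤ := rfl

theorem Gam_succ (w : ℕ) : Gam G (w + 1) = (⊤ : Subgroup G).lowerCentralSeries w := rfl

instance Gam_char (w : ℕ) : (Gam G w).Characteristic := by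
  cases w with
  | zero => exact inferInstanceAs ((⊤ : Subgroup G).Characteristic)
  | succ w => exact inferInstanceAs (((⊤ : Subgroup G).lowerCentralSeries w).Characteristic)

theorem Gam_succ_le (w : ℕ) : Gam G (w + 1) ≤ Gam G w := by
  cases w with
  | zero => exact le_top
  | succ w => exact (⊤ : Subgroup G).lowerCentralSeries_antitone (Nat.le_succ w)

theorem Gam_anti {a b : ℕ} (h : a ≤ b) : Gam G b ≤ Gam G a := by
  induction h with
  | refl => exact le_rfl
  | step _ ih => exact (Gam_succ_le G _).trans ih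

theorem Gam_comm_le (a b : ℕ) : ⁅Gam G a, Gam G b⁆ ≤ Gam G (a + b) := by
  cases a with
  | zero =>
    rw [zero_add]
    exact Subgroup.commutator_le_right _ _
  | succ i =>
    cases b with
    | zero => exact Subgroup.commutator_le_left _ _
    | succ j =>
      have h := lcs_comm_le (G := G) j i
      have e : i + 1 + (j + 1) = (i + j + 1) + 1 := by omega
      rw [e]
      exact h

theorem Gam_comm_le_succ (a b : ℕ) : ⁅Gam G a, Gam G b⁆ ≤ Gam G (a + 1) := by
  cases a with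
  | zero => exact le_top
  | succ i => exact Subgroup.commutator_mono le_rfl le_top

variable {G}

theorem comm_mem {a b : ℕ} {g h : G} (hg : g ∈ Gam G a) (hh : h ∈ Gam G b) :
    ⁅g, h⁆ ∈ Gam G (a + b) :=
  Gam_comm_le G a b (Subgroup.commutator_mem_commutator hg hh)

theorem comm_mem_succ {a : ℕ} {g : G} (hg : g ∈ Gam G a) (h : G) : ⁅g, h⁆ ∈ Gam G (a + 1) :=
  Gam_comm_le_succ G a 0 (Subgroup.commutator_mem_commutator hg (Subgroup.mem_top h))

theorem comm_mem_succ' {b : ℕ} (g : G) {h : G} (hh : h ∈ Gam G b) : ⁅g, h⁆ ∈ Gam G (b + 1) := by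
  have h1 := comm_mem_succ hh g
  have e : ⁅g, h⁆ = ⁅h, g⁆⁻¹ := (commutatorElement_inv h g).symm
  rw [e]
  exact inv_mem h1

theorem Gam_cast {a b : ℕ} (e : a = b) {g : G} (hg : g ∈ Gam G a) : g ∈ Gam G b := e ▸ hg

variable (G)

/-- `Gam (w + 1)` as a subgroup of `Gam w`. -/
abbrev GamSub (w : ℕ) : Subgroup ↥(Gam G w) := (Gam G (w + 1)).subgroupOf (Gam G w)

instance secCommGroup (w : ℕ) : CommGroup (↥(Gam G w) ⧸ GamSub G w) :=
  { (inferInstance : Group (↥(Gam G w) ⧸ GamSub G w)) with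
    mul_comm := by
      intro a b
      induction a using QuotientGroup.induction_on with
      | H x =>
        induction b using QuotientGroup.induction_on with
        | H y =>
          rw [← QuotientGroup.mk_mul, ← QuotientGroup.mk_mul, QuotientGroup.eq,
            Subgroup.mem_subgroupOf]
          have h1 : (((x * y)⁻¹ * (y * x) : ↥(Gam G w)) : G) = ⁅(y : G)⁻¹, (x : G)⁻¹⁆ := by
            simp only [Subgroup.coe_mul, Subgroup.coe_inv, commutatorElement_def]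
            group
          rw [h1]
          exact comm_mem_succ (inv_mem y.2) _ }

/-- The sections of the lower central series, written additively. -/
abbrev Sec (w : ℕ) : Type u := Additive (↥(Gam G w) ⧸ GamSub G w)

/-- The class of an element of `Gam w`. -/
def sec (w : ℕ) (g : G) (hg : g ∈ Gam G w) : Sec G w :=
  Additive.ofMul (QuotientGroup.mk ⟨g, hg⟩ : ↥(Gam G w) ⧸ GamSub G w)

variable {G}

theorem sec_congr {w : ℕ} {g h : G} (e : g = h) (hg : g ∈ Gam G w) (hh : h ∈ Gam G w) :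
    sec G w g hg = sec G w h hh := by
  subst e
  rfl

theorem sec_mul {w : ℕ} {g h : G} (hg : g ∈ Gam G w) (hh : h ∈ Gam G w)
    (hgh : g * h ∈ Gam G w) : sec G w (g * h) hgh = sec G w g hg + sec G w h hh := rfl

theorem sec_inv {w : ℕ} {g : G} (hg : g ∈ Gam G w) (hg' : g⁻¹ ∈ Gam G w) :
    sec G w g⁻¹ hg' = -sec G w g hg := rfl

theorem sec_one {w : ℕ} (h1 : (1 : G) ∈ Gam G w) : sec G w 1 h1 = 0 := rfl

theorem sec_eq_zero_iff {w : ℕ} {g : G} (hg : g ∈ Gam G w) :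
    sec G w g hg = 0 ↔ g ∈ Gam G (w + 1) := by
  show Additive.ofMul (QuotientGroup.mk ⟨g, hg⟩ : ↥(Gam G w) ⧸ GamSub G w) = 0 ↔ _
  rw [ofMul_eq_zero, QuotientGroup.eq_one_iff, Subgroup.mem_subgroupOf]

theorem sec_eq_iff {w : ℕ} {g h : G} (hg : g ∈ Gam G w) (hh : h ∈ Gam G w) :
    sec G w g hg = sec G w h hh ↔ g⁻¹ * h ∈ Gam G (w + 1) := by
  show Additive.ofMul (QuotientGroup.mk ⟨g, hg⟩ : ↥(Gam G w) ⧸ GamSub G w) =
    Additive.ofMul (QuotientGroup.mk ⟨h, hh⟩ : ↥(Gam G w) ⧸ GamSub G w) ↔ _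
  rw [Additive.ofMul.injective.eq_iff, QuotientGroup.eq, Subgroup.mem_subgroupOf]
  exact Iff.rfl

theorem sec_surj {w : ℕ} (a : Sec G w) : ∃ (g : G) (hg : g ∈ Gam G w), sec G w g hg = a := by
  obtain ⟨x, hx⟩ := QuotientGroup.mk_surjective (Additive.toMul a)
  exact ⟨x.1, x.2, congrArg Additive.ofMul hx⟩

theorem sec_mul_left_zero {w : ℕ} {x a b : G} (ha : a ∈ Gam G (w + 1)) (hb : b ∈ Gam G w)
    (e : x = a * b) (hx : x ∈ Gam G w) : sec G w x hx = sec G w b hb := by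
  subst e
  rw [sec_mul (Gam_succ_le G w ha) hb, (sec_eq_zero_iff _).2 ha, zero_add]

theorem sec_mul_right_zero {w : ℕ} {x a b : G} (ha : a ∈ Gam G (w + 1)) (hb : b ∈ Gam G w)
    (e : x = b * a) (hx : x ∈ Gam G w) : sec G w x hx = sec G w b hb := by
  subst e
  rw [sec_mul hb (Gam_succ_le G w ha), (sec_eq_zero_iff _).2 ha, add_zero]

variable (G)

/-- The bracket on the sections. -/
def brk (i j : ℕ) (a : Sec G i) (b : Sec G j) : Sec G (i + j) :=
  Quotient.liftOn₂' (Additive.toMul a) (Additive.toMul b)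
    (fun g h => sec G (i + j) ⁅(g : G), (h : G)⁆ (comm_mem g.2 h.2))
    (by
      intro g1 h1 g2 h2 hg hh
      rw [QuotientGroup.leftRel_apply, Subgroup.mem_subgroupOf] at hg hh
      have hg' : (g1 : G)⁻¹ * (g2 : G) ∈ Gam G (i + 1) := hg
      have hh' : (h1 : G)⁻¹ * (h2 : G) ∈ Gam G (j + 1) := hh
      show sec G (i + j) ⁅(g1 : G), (h1 : G)⁆ (comm_mem g1.2 h1.2) =
        sec G (i + j) ⁅(g2 : G), (h2 : G)⁆ (comm_mem g2.2 h2.2)
      have s1 : sec G (i + j) ⁅(g2 : G), (h2 : G)⁆ (comm_mem g2.2 h2.2) =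
          sec G (i + j) ⁅(g1 : G), (h2 : G)⁆ (comm_mem g1.2 h2.2) := by
        have h3 : ⁅(g1 : G)⁻¹ * (g2 : G), (h2 : G)⁆ ∈ Gam G (i + j + 1) :=
          Gam_cast (by omega) (comm_mem hg' h2.2)
        have ha : (g1 : G) * ⁅(g1 : G)⁻¹ * (g2 : G), (h2 : G)⁆ * (g1 : G)⁻¹ ∈
            Gam G (i + j + 1) :=
          (inferInstance : (Gam G (i + j + 1)).Normal).conj_mem _ h3 _
        exact sec_mul_left_zero ha (comm_mem g1.2 h2.2) (by
          simp only [commutatorElement_def]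
          group) _
      have s2 : sec G (i + j) ⁅(g1 : G), (h2 : G)⁆ (comm_mem g1.2 h2.2) =
          sec G (i + j) ⁅(g1 : G), (h1 : G)⁆ (comm_mem g1.2 h1.2) := by
        have h3 : ⁅(g1 : G), (h1 : G)⁻¹ * (h2 : G)⁆ ∈ Gam G (i + j + 1) :=
          Gam_cast (by omega) (comm_mem (a := i) (b := j + 1) g1.2 hh')
        have ha : (h1 : G) * ⁅(g1 : G), (h1 : G)⁻¹ * (h2 : G)⁆ * (h1 : G)⁻¹ ∈
            Gam G (i + j + 1) :=
          (inferInstance : (Gam G (i + j + 1)).Normal).conj_mem _ h3 _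
        exact sec_mul_right_zero ha (comm_mem g1.2 h1.2) (by
          simp only [commutatorElement_def]
          group) _
      rw [s1, s2])

variable {G}

theorem brk_sec (i j : ℕ) {g h : G} (hg : g ∈ Gam G i) (hh : h ∈ Gam G j) :
    brk G i j (sec G i g hg) (sec G j h hh) = sec G (i + j) ⁅g, h⁆ (comm_mem hg hh) := rfl

theorem brk_add_left (i j : ℕ) (a a' : Sec G i) (b : Sec G j) :
    brk G i j (a + a') b = brk G i j a b + brk G i j a' b := by
  obtain ⟨g, hg, rfl⟩ := sec_surj a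
  obtain ⟨g', hg', rfl⟩ := sec_surj a'
  obtain ⟨h, hh, rfl⟩ := sec_surj b
  rw [← sec_mul hg hg' (mul_mem hg hg'), brk_sec, brk_sec, brk_sec]
  have ha : ⁅g, ⁅g', h⁆⁆ ∈ Gam G (i + j + 1) := comm_mem_succ' g (comm_mem hg' hh)
  have e : ⁅g * g', h⁆ = ⁅g, ⁅g', h⁆⁆ * (⁅g', h⁆ * ⁅g, h⁆) := by
    simp only [commutatorElement_def]
    group
  rw [sec_mul_left_zero ha (mul_mem (comm_mem hg' hh) (comm_mem hg hh)) e,
    sec_mul (comm_mem hg' hh) (comm_mem hg hh)]
  exact add_comm _ _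

theorem brk_add_right (i j : ℕ) (a : Sec G i) (b b' : Sec G j) :
    brk G i j a (b + b') = brk G i j a b + brk G i j a b' := by
  obtain ⟨g, hg, rfl⟩ := sec_surj a
  obtain ⟨h, hh, rfl⟩ := sec_surj b
  obtain ⟨h', hh', rfl⟩ := sec_surj b'
  rw [← sec_mul hh hh' (mul_mem hh hh'), brk_sec, brk_sec, brk_sec]
  have ha : ⁅h, ⁅g, h'⁆⁆ ∈ Gam G (i + j + 1) := comm_mem_succ' h (comm_mem hg hh')
  have e : ⁅g, h * h'⁆ = ⁅g, h⁆ * (⁅h, ⁅g, h'⁆⁆ * ⁅g, h'⁆) := by
    simp only [commutatorElement_def]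
    group
  have hb : ⁅h, ⁅g, h'⁆⁆ * ⁅g, h'⁆ ∈ Gam G (i + j) :=
    mul_mem (Gam_succ_le G _ ha) (comm_mem hg hh')
  rw [sec_congr e _ (mul_mem (comm_mem hg hh) hb), sec_mul (comm_mem hg hh) hb,
    sec_mul_left_zero ha (comm_mem hg hh') rfl]

theorem brk_zero_left (i j : ℕ) (b : Sec G j) : brk G i j 0 b = 0 := by
  have h := brk_add_left i j 0 0 b
  rw [add_zero] at h
  exact left_eq_add.1 h

theorem brk_zero_right (i j : ℕ) (a : Sec G i) : brk G i j a 0 = 0 := by
  have h := brk_add_right i j a 0 0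
  rw [add_zero] at h
  exact left_eq_add.1 h

instance instGMulSec : GradedMonoid.GMul (Sec G) := ⟨fun {i j} a b => brk G i j a b⟩

instance instGSemiringSec : DirectSum.GNonUnitalNonAssocSemiring (Sec G) :=
  { mul_zero := fun {i j} a => brk_zero_right i j a
    zero_mul := fun {i j} b => brk_zero_left i j b
    mul_add := fun {i j} a b c => brk_add_right i j a b c
    add_mul := fun {i j} a b c => brk_add_left i j a b c }

variable (G)

/-- The Lie ring of the lower central series. -/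
abbrev LG : Type u := DirectSum ℕ (Sec G)

/-- The homogeneous element of a group element of `Gam w`. -/
def mkL (w : ℕ) (g : G) (hg : g ∈ Gam G w) : LG G := DirectSum.of (Sec G) w (sec G w g hg)

variable {G}

theorem mkL_mul_mkL (i j : ℕ) {g h : G} (hg : g ∈ Gam G i) (hh : h ∈ Gam G j) :
    mkL G i g hg * mkL G j h hh = mkL G (i + j) ⁅g, h⁆ (comm_mem hg hh) :=
  DirectSum.of_mul_of _ _

theorem mkL_congr {w w' : ℕ} {g g' : G} (hw : w = w') (hgg : g = g') (hg : g ∈ Gam G w)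
    (hg' : g' ∈ Gam G w') : mkL G w g hg = mkL G w' g' hg' := by
  subst hw
  subst hgg
  rfl

theorem mkL_mul {w : ℕ} {g h : G} (hg : g ∈ Gam G w) (hh : h ∈ Gam G w)
    (hgh : g * h ∈ Gam G w) : mkL G w (g * h) hgh = mkL G w g hg + mkL G w h hh := by
  unfold mkL
  rw [sec_mul hg hh, map_add]

theorem mkL_inv {w : ℕ} {g : G} (hg : g ∈ Gam G w) (hg' : g⁻¹ ∈ Gam G w) :
    mkL G w g⁻¹ hg' = -mkL G w g hg := by
  unfold mkL
  rw [sec_inv hg, map_neg]

theorem mkL_eq_zero_iff {w : ℕ} {g : G} (hg : g ∈ Gam G w) :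
    mkL G w g hg = 0 ↔ g ∈ Gam G (w + 1) := by
  unfold mkL
  rw [← sec_eq_zero_iff hg]
  constructor
  · intro h
    apply DirectSum.of_injective (β := Sec G) w
    rw [h, map_zero]
  · intro h
    rw [h, map_zero]

theorem LG_ind {P : LG G → Prop} (h0 : P 0)
    (hmk : ∀ (w : ℕ) (g : G) (hg : g ∈ Gam G w), P (mkL G w g hg))
    (hadd : ∀ x y, P x → P y → P (x + y)) (x : LG G) : P x := by
  refine DirectSum.induction_on x h0 ?_ hadd
  intro i a
  obtain ⟨g, hg, rfl⟩ := sec_surj a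
  exact hmk i g hg

theorem LG_mul_skew (x y : LG G) : x * y + y * x = 0 := by
  refine LG_ind (P := fun x => ∀ y : LG G, x * y + y * x = 0) ?_ ?_ ?_ x y
  · intro y
    rw [zero_mul, mul_zero, add_zero]
  · intro i g hg y
    refine LG_ind (P := fun y => mkL G i g hg * y + y * mkL G i g hg = 0) ?_ ?_ ?_ y
    · rw [zero_mul, mul_zero, add_zero]
    · intro j h hh
      rw [mkL_mul_mkL, mkL_mul_mkL,
        mkL_congr (add_comm j i) (commutatorElement_inv g h).symm (comm_mem hh hg)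
          (inv_mem (comm_mem hg hh)),
        mkL_inv (comm_mem hg hh), add_neg_cancel]
    · intro y y' hy hy'
      rw [mul_add, add_mul]
      have e : mkL G i g hg * y + mkL G i g hg * y' + (y * mkL G i g hg + y' * mkL G i g hg) =
          (mkL G i g hg * y + y * mkL G i g hg) + (mkL G i g hg * y' + y' * mkL G i g hg) := by
        abel
      rw [e, hy, hy', add_zero]
  · intro x x' hx hx' y
    rw [mul_add, add_mul]
    have e : x * y + x' * y + (y * x + y * x') = (x * y + y * x) + (x' * y + y * x') := by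
      abel
    rw [e, hx y, hx' y, add_zero]

theorem LG_mul_self (x : LG G) : x * x = 0 := by
  refine LG_ind (P := fun x => x * x = 0) ?_ ?_ ?_ x
  · rw [zero_mul]
  · intro i g hg
    rw [mkL_mul_mkL]
    apply (mkL_eq_zero_iff _).2
    rw [commutatorElement_self]
    exact one_mem _
  · intro x y hx hy
    rw [mul_add, add_mul, add_mul, hx, hy, zero_add, add_zero, add_comm]
    exact LG_mul_skew x y

/-- The Jacobi identity modulo the next term of the lower central series. -/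
theorem sec_jacobi {i j l : ℕ} (hi : 1 ≤ i) {g h k : G} (hg : g ∈ Gam G i) (hh : h ∈ Gam G j)
    (hk : k ∈ Gam G l) (h1 : ⁅g, ⁅h, k⁆⁆ ∈ Gam G (i + j + l))
    (h2 : ⁅⁅g, h⁆, k⁆ ∈ Gam G (i + j + l)) (h3 : ⁅h, ⁅g, k⁆⁆ ∈ Gam G (i + j + l)) :
    sec G (i + j + l) ⁅g, ⁅h, k⁆⁆ h1 =
      sec G (i + j + l) ⁅⁅g, h⁆, k⁆ h2 + sec G (i + j + l) ⁅h, ⁅g, k⁆⁆ h3 := by
  have hY : ⁅k, ⁅g, h⁆⁆ ∈ Gam G (i + j + l) := by
    rw [← commutatorElement_inv]
    exact inv_mem h2
  have hE : ⁅⁅h, k⁆, ⁅g, k * h⁆⁆ ∈ Gam G (i + j + l + 1) :=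
    Gam_cast (by omega) (comm_mem (comm_mem hh hk) (comm_mem_succ hg (k * h)))
  have hab : ⁅⁅g, h⁆, ⁅g, k⁆⁆ ∈ Gam G (i + j + l + 1) :=
    Gam_anti G (by omega) (comm_mem (comm_mem hg hh) (comm_mem hg hk))
  have hID : ⁅g, h⁆ * ⁅h, ⁅g, k⁆⁆ * ⁅g, k⁆ =
      ⁅g, ⁅h, k⁆⁆ * ⁅⁅h, k⁆, ⁅g, k * h⁆⁆ * (⁅g, k⁆ * ⁅k, ⁅g, h⁆⁆ * ⁅g, h⁆) := by
    simp only [commutatorElement_def]
    group
  have comm_of : ∀ {u y : G}, ⁅u, y⁆ ∈ Gam G (i + j + l + 1) →
      Commute (QuotientGroup.mk' (Gam G (i + j + l + 1)) u)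
        (QuotientGroup.mk' (Gam G (i + j + l + 1)) y) := by
    intro u y huy
    rw [← commutatorElement_eq_one_iff_commute, ← map_commutatorElement]
    exact (QuotientGroup.eq_one_iff _).2 huy
  have cab := comm_of hab
  have cZa := comm_of (comm_mem_succ h3 ⁅g, h⁆)
  have cYb := comm_of (comm_mem_succ hY ⁅g, k⁆)
  have hID' := congrArg (QuotientGroup.mk' (Gam G (i + j + l + 1))) hID
  simp only [map_mul] at hID'
  have hE1 : QuotientGroup.mk' (Gam G (i + j + l + 1)) ⁅⁅h, k⁆, ⁅g, k * h⁆⁆ = 1 :=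
    (QuotientGroup.eq_one_iff _).2 hE
  rw [hE1] at hID'
  have hfin : QuotientGroup.mk' (Gam G (i + j + l + 1)) ⁅h, ⁅g, k⁆⁆ =
      QuotientGroup.mk' (Gam G (i + j + l + 1)) ⁅g, ⁅h, k⁆⁆ *
        QuotientGroup.mk' (Gam G (i + j + l + 1)) ⁅k, ⁅g, h⁆⁆ := by
    apply mul_right_cancel (b := QuotientGroup.mk' (Gam G (i + j + l + 1)) ⁅g, k⁆ *
      QuotientGroup.mk' (Gam G (i + j + l + 1)) ⁅g, h⁆)
    calc QuotientGroup.mk' (Gam G (i + j + l + 1)) ⁅h, ⁅g, k⁆⁆ *
          (QuotientGroup.mk' (Gam G (i + j + l + 1)) ⁅g, k⁆ *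
            QuotientGroup.mk' (Gam G (i + j + l + 1)) ⁅g, h⁆)
        = QuotientGroup.mk' (Gam G (i + j + l + 1)) ⁅h, ⁅g, k⁆⁆ *
          (QuotientGroup.mk' (Gam G (i + j + l + 1)) ⁅g, h⁆ *
            QuotientGroup.mk' (Gam G (i + j + l + 1)) ⁅g, k⁆) := by rw [cab.eq]
      _ = QuotientGroup.mk' (Gam G (i + j + l + 1)) ⁅g, h⁆ *
          QuotientGroup.mk' (Gam G (i + j + l + 1)) ⁅h, ⁅g, k⁆⁆ *
            QuotientGroup.mk' (Gam G (i + j + l + 1)) ⁅g, k⁆ := by rw [← mul_assoc, cZa.eq]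
      _ = QuotientGroup.mk' (Gam G (i + j + l + 1)) ⁅g, ⁅h, k⁆⁆ * 1 *
          (QuotientGroup.mk' (Gam G (i + j + l + 1)) ⁅g, k⁆ *
            QuotientGroup.mk' (Gam G (i + j + l + 1)) ⁅k, ⁅g, h⁆⁆ *
              QuotientGroup.mk' (Gam G (i + j + l + 1)) ⁅g, h⁆) := hID'
      _ = QuotientGroup.mk' (Gam G (i + j + l + 1)) ⁅g, ⁅h, k⁆⁆ *
          QuotientGroup.mk' (Gam G (i + j + l + 1)) ⁅k, ⁅g, h⁆⁆ *
            (QuotientGroup.mk' (Gam G (i + j + l + 1)) ⁅g, k⁆ *
              QuotientGroup.mk' (Gam G (i + j + l + 1)) ⁅g, h⁆) := by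
        rw [mul_one, ← cYb.eq]
        simp only [mul_assoc]
  rw [← map_mul] at hfin
  have hmem : ⁅h, ⁅g, k⁆⁆⁻¹ * (⁅g, ⁅h, k⁆⁆ * ⁅k, ⁅g, h⁆⁆) ∈ Gam G (i + j + l + 1) :=
    QuotientGroup.eq.1 hfin
  have s1 := (sec_eq_iff h3 (mul_mem h1 hY)).2 hmem
  rw [sec_mul h1 hY] at s1
  have s2 : sec G (i + j + l) ⁅k, ⁅g, h⁆⁆ hY = -sec G (i + j + l) ⁅⁅g, h⁆, k⁆ h2 := by
    rw [← sec_inv h2 (inv_mem h2)]
    exact sec_congr (commutatorElement_inv _ _).symm _ _
  rw [s2] at s1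
  rw [s1]
  abel

theorem LG_jacobi (x y z : LG G) : x * (y * z) = x * y * z + y * (x * z) := by
  refine LG_ind (P := fun x => ∀ y z : LG G, x * (y * z) = x * y * z + y * (x * z)) ?_ ?_ ?_ x y z
  · intro y z
    simp only [zero_mul, mul_zero, add_zero]
  · intro i g hg y z
    refine LG_ind (P := fun y => ∀ z : LG G, mkL G i g hg * (y * z) =
      mkL G i g hg * y * z + y * (mkL G i g hg * z)) ?_ ?_ ?_ y z
    · intro z
      simp only [zero_mul, mul_zero, add_zero]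
    · intro j h hh z
      refine LG_ind (P := fun z => mkL G i g hg * (mkL G j h hh * z) =
        mkL G i g hg * mkL G j h hh * z + mkL G j h hh * (mkL G i g hg * z)) ?_ ?_ ?_ z
      · simp only [mul_zero, add_zero]
      · intro l k hk
        rcases Nat.eq_zero_or_pos i with hi0 | hi
        · subst hi0
          have hz : mkL G 0 g hg = 0 := (mkL_eq_zero_iff hg).2 (Subgroup.mem_top g)
          rw [hz]
          simp only [zero_mul, mul_zero, add_zero]
        · rw [mkL_mul_mkL, mkL_mul_mkL, mkL_mul_mkL, mkL_mul_mkL, mkL_mul_mkL, mkL_mul_mkL]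
          have h1 : ⁅g, ⁅h, k⁆⁆ ∈ Gam G (i + j + l) :=
            Gam_cast (by omega) (comm_mem hg (comm_mem hh hk))
          have h2 : ⁅⁅g, h⁆, k⁆ ∈ Gam G (i + j + l) := comm_mem (comm_mem hg hh) hk
          have h3 : ⁅h, ⁅g, k⁆⁆ ∈ Gam G (i + j + l) :=
            Gam_cast (by omega) (comm_mem hh (comm_mem hg hk))
          have key := sec_jacobi hi hg hh hk h1 h2 h3
          rw [mkL_congr (by omega : i + (j + l) = i + j + l) rfl _ h1,
            mkL_congr (by omega : j + (i + l) = i + j + l) rfl _ h3]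
          unfold mkL
          rw [key, map_add]
      · intro z z' hz hz'
        simp only [mul_add]
        rw [hz, hz']
        abel
    · intro y y' hy hy' z
      simp only [mul_add, add_mul]
      rw [hy z, hy' z]
      abel
  · intro x x' hx hx' y z
    simp only [mul_add, add_mul]
    rw [hx y z, hx' y z]
    abel

instance instLieRingLG : LieRing (LG G) :=
  { (inferInstance : AddCommGroup (LG G)) with
    bracket := fun x y => x * y
    add_lie := fun x y z => add_mul x y z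
    lie_add := fun x y z => mul_add x y z
    lie_self := LG_mul_self
    leibniz_lie := LG_jacobi }

theorem LG_lie_def (x y : LG G) : ⁅x, y⁆ = x * y := rfl

theorem mkL_lie (i j : ℕ) {g h : G} (hg : g ∈ Gam G i) (hh : h ∈ Gam G j) :
    ⁅mkL G i g hg, mkL G j h hh⁆ = mkL G (i + j) ⁅g, h⁆ (comm_mem hg hh) :=
  mkL_mul_mkL i j hg hh

end Gamma

end Cfsg.Agent.Helper53.HK
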