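-- helper53 library: counting fixed points of endomorphisms in quotients and abelian sections,
-- derived series bookkeeping (towards S3782, Alperin's theorem); add-only.
import Mathlib
import Cfsg.Agent.Helper19.ThompsonThesis
import Cfsg.Agent.Helper53.HKLie

set_option autoImplicit false

namespace Cfsg.Agent.Helper53.Alp

open scoped commutatorElement

section Fibers

/-- Counting a preimage when all nonempty fibres have the same size. -/
theorem card_preimage_of_fibers {X Y : Type*} [Finite X] (ψ : X → Y) (m : ℕ)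
    (hfib : ∀ x₀ : X, Nat.card {x : X // ψ x = ψ x₀} = m) (S : Set Y) :
    Nat.card {x : X // ψ x ∈ S} = Nat.card {y : Y // y ∈ S ∧ ∃ x, ψ x = y} * m := by
  classical
  let F : {x : X // ψ x ∈ S} → {y : Y // y ∈ S ∧ ∃ x, ψ x = y} :=
    fun x => ⟨ψ x.1, x.2, x.1, rfl⟩
  have hT : Finite {y : Y // y ∈ S ∧ ∃ x, ψ x = y} := by
    apply Finite.of_surjective F
    rintro ⟨y, hy, x, rfl⟩
    exact ⟨⟨x, hy⟩, rfl⟩
  have := Fintype.ofFinite {y : Y // y ∈ S ∧ ∃ x, ψ x = y}
  rw [← Nat.card_congr (Equiv.sigmaFiberEquiv F), Nat.card_sigma]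
  have h1 : ∀ t : {y : Y // y ∈ S ∧ ∃ x, ψ x = y},
      Nat.card {x : {x : X // ψ x ∈ S} // F x = t} = m := by
    rintro ⟨y, hy, x₀, rfl⟩
    rw [← hfib x₀]
    apply Nat.card_congr
    exact
      { toFun := fun x => ⟨x.1.1, congrArg Subtype.val x.2⟩
        invFun := fun x => ⟨⟨x.1, by rw [x.2]; exact hy⟩, Subtype.ext x.2⟩
        left_inv := fun x => rfl
        right_inv := fun x => rfl }
  rw [Finset.sum_congr rfl (fun t _ => h1 t), Finset.sum_const, Finset.card_univ, smul_eq_mul,
    Nat.card_eq_fintype_card]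

end Fibers

section FixedPoints

variable {G : Type*} [Group G]

/-- The subgroup of fixed points of an endomorphism. -/
def Fx (φ : G →* G) : Subgroup G where
  carrier := {x | φ x = x}
  mul_mem' := by
    intro a b ha hb
    have ha' : φ a = a := ha
    have hb' : φ b = b := hb
    show φ (a * b) = a * b
    rw [map_mul, ha', hb']
  one_mem' := map_one φ
  inv_mem' := by
    intro a ha
    have ha' : φ a = a := ha
    show φ a⁻¹ = a⁻¹
    rw [map_inv, ha']

theorem mem_Fx {φ : G →* G} {x : G} : x ∈ Fx φ ↔ φ x = x := Iff.rfl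

theorem card_psi_fiber [Finite G] (φ : G →* G) (x₀ : G) :
    Nat.card {x : G // x⁻¹ * φ x = x₀⁻¹ * φ x₀} = Nat.card (Fx φ) := by
  apply Nat.card_congr
  exact
    { toFun := fun ⟨x, hx⟩ => ⟨x * x₀⁻¹, by
        show φ (x * x₀⁻¹) = x * x₀⁻¹
        have h1 : φ x = x * (x₀⁻¹ * φ x₀) := by
          rw [← hx]
          group
        rw [map_mul, map_inv, h1]
        group⟩
      invFun := fun ⟨c, hc⟩ => ⟨c * x₀, by
        have hc' : φ c = c := hc
        rw [map_mul, hc']
        group⟩
      left_inv := fun ⟨x, hx⟩ => Subtype.ext (by simp)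
      right_inv := fun ⟨c, hc⟩ => Subtype.ext (by simp) }

/-- The number of `x` with `x⁻¹ φ(x) ∈ S`. -/
theorem card_psi_preimage [Finite G] (φ : G →* G) (S : Set G) :
    Nat.card {x : G // x⁻¹ * φ x ∈ S} =
      Nat.card {y : G // y ∈ S ∧ ∃ x, x⁻¹ * φ x = y} * Nat.card (Fx φ) :=
  card_preimage_of_fibers (fun x => x⁻¹ * φ x) _ (card_psi_fiber φ) S

theorem card_fx_quot_mul [Finite G] (φ : G →* G) (N : Subgroup G) [N.Normal]
    (hN : N ≤ N.comap φ) :
    Nat.card (Fx (QuotientGroup.map N N φ hN)) * Nat.card N =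
      Nat.card {x : G // x⁻¹ * φ x ∈ (N : Set G)} := by
  have h1 : Nat.card {x : G // x⁻¹ * φ x ∈ (N : Set G)} =
      Nat.card ((Fx (QuotientGroup.map N N φ hN)).comap (QuotientGroup.mk' N)) := by
    apply Nat.card_congr
    apply Equiv.subtypeEquivRight
    intro x
    show x⁻¹ * φ x ∈ N ↔ QuotientGroup.map N N φ hN (x : G ⧸ N) = (x : G ⧸ N)
    constructor
    · intro h
      exact (QuotientGroup.eq.2 h).symm
    · intro h
      exact QuotientGroup.eq.1 h.symm
  rw [h1]
  have h2 := ((Fx (QuotientGroup.map N N φ hN)).comap (QuotientGroup.mk' N)).card_mul_index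
  have h3 : ((Fx (QuotientGroup.map N N φ hN)).comap (QuotientGroup.mk' N)).index =
      (Fx (QuotientGroup.map N N φ hN)).index :=
    Subgroup.index_comap_of_surjective _ (QuotientGroup.mk'_surjective N)
  have h4 := (Fx (QuotientGroup.map N N φ hN)).card_mul_index
  have h5 := Subgroup.card_eq_card_quotient_mul_card_subgroup N
  have h6 : (Fx (QuotientGroup.map N N φ hN)).index ≠ 0 := Subgroup.index_ne_zero_of_finite
  rw [h3] at h2
  apply Nat.eq_of_mul_eq_mul_right (Nat.pos_of_ne_zero h6)
  rw [h2, h5, ← h4]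
  ring

/-- Fixed points do not increase in quotients. -/
theorem card_fx_quot_le [Finite G] (φ : G →* G) (N : Subgroup G) [N.Normal]
    (hN : N ≤ N.comap φ) :
    Nat.card (Fx (QuotientGroup.map N N φ hN)) ≤ Nat.card (Fx φ) := by
  have h1 := card_fx_quot_mul φ N hN
  rw [card_psi_preimage] at h1
  have h2 : Nat.card {y : G // y ∈ (N : Set G) ∧ ∃ x, x⁻¹ * φ x = y} ≤ Nat.card N :=
    Nat.card_le_card_of_injective
      (fun y : {y : G // y ∈ (N : Set G) ∧ ∃ x, x⁻¹ * φ x = y} => (⟨y.1, y.2.1⟩ : N))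
      (fun y y' h => Subtype.ext (by
        have h' := congrArg Subtype.val h
        exact h'))
  have h3 : Nat.card (Fx (QuotientGroup.map N N φ hN)) * Nat.card N ≤
      Nat.card (Fx φ) * Nat.card N := by
    rw [h1, mul_comm]
    exact Nat.mul_le_mul_left _ h2
  exact Nat.le_of_mul_le_mul_right h3 Nat.card_pos

/-- Fixed points strictly decrease in a quotient by `N` unless every element of `N` has the
form `x⁻¹ φ(x)`. -/
theorem card_fx_quot_lt [Finite G] (φ : G →* G) (N : Subgroup G) [N.Normal]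
    (hN : N ≤ N.comap φ) {y₀ : G} (hy₀ : y₀ ∈ N) (hy : ∀ x : G, x⁻¹ * φ x ≠ y₀) :
    Nat.card (Fx (QuotientGroup.map N N φ hN)) < Nat.card (Fx φ) := by
  classical
  have h1 := card_fx_quot_mul φ N hN
  rw [card_psi_preimage] at h1
  have h2 : Nat.card {y : G // y ∈ (N : Set G) ∧ ∃ x, x⁻¹ * φ x = y} < Nat.card N := by
    have := Fintype.ofFinite {y : G // y ∈ (N : Set G) ∧ ∃ x, x⁻¹ * φ x = y}
    have := Fintype.ofFinite N
    rw [Nat.card_eq_fintype_card, Nat.card_eq_fintype_card]
    apply Fintype.card_lt_of_injective_of_notMem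
      (fun y : {y : G // y ∈ (N : Set G) ∧ ∃ x, x⁻¹ * φ x = y} => (⟨y.1, y.2.1⟩ : N))
      (fun y y' h => Subtype.ext (by
        have h' := congrArg Subtype.val h
        exact h')) (b := ⟨y₀, hy₀⟩)
    rintro ⟨⟨y, hyN, x, hx⟩, h⟩
    apply hy x
    rw [hx]
    have h' := congrArg Subtype.val h
    exact h'
  have h3 : Nat.card (Fx (QuotientGroup.map N N φ hN)) * Nat.card N <
      Nat.card (Fx φ) * Nat.card N := by
    rw [h1, mul_comm]
    exact Nat.mul_lt_mul_of_pos_left h2 Nat.card_pos
  exact Nat.lt_of_mul_lt_mul_right h3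

/-- Fixed points of a restriction. -/
theorem card_fx_res_le [Finite G] (φ : G →* G) (H : Subgroup G) (hH : H ≤ H.comap φ) :
    Nat.card (Fx (Cfsg.Agent.Helper19.resHom φ H hH)) ≤ Nat.card (Fx φ) :=
  Nat.card_le_card_of_injective
    (fun x : Fx (Cfsg.Agent.Helper19.resHom φ H hH) =>
      (⟨(x.1 : G), congrArg Subtype.val x.2⟩ : Fx φ))
    (fun x y h => Subtype.ext (Subtype.ext (by
      have h' := congrArg Subtype.val h
      exact h')))

end FixedPoints

section Abelian

/-- An abelian group of exponent dividing `p ^ c` with an endomorphism of period `p` has order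
at most `|fixed points| ^ (p c)`. -/
theorem card_le_fix_pow {A : Type*} [AddCommGroup A] [Finite A] (a : A →+ A) {p c : ℕ}
    (hp : p.Prime) (hper : ∀ x, (⇑a)^[p] x = x) (hexp : ∀ x : A, p ^ c • x = 0) :
    Nat.card A ≤ (Nat.card {x : A // a x = x}) ^ (p * c) := by
  let a' : AddMonoid.End A := a
  let π : AddMonoid.End A := a' - 1
  have hπdef : ∀ x, π x = a x - x := fun x => rfl
  have hap : a' ^ p = 1 := by
    ext x
    rw [AddMonoid.End.coe_pow]
    exact hper x
  obtain ⟨r, hr⟩ := (Commute.one_right π).exists_add_pow_prime_eq hp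
  have e1 : π + 1 = a' := sub_add_cancel a' 1
  rw [e1, hap, one_pow, mul_one] at hr
  have hπp : π ^ p = (p : AddMonoid.End A) * (-(π * r)) := by
    have h4 : π ^ p + (p : AddMonoid.End A) * π * r + 1 = 0 + 1 := by
      have h40 : π ^ p + (p : AddMonoid.End A) * π * r + 1 =
          π ^ p + 1 + (p : AddMonoid.End A) * π * r := by abel
      rw [h40, ← hr, zero_add]
    have h2 : π ^ p + (p : AddMonoid.End A) * π * r = 0 := add_right_cancel h4
    rw [mul_neg, ← mul_assoc]
    exact eq_neg_of_add_eq_zero_left h2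
  have hπ : ∀ x : A, (⇑π)^[p * c] x = 0 := by
    intro x
    have h5 : π ^ (p * c) = (p : AddMonoid.End A) ^ c * (-(π * r)) ^ c := by
      rw [pow_mul, hπp, (Nat.cast_commute p _).mul_pow]
    have h6 : (π ^ (p * c)) x = 0 := by
      rw [h5, ← Nat.cast_pow]
      show ((p ^ c : ℕ) : AddMonoid.End A) (((-(π * r)) ^ c) x) = 0
      rw [AddMonoid.End.natCast_apply]
      exact hexp _
    rw [← AddMonoid.End.coe_pow]
    exact h6
  have hfib : ∀ x₀ : A, Nat.card {x : A // π x = π x₀} = Nat.card {x : A // a x = x} := by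
    intro x₀
    apply Nat.card_congr
    exact
      { toFun := fun ⟨x, hx⟩ => ⟨x - x₀, by
          have h : a x - x = a x₀ - x₀ := hx
          rw [sub_eq_sub_iff_add_eq_add] at h
          rw [map_sub, sub_eq_sub_iff_add_eq_add, h, add_comm]⟩
        invFun := fun ⟨c, hc⟩ => ⟨c + x₀, by
          show a (c + x₀) - (c + x₀) = a x₀ - x₀
          rw [map_add, hc]
          abel⟩
        left_inv := fun ⟨x, hx⟩ => Subtype.ext (by simp)
        right_inv := fun ⟨c, hc⟩ => Subtype.ext (by simp) }
  have key : ∀ k : ℕ, Nat.card {x : A // (⇑π)^[k] x = 0} ≤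
      (Nat.card {x : A // a x = x}) ^ k := by
    intro k
    induction k with
    | zero =>
      rw [pow_zero]
      have : Nat.card {x : A // (⇑π)^[0] x = 0} = 1 := by
        rw [Nat.card_eq_one_iff_unique]
        exact ⟨⟨fun x y => Subtype.ext (x.2.trans y.2.symm)⟩, ⟨⟨0, rfl⟩⟩⟩
      exact this.le
    | succ k ih =>
      have h7 := card_preimage_of_fibers (⇑π) _ hfib {y : A | (⇑π)^[k] y = 0}
      have h8 : Nat.card {x : A // (⇑π)^[k + 1] x = 0} =
          Nat.card {x : A // π x ∈ {y : A | (⇑π)^[k] y = 0}} := rfl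
      rw [h8, h7, pow_succ]
      apply Nat.mul_le_mul_right
      refine le_trans ?_ ih
      exact Nat.card_le_card_of_injective
        (fun y : {y : A // y ∈ {y : A | (⇑π)^[k] y = 0} ∧ ∃ x, π x = y} =>
          (⟨y.1, y.2.1⟩ : {x : A // (⇑π)^[k] x = 0}))
        (fun y y' h => Subtype.ext (by
          have h' := congrArg Subtype.val h
          exact h'))
  calc Nat.card A = Nat.card {x : A // (⇑π)^[p * c] x = 0} :=
        (Nat.card_congr (Equiv.subtypeUnivEquiv hπ)).symm
    _ ≤ _ := key (p * c)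

end Abelian

section Derived

variable {G : Type*} [Group G]

theorem derivedSeries_add_le_map (K : Subgroup G) (k : ℕ) (h : derivedSeries G k ≤ K) :
    ∀ j : ℕ, derivedSeries G (k + j) ≤ (derivedSeries ↥K j).map K.subtype
  | 0 => by
    rw [add_zero, derivedSeries_zero, ← MonoidHom.range_eq_map, Subgroup.range_subtype]
    exact h
  | j + 1 => by
    rw [← add_assoc, derivedSeries_succ, derivedSeries_succ, Subgroup.map_commutator]
    exact Subgroup.commutator_mono (derivedSeries_add_le_map K k h j)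
      (derivedSeries_add_le_map K k h j)

theorem derivedSeries_le_of_quot (N : Subgroup G) [N.Normal] (k : ℕ)
    (h : derivedSeries (G ⧸ N) k = ⊥) : derivedSeries G k ≤ N := by
  have h1 := map_derivedSeries_eq (QuotientGroup.mk'_surjective N) k
  rw [h, Subgroup.map_eq_bot_iff, QuotientGroup.ker_mk'] at h1
  exact h1

theorem derivedSeries_card_aux [Finite G] [Group.IsSolvable G] :
    ∀ k : ℕ, derivedSeries G k = ⊥ ∨ Nat.card (derivedSeries G k) + k ≤ Nat.card G
  | 0 => by
    right
    rw [derivedSeries_zero, Subgroup.card_top, add_zero]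
  | k + 1 => by
    rcases derivedSeries_card_aux k with h | h
    · left
      rw [derivedSeries_succ, h, Subgroup.commutator_bot_left]
    · by_cases h0 : derivedSeries G k = ⊥
      · left
        rw [derivedSeries_succ, h0, Subgroup.commutator_bot_left]
      · right
        have hlt := Group.IsSolvable.commutator_lt_of_ne_bot h0
        have h1 : Nat.card (derivedSeries G (k + 1)) < Nat.card (derivedSeries G k) := by
          rw [derivedSeries_succ]
          refine lt_of_le_of_ne (Subgroup.card_le_of_le hlt.le) ?_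
          intro he
          exact hlt.ne (Subgroup.eq_of_le_of_card_ge hlt.le he.ge)
        omega

/-- A finite solvable group of order at most `m` has derived length at most `m`. -/
theorem derivedSeries_eq_bot_of_card_le [Finite G] [Group.IsSolvable G] (m : ℕ)
    (hm : Nat.card G ≤ m) : derivedSeries G m = ⊥ := by
  rcases derivedSeries_card_aux (G := G) m with h | h
  · exact h
  · have : 0 < Nat.card (derivedSeries G m) := Nat.card_pos
    omega

theorem eq_bot_of_commutator_top_eq [Group.IsNilpotent G] (N : Subgroup G)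
    (h : ⁅N, (⊤ : Subgroup G)⁆ = N) : N = ⊥ := by
  have h1 : ∀ k : ℕ, N ≤ (⊤ : Subgroup G).lowerCentralSeries k := by
    intro k
    induction k with
    | zero => exact le_top
    | succ k ih =>
      rw [← h]
      exact Subgroup.commutator_mono ih le_rfl
  obtain ⟨n, hn⟩ := Subgroup.nilpotent_iff_lowerCentralSeries.1 (inferInstance : Group.IsNilpotent G)
  apply le_bot_iff.1
  rw [← hn]
  exact h1 n

/-- Iterated commutators with the whole group. -/
def itc (N : Subgroup G) : ℕ → Subgroup G
  | 0 => N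
  | k + 1 => ⁅itc N k, (⊤ : Subgroup G)⁆

theorem itc_zero (N : Subgroup G) : itc N 0 = N := rfl

theorem itc_succ (N : Subgroup G) (k : ℕ) : itc N (k + 1) = ⁅itc N k, (⊤ : Subgroup G)⁆ := rfl

theorem itc_succ' (N : Subgroup G) : ∀ k : ℕ, itc N (k + 1) = itc ⁅N, (⊤ : Subgroup G)⁆ k
  | 0 => rfl
  | k + 1 => by rw [itc_succ, itc_succ' N k, itc_succ]

theorem itc_normal (N : Subgroup G) [N.Normal] : ∀ k : ℕ, (itc N k).Normal
  | 0 => inferInstanceAs N.Normal
  | k + 1 => by
    have := itc_normal N k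
    rw [itc_succ]
    infer_instance

theorem itc_succ_le (N : Subgroup G) [N.Normal] (k : ℕ) : itc N (k + 1) ≤ itc N k := by
  have := itc_normal N k
  rw [itc_succ]
  exact Subgroup.commutator_le_left _ _

theorem itc_anti (N : Subgroup G) [N.Normal] {a b : ℕ} (h : a ≤ b) : itc N b ≤ itc N a := by
  induction h with
  | refl => exact le_rfl
  | step _ ih => exact (itc_succ_le N _).trans ih

theorem comm_lcs_le_itc : ∀ (k : ℕ) (N : Subgroup G) [N.Normal],
    ⁅N, (⊤ : Subgroup G).lowerCentralSeries k⁆ ≤ itc N (k + 1)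
  | 0, N, _ => le_rfl
  | k + 1, N, _ => by
    have hn := itc_normal N (k + 2)
    rw [Subgroup.commutator_comm]
    show ⁅⁅(⊤ : Subgroup G).lowerCentralSeries k, ⊤⁆, N⁆ ≤ _
    apply Cfsg.Agent.Helper53.HK.three_subgroups
    · rw [Subgroup.commutator_comm ⊤ N, itc_succ']
      exact comm_lcs_le_itc k ⁅N, (⊤ : Subgroup G)⁆
    · rw [itc_succ N (k + 1)]
      exact Subgroup.commutator_mono (comm_lcs_le_itc k N) le_rfl

end Derived

end Cfsg.Agent.Helper53.Alp
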