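-- helper53 library: Kreknin's theorem (derived length) and Higman's theorem (nilpotency class) for
-- families of additive subgroups of a Lie ring indexed by `ZMod n` with trivial component at `0`
-- (towards S3779); add-only.
import Mathlib

set_option autoImplicit false

namespace Cfsg.Agent.Helper53.HK

universe u

section Basic

variable {L : Type u} [LieRing L]

/-- The additive subgroup generated by the brackets of two additive subgroups. -/
def br (A B : AddSubgroup L) : AddSubgroup L :=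
  AddSubgroup.closure {z | ∃ x ∈ A, ∃ y ∈ B, ⁅x, y⁆ = z}

theorem lie_mem_br {A B : AddSubgroup L} {x y : L} (hx : x ∈ A) (hy : y ∈ B) : ⁅x, y⁆ ∈ br A B :=
  AddSubgroup.subset_closure ⟨x, hx, y, hy, rfl⟩

theorem br_le {A B C : AddSubgroup L} (h : ∀ x ∈ A, ∀ y ∈ B, ⁅x, y⁆ ∈ C) : br A B ≤ C := by
  apply (AddSubgroup.closure_le C).2
  rintro z ⟨x, hx, y, hy, rfl⟩
  exact h x hx y hy

/-- Bracket on the right as an additive map. -/
def lieR (y : L) : L →+ L := AddMonoidHom.mk' (fun z => ⁅z, y⁆) (fun a b => add_lie a b y)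

/-- Bracket on the left as an additive map. -/
def lieL (x : L) : L →+ L := AddMonoidHom.mk' (fun z => ⁅x, z⁆) (fun a b => lie_add x a b)

theorem lieR_apply (y z : L) : lieR y z = ⁅z, y⁆ := rfl

theorem lieL_apply (x z : L) : lieL x z = ⁅x, z⁆ := rfl

theorem jac (x w y : L) : ⁅⁅x, w⁆, y⁆ = ⁅⁅x, y⁆, w⁆ + ⁅x, ⁅w, y⁆⁆ := by
  have h1 := leibniz_lie x w y
  have h2 := lie_skew ⁅x, y⁆ w
  rw [h1, ← h2]
  abel

variable {n : ℕ}

/-- Families of additive subgroups indexed by `ZMod n`. -/
abbrev Fam (L : Type u) [LieRing L] (n : ℕ) := ZMod n → AddSubgroup L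

theorem mem_cast {X : Fam L n} {i j : ZMod n} {x : L} (h : x ∈ X i) (e : i = j) : x ∈ X j :=
  e ▸ h

/-- The bracket of two families. -/
def fbr (X Y : Fam L n) : Fam L n := fun c => ⨆ a : ZMod n, br (X a) (Y (c - a))

theorem lie_mem_fbr {X Y : Fam L n} {a b : ZMod n} {x y : L} (hx : x ∈ X a) (hy : y ∈ Y b) :
    ⁅x, y⁆ ∈ fbr X Y (a + b) := by
  have h : br (X a) (Y (a + b - a)) ≤ fbr X Y (a + b) :=
    le_iSup (fun a' => br (X a') (Y (a + b - a'))) a
  apply h
  have e : a + b - a = b := by abel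
  rw [e]
  exact lie_mem_br hx hy

theorem fbr_le {X Y Z : Fam L n}
    (h : ∀ a b : ZMod n, ∀ x ∈ X a, ∀ y ∈ Y b, ⁅x, y⁆ ∈ Z (a + b)) : fbr X Y ≤ Z := by
  intro c
  apply iSup_le
  intro a
  apply br_le
  intro x hx y hy
  exact mem_cast (h a (c - a) x hx y hy) (by abel)

theorem fbr_mono {X X' Y Y' : Fam L n} (hX : X ≤ X') (hY : Y ≤ Y') : fbr X Y ≤ fbr X' Y' :=
  fbr_le fun a b _ hx _ hy => lie_mem_fbr (hX a hx) (hY b hy)

/-- A family closed under brackets. -/
def FClosed (M : Fam L n) : Prop := fbr M M ≤ M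

theorem FClosed.lie_mem {M : Fam L n} (hM : FClosed M) {a b : ZMod n} {x y : L} (hx : x ∈ M a)
    (hy : y ∈ M b) : ⁅x, y⁆ ∈ M (a + b) := hM _ (lie_mem_fbr hx hy)

/-- The derived family. -/
def Dv (M : Fam L n) : Fam L n := fbr M M

theorem Dv_le {M : Fam L n} (hM : FClosed M) : Dv M ≤ M := hM

theorem Dv_closed {M : Fam L n} (hM : FClosed M) : FClosed (Dv M) := fbr_mono hM hM

theorem Dv_iter_closed {M : Fam L n} (hM : FClosed M) (t : ℕ) : FClosed (Dv^[t] M) := by
  induction t with
  | zero => exact hM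
  | succ t ih =>
    rw [Function.iterate_succ_apply']
    exact Dv_closed ih

theorem Dv_iter_le {M : Fam L n} (hM : FClosed M) (t : ℕ) : Dv^[t] M ≤ M := by
  induction t with
  | zero => exact le_rfl
  | succ t ih =>
    rw [Function.iterate_succ_apply']
    exact (Dv_le (Dv_iter_closed hM t)).trans ih

/-- The homogeneous elements generated by the components of degree (as a natural number) at
least `k`. -/
inductive Gen (M : Fam L n) (k : ℕ) : ZMod n → L → Prop
  | base {j : ZMod n} {x : L} : k ≤ j.val → x ∈ M j → Gen M k j x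
  | zero {j : ZMod n} : Gen M k j 0
  | add {j : ZMod n} {x y : L} : Gen M k j x → Gen M k j y → Gen M k j (x + y)
  | neg {j : ZMod n} {x : L} : Gen M k j x → Gen M k j (-x)
  | lie {a b : ZMod n} {x y : L} : Gen M k a x → Gen M k b y → Gen M k (a + b) ⁅x, y⁆

theorem Gen.mem {M : Fam L n} (hM : FClosed M) {k : ℕ} {j : ZMod n} {x : L} (h : Gen M k j x) :
    x ∈ M j := by
  induction h with
  | base _ hx => exact hx
  | zero => exact zero_mem _
  | add _ _ ih1 ih2 => exact add_mem ih1 ih2
  | neg _ ih => exact neg_mem ih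
  | lie _ _ ih1 ih2 => exact hM.lie_mem ih1 ih2

theorem Gen.cast {M : Fam L n} {k : ℕ} {j j' : ZMod n} {x : L} (h : Gen M k j x) (e : j = j') :
    Gen M k j' x := e ▸ h

/-- The family of the `Gen`. -/
def SG (M : Fam L n) (k : ℕ) : Fam L n := fun j =>
  { carrier := {x | Gen M k j x}
    zero_mem' := Gen.zero
    add_mem' := fun hx hy => Gen.add hx hy
    neg_mem' := fun hx => Gen.neg hx }

theorem gen_key [NeZero n] {M : Fam L n} (hM : FClosed M) (h0 : M 0 = ⊥) (k : ℕ) {b : ZMod n}
    {v : L} (hv : Gen M (k + 1) b v) :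
    ∀ (a : ZMod n) (u : L), u ∈ M a → (a + b).val = k + 1 → Gen M (k + 2) (a + b) ⁅u, v⁆ := by
  induction hv with
  | @base j x hj hx =>
    intro a u hu hab
    rcases Nat.eq_or_lt_of_le hj with h1 | h1
    · have e : a + j = j := ZMod.val_injective n (by rw [hab, ← h1])
      have ha : a = 0 := by simpa using e
      rw [ha, h0, AddSubgroup.mem_bot] at hu
      rw [hu, zero_lie]
      exact Gen.zero
    · have hja := ZMod.val_add a j
      have hla := ZMod.val_lt a
      have hlj := ZMod.val_lt j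
      have h2 : k + 2 ≤ a.val := by
        by_cases hlt : a.val + j.val < n
        · rw [Nat.mod_eq_of_lt hlt] at hja
          omega
        · push Not at hlt
          rw [Nat.mod_eq_sub_mod hlt, Nat.mod_eq_of_lt (by omega)] at hja
          omega
      exact Gen.lie (Gen.base h2 hu) (Gen.base h1 hx)
  | zero =>
    intro a u _ _
    rw [lie_zero]
    exact Gen.zero
  | add _ _ ih1 ih2 =>
    intro a u hu hab
    rw [lie_add]
    exact Gen.add (ih1 a u hu hab) (ih2 a u hu hab)
  | neg _ ih =>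
    intro a u hu hab
    rw [lie_neg]
    exact Gen.neg (ih a u hu hab)
  | @lie a' b' x y hx hy ihx ihy =>
    intro a u hu hab
    have hxm := hx.mem hM
    have hym := hy.mem hM
    have e1 : ⁅u, ⁅x, y⁆⁆ = ⁅⁅u, x⁆, y⁆ + -⁅⁅u, y⁆, x⁆ := by
      rw [leibniz_lie, lie_skew]
    have g1 := ihy (a + a') ⁅u, x⁆ (hM.lie_mem hu hxm) (by rw [add_assoc]; exact hab)
    have g2 := ihx (a + b') ⁅u, y⁆ (hM.lie_mem hu hym) (by
      have e : a + b' + a' = a + (a' + b') := by abel
      rw [e]
      exact hab)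
    rw [e1]
    exact Gen.add (g1.cast (by abel)) (Gen.neg (g2.cast (by abel)))

theorem kreknin_aux [NeZero n] (k : ℕ) : ∀ M : Fam L n, FClosed M → M 0 = ⊥ →
    ∀ (j : ZMod n) (x : L), x ∈ Dv^[2 ^ k - 1] M j → Gen M (k + 1) j x := by
  induction k with
  | zero =>
    intro M hM h0 j x hx
    simp only [pow_zero, Nat.sub_self, Function.iterate_zero, id] at hx
    by_cases hj : j = 0
    · rw [hj, h0, AddSubgroup.mem_bot] at hx
      rw [hx]
      exact Gen.zero
    · have h1 : 1 ≤ j.val := Nat.pos_of_ne_zero (fun h => hj ((ZMod.val_eq_zero j).1 h))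
      exact Gen.base h1 hx
  | succ k ih =>
    intro M hM h0 j x hx
    have hexp : 2 ^ (k + 1) - 1 = (2 ^ k - 1) + ((2 ^ k - 1) + 1) := by
      have := Nat.one_le_two_pow (n := k)
      rw [pow_succ]
      omega
    rw [hexp, Function.iterate_add_apply, Function.iterate_succ_apply'] at hx
    have hHc : FClosed (Dv^[2 ^ k - 1] M) := Dv_iter_closed hM _
    have hHM : Dv^[2 ^ k - 1] M ≤ M := Dv_iter_le hM _
    have hH'c : FClosed (Dv (Dv^[2 ^ k - 1] M)) := Dv_closed hHc
    have hH'M : Dv (Dv^[2 ^ k - 1] M) ≤ M := (Dv_le hHc).trans hHM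
    have hH'0 : Dv (Dv^[2 ^ k - 1] M) 0 = ⊥ := by
      apply le_bot_iff.1
      rw [← h0]
      exact hH'M 0
    have h1 := ih (Dv (Dv^[2 ^ k - 1] M)) hH'c hH'0 j x hx
    have key : ∀ (j : ZMod n) (x : L), Gen (Dv (Dv^[2 ^ k - 1] M)) (k + 1) j x →
        Gen M (k + 2) j x := by
      intro j x hg
      induction hg with
      | @base j x hj hx =>
        rcases Nat.eq_or_lt_of_le hj with h2 | h2
        · have hle : Dv (Dv^[2 ^ k - 1] M) j ≤ SG M (k + 2) j := by
            apply iSup_le
            intro a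
            apply br_le
            intro u hu v hv
            have e : a + (j - a) = j := by abel
            have h3 := gen_key hM h0 k (ih M hM h0 (j - a) v hv) a u (hHM a hu) (by
              rw [e, ← h2])
            exact h3.cast e
          exact hle hx
        · exact Gen.base h2 (hH'M j hx)
      | zero => exact Gen.zero
      | add _ _ ih1 ih2 => exact Gen.add ih1 ih2
      | neg _ ih1 => exact Gen.neg ih1
      | lie _ _ ih1 ih2 => exact Gen.lie ih1 ih2
    exact key j x h1

theorem gen_top_eq_zero [NeZero n] {M : Fam L n} {j : ZMod n} {x : L} (h : Gen M n j x) :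
    x = 0 := by
  induction h with
  | base hj _ => exact absurd (ZMod.val_lt _) (not_lt.2 hj)
  | zero => rfl
  | add _ _ ih1 ih2 => rw [ih1, ih2, add_zero]
  | neg _ ih => rw [ih, neg_zero]
  | lie _ _ ih1 ih2 => rw [ih1, ih2, lie_zero]

/-- **Kreknin's theorem** for families: a bracket-closed family indexed by `ZMod n` with trivial
component at `0` has derived length at most `2 ^ (n - 1) - 1`. -/
theorem kreknin [NeZero n] (M : Fam L n) (hM : FClosed M) (h0 : M 0 = ⊥) :
    Dv^[2 ^ (n - 1) - 1] M = ⊥ := by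
  have hn : n - 1 + 1 = n := Nat.sub_add_cancel (Nat.pos_of_ne_zero (NeZero.ne n))
  apply le_antisymm _ bot_le
  intro j x hx
  have h1 := kreknin_aux (n - 1) M hM h0 j x hx
  rw [hn] at h1
  show x ∈ (⊥ : AddSubgroup L)
  rw [AddSubgroup.mem_bot]
  exact gen_top_eq_zero h1

/-- The lower central family (`Lc M t` has weight `t + 1`). -/
def Lc (M : Fam L n) : ℕ → Fam L n
  | 0 => M
  | t + 1 => fbr (Lc M t) M

theorem Lc_zero (M : Fam L n) : Lc M 0 = M := rfl

theorem Lc_succ (M : Fam L n) (t : ℕ) : Lc M (t + 1) = fbr (Lc M t) M := rfl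

/-- `I` is an ideal for `M`. -/
def FIdeal (I M : Fam L n) : Prop := fbr I M ≤ I

theorem FIdeal.lie_mem {I M : Fam L n} (h : FIdeal I M) {a b : ZMod n} {x y : L} (hx : x ∈ I a)
    (hy : y ∈ M b) : ⁅x, y⁆ ∈ I (a + b) := h _ (lie_mem_fbr hx hy)

theorem fbr_ideal {I N M : Fam L n} (hI : FIdeal I M) (hN : FIdeal N M) :
    FIdeal (fbr I N) M := by
  apply fbr_le
  intro c b z hz y hy
  have hle : fbr I N c ≤ (fbr I N (c + b)).comap (lieR y) := by
    apply iSup_le
    intro a
    apply br_le
    intro x hx w hw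
    show ⁅⁅x, w⁆, y⁆ ∈ fbr I N (c + b)
    rw [jac]
    exact add_mem (mem_cast (lie_mem_fbr (hI.lie_mem hx hy) hw) (by abel))
      (mem_cast (lie_mem_fbr hx (hN.lie_mem hw hy)) (by abel))
  exact hle hz

theorem Dv_ideal {M : Fam L n} (hM : FClosed M) : FIdeal (Dv M) M := by
  apply fbr_le
  intro a b x hx y hy
  exact lie_mem_fbr (hM a hx) hy

theorem Lc_ideal {M N : Fam L n} (hN : FIdeal N M) : ∀ c : ℕ, FIdeal (Lc N c) M
  | 0 => hN
  | c + 1 => fbr_ideal (Lc_ideal hN c) hN

theorem Lc_le {N : Fam L n} (hN : FClosed N) : ∀ c : ℕ, Lc N c ≤ N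
  | 0 => le_rfl
  | c + 1 => (fbr_mono (Lc_le hN c) le_rfl).trans hN

/-- Left normed brackets. -/
def lnc (x : L) (l : List (ZMod n × L)) : L := l.foldl (fun acc e => ⁅acc, e.2⁆) x

theorem lnc_nil (x : L) : lnc x ([] : List (ZMod n × L)) = x := rfl

theorem lnc_cons (x : L) (e : ZMod n × L) (l : List (ZMod n × L)) :
    lnc x (e :: l) = lnc ⁅x, e.2⁆ l := rfl

theorem lnc_add (x y : L) (l : List (ZMod n × L)) : lnc (x + y) l = lnc x l + lnc y l := by
  induction l generalizing x y with
  | nil => rfl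
  | cons e l ih => rw [lnc_cons, lnc_cons, lnc_cons, add_lie, ih]

theorem lnc_zero (l : List (ZMod n × L)) : lnc (0 : L) l = 0 := by
  induction l with
  | nil => rfl
  | cons e l ih => rw [lnc_cons, zero_lie, ih]

/-- `lnc` as an additive map. -/
def lncHom (l : List (ZMod n × L)) : L →+ L :=
  AddMonoidHom.mk' (fun x => lnc x l) (fun a b => lnc_add a b l)

theorem lncHom_apply (l : List (ZMod n × L)) (x : L) : lncHom l x = lnc x l := rfl

/-- The sum of the degrees. -/
def dsum (l : List (ZMod n × L)) : ZMod n := (l.map Prod.fst).sum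

theorem dsum_nil : dsum ([] : List (ZMod n × L)) = 0 := rfl

theorem dsum_cons (e : ZMod n × L) (l : List (ZMod n × L)) : dsum (e :: l) = e.1 + dsum l := by
  simp [dsum]

/-- The entries lie in the components of their degrees. -/
def Valid (M : Fam L n) (l : List (ZMod n × L)) : Prop := ∀ e ∈ l, e.2 ∈ M e.1

theorem Valid.tail {M : Fam L n} {e : ZMod n × L} {l : List (ZMod n × L)} (h : Valid M (e :: l)) :
    Valid M l := fun e' he' => h e' (List.mem_cons_of_mem _ he')

theorem Valid.head {M : Fam L n} {e : ZMod n × L} {l : List (ZMod n × L)} (h : Valid M (e :: l)) :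
    e.2 ∈ M e.1 := h e List.mem_cons_self

theorem lnc_mem_ideal {I M : Fam L n} (hI : FIdeal I M) :
    ∀ (l : List (ZMod n × L)), Valid M l → ∀ (j : ZMod n) (x : L), x ∈ I j →
      lnc x l ∈ I (j + dsum l)
  | [], _, j, x, hx => by
    rw [lnc_nil, dsum_nil, add_zero]
    exact hx
  | e :: l, hl, j, x, hx => by
    have h1 := lnc_mem_ideal hI l hl.tail (j + e.1) ⁅x, e.2⁆ (hI.lie_mem hx hl.head)
    rw [lnc_cons]
    exact mem_cast h1 (by rw [dsum_cons]; abel)

theorem lnc_eq_zero_of_mem {l : List (ZMod n × L)} {e : ZMod n × L} (he : e ∈ l) (h : e.2 = 0)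
    (x : L) : lnc x l = 0 := by
  induction l generalizing x with
  | nil => cases he
  | cons e' l ih =>
    rw [lnc_cons]
    rcases List.mem_cons.1 he with rfl | he'
    · rw [h, lie_zero, lnc_zero]
    · exact ih he' _

theorem lnc_swap {M I J : Fam L n} (hI : FIdeal I M) (hJ : FIdeal J M)
    (hIJ : fbr I (Dv M) ≤ J) :
    ∀ (l : List (ZMod n × L)), Valid M l → ∀ (j d : ZMod n) (x a : L), x ∈ I j → a ∈ M d →
      lnc ⁅x, a⁆ l - ⁅lnc x l, a⁆ ∈ J (j + d + dsum l)
  | [], _, j, d, x, a, _, _ => by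
    rw [lnc_nil, lnc_nil, sub_self]
    exact zero_mem _
  | e :: l, hl, j, d, x, a, hx, ha => by
    have h1 := lnc_swap hI hJ hIJ l hl.tail (j + e.1) d ⁅x, e.2⁆ a (hI.lie_mem hx hl.head) ha
    have h2 : ⁅x, ⁅a, e.2⁆⁆ ∈ J (j + (d + e.1)) :=
      hIJ _ (lie_mem_fbr hx (lie_mem_fbr ha hl.head))
    have h3 := lnc_mem_ideal hJ l hl.tail _ _ h2
    have e1 : lnc ⁅x, a⁆ (e :: l) - ⁅lnc x (e :: l), a⁆ =
        (lnc ⁅⁅x, e.2⁆, a⁆ l - ⁅lnc ⁅x, e.2⁆ l, a⁆) + lnc ⁅x, ⁅a, e.2⁆⁆ l := by
      rw [lnc_cons, lnc_cons, jac x a e.2, lnc_add]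
      abel
    rw [e1]
    exact add_mem (mem_cast h1 (by rw [dsum_cons]; abel)) (mem_cast h3 (by rw [dsum_cons]; abel))

theorem lnc_mem_of_sublist {M I J : Fam L n} (h0 : M 0 = ⊥) (hIM : I ≤ M)
    (hI : FIdeal I M) (hJ : FIdeal J M) (hIJ : fbr I (Dv M) ≤ J) {l' l : List (ZMod n × L)}
    (hs : List.Sublist l' l) :
    Valid M l → ∀ (j : ZMod n) (x : L), x ∈ I j → j + dsum l' = 0 → lnc x l ∈ J (j + dsum l) := by
  induction hs with
  | slnil =>
    intro _ j x hx hj
    have hj0 : j = 0 := by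
      rw [dsum_nil, add_zero] at hj
      exact hj
    have hx0 : x = 0 := by
      have h1 := hIM j hx
      rw [hj0, h0, AddSubgroup.mem_bot] at h1
      exact h1
    rw [hx0, lnc_zero]
    exact zero_mem _
  | @cons l1 l2 e _ ih =>
    intro hl j x hx hj
    have h1 := ih hl.tail j x hx hj
    have h2 := lnc_swap hI hJ hIJ l2 hl.tail j e.1 x e.2 hx hl.head
    have h3 := hJ.lie_mem h1 hl.head
    have e1 : lnc x (e :: l2) = (lnc ⁅x, e.2⁆ l2 - ⁅lnc x l2, e.2⁆) + ⁅lnc x l2, e.2⁆ := by
      rw [lnc_cons]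
      abel
    rw [e1]
    exact add_mem (mem_cast h2 (by rw [dsum_cons]; abel)) (mem_cast h3 (by rw [dsum_cons]; abel))
  | @cons_cons l1 l2 e _ ih =>
    intro hl j x hx hj
    have h1 := ih hl.tail (j + e.1) ⁅x, e.2⁆ (hI.lie_mem hx hl.head) (by
      rw [dsum_cons] at hj
      rw [← hj]
      abel)
    rw [lnc_cons]
    exact mem_cast h1 (by rw [dsum_cons]; abel)

theorem Lc_add_le {M X : Fam L n} : ∀ (m t : ℕ),
    (∀ (j : ZMod n) (x : L), x ∈ Lc M t j → ∀ l : List (ZMod n × L), Valid M l → l.length = m →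
      lnc x l ∈ X (j + dsum l)) → Lc M (t + m) ≤ X
  | 0, t, h => by
    intro j x hx
    have h1 := h j x hx [] (fun e he => absurd he (List.not_mem_nil)) rfl
    rw [lnc_nil, dsum_nil, add_zero] at h1
    exact h1
  | m + 1, t, h => by
    have e : t + (m + 1) = (t + 1) + m := by omega
    rw [e]
    apply Lc_add_le m (t + 1)
    intro j x hx l hl hlen
    have hle : fbr (Lc M t) M j ≤ (X (j + dsum l)).comap (lncHom l) := by
      apply iSup_le
      intro a
      apply br_le
      intro y hy a' ha'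
      show lnc ⁅y, a'⁆ l ∈ X (j + dsum l)
      have h1 := h a y hy ((j - a, a') :: l) (by
        intro e he
        rcases List.mem_cons.1 he with rfl | he
        · exact ha'
        · exact hl e he) (by rw [List.length_cons, hlen])
      rw [lnc_cons] at h1
      exact mem_cast h1 (by
        rw [dsum_cons]
        show a + (j - a + dsum l) = j + dsum l
        abel)
    exact hle hx

end Basic

section SubsetSums

variable {p : ℕ}

/-- The set of the sums of the sublists. -/
def ssum : List (ZMod p) → Finset (ZMod p)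
  | [] => {0}
  | d :: l => ssum l ∪ (ssum l).image (fun s => s + d)

theorem zero_mem_ssum (l : List (ZMod p)) : (0 : ZMod p) ∈ ssum l := by
  induction l with
  | nil => simp [ssum]
  | cons d l ih =>
    simp only [ssum]
    exact Finset.mem_union_left _ ih

theorem exists_sublist_of_mem_ssum :
    ∀ (l : List (ZMod p)) (s : ZMod p), s ∈ ssum l → ∃ l', List.Sublist l' l ∧ l'.sum = s
  | [], s, hs => by
    simp only [ssum, Finset.mem_singleton] at hs
    exact ⟨[], List.Sublist.slnil, by rw [hs, List.sum_nil]⟩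
  | d :: l, s, hs => by
    simp only [ssum, Finset.mem_union, Finset.mem_image] at hs
    rcases hs with hs | ⟨s', hs', rfl⟩
    · obtain ⟨l', h1, h2⟩ := exists_sublist_of_mem_ssum l s hs
      exact ⟨l', h1.cons d, h2⟩
    · obtain ⟨l', h1, h2⟩ := exists_sublist_of_mem_ssum l s' hs'
      exact ⟨d :: l', h1.cons_cons d, by rw [List.sum_cons, h2, add_comm]⟩

theorem card_ssum [Fact p.Prime] : ∀ (l : List (ZMod p)), (∀ d ∈ l, d ≠ 0) →
    min p (l.length + 1) ≤ (ssum l).card
  | [], _ => by
    simp [ssum]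
  | d :: l, hl => by
    have ih := card_ssum l (fun d' hd' => hl d' (List.mem_cons_of_mem _ hd'))
    have hd : d ≠ 0 := hl d List.mem_cons_self
    have hsub : ssum l ⊆ ssum (d :: l) := by
      simp only [ssum]
      exact Finset.subset_union_left
    by_cases hfull : p ≤ (ssum l).card
    · exact (min_le_left _ _).trans (hfull.trans (Finset.card_le_card hsub))
    · push Not at hfull
      have h1 : l.length + 1 ≤ (ssum l).card := by
        rcases le_total p (l.length + 1) with h | h
        · rw [min_eq_left h] at ih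
          omega
        · rw [min_eq_right h] at ih
          exact ih
      have hex : ∃ s ∈ ssum l, s + d ∉ ssum l := by
        by_contra hcon
        push Not at hcon
        have hk : ∀ k : ℕ, (k : ZMod p) * d ∈ ssum l := by
          intro k
          induction k with
          | zero =>
            rw [Nat.cast_zero, zero_mul]
            exact zero_mem_ssum l
          | succ k ih =>
            have h2 := hcon _ ih
            have e : ((k + 1 : ℕ) : ZMod p) * d = (k : ZMod p) * d + d := by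
              push_cast
              ring
            rw [e]
            exact h2
        have hall : ssum l = Finset.univ := by
          apply Finset.eq_univ_of_forall
          intro t
          have h2 := hk (t * d⁻¹).val
          rw [ZMod.natCast_zmod_val, inv_mul_cancel_right₀ hd] at h2
          exact h2
        rw [hall, Finset.card_univ, ZMod.card] at hfull
        exact lt_irrefl _ hfull
      obtain ⟨s, hs, hns⟩ := hex
      have hmem : s + d ∈ ssum (d :: l) := by
        simp only [ssum]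
        exact Finset.mem_union_right _ (Finset.mem_image_of_mem _ hs)
      have hlt : (ssum l).card < (ssum (d :: l)).card :=
        Finset.card_lt_card ⟨hsub, fun h => hns (h hmem)⟩
      rw [List.length_cons]
      exact (min_le_right _ _).trans (by omega)

theorem exists_sublist_sum [Fact p.Prime] (l : List (ZMod p)) (hl : ∀ d ∈ l, d ≠ 0)
    (hlen : p - 1 ≤ l.length) (t : ZMod p) : ∃ l', List.Sublist l' l ∧ l'.sum = t := by
  have h1 := card_ssum l hl
  have hp := (Fact.out : p.Prime).pos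
  have h2 : p ≤ (ssum l).card := by
    rw [min_eq_left (by omega)] at h1
    exact h1
  have h3 : ssum l = Finset.univ := by
    apply Finset.eq_univ_of_card
    have h4 := Finset.card_le_univ (ssum l)
    rw [ZMod.card] at h4 ⊢
    omega
  exact exists_sublist_of_mem_ssum l t (by rw [h3]; exact Finset.mem_univ t)

end SubsetSums

section Higman

variable {L : Type u} [LieRing L] {p : ℕ} [Fact p.Prime]

theorem Lc_step {M : Fam L p} (hM : FClosed M) (h0 : M 0 = ⊥) :
    ∀ c : ℕ, Lc M (1 + (p - 1) * c) ≤ Lc (Dv M) c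
  | 0 => by
    rw [Nat.mul_zero, Nat.add_zero]
    exact le_rfl
  | c + 1 => by
    have ih := Lc_step hM h0 c
    have e : 1 + (p - 1) * (c + 1) = (1 + (p - 1) * c) + (p - 1) := by ring
    rw [e]
    apply Lc_add_le
    intro j x hx l hl hlen
    have hN : FIdeal (Dv M) M := Dv_ideal hM
    have hI : FIdeal (Lc (Dv M) c) M := Lc_ideal hN c
    have hJ : FIdeal (Lc (Dv M) (c + 1)) M := Lc_ideal hN (c + 1)
    have hIM : Lc (Dv M) c ≤ M := (Lc_le (Dv_closed hM) c).trans (Dv_le hM)
    by_cases hz : ∃ e ∈ l, e.1 = 0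
    · obtain ⟨e, he, he0⟩ := hz
      have h1 : e.2 = 0 := by
        have h2 := hl e he
        rw [he0, h0, AddSubgroup.mem_bot] at h2
        exact h2
      rw [lnc_eq_zero_of_mem he h1]
      exact zero_mem _
    · push Not at hz
      obtain ⟨l0, hl0, hsum⟩ := exists_sublist_sum (l.map Prod.fst) (by
        intro d hd
        obtain ⟨e, he, rfl⟩ := List.mem_map.1 hd
        exact hz e he) (by rw [List.length_map, hlen]) (-j)
      obtain ⟨l', hl', rfl⟩ := List.sublist_map_iff.1 hl0
      exact lnc_mem_of_sublist h0 hIM hI hJ le_rfl hl' hl j x (ih j hx) (by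
        show j + (l'.map Prod.fst).sum = 0
        rw [hsum]
        abel)

theorem xi_succ (q k : ℕ) : ∑ i ∈ Finset.range (k + 1), q ^ i =
    1 + q * ∑ i ∈ Finset.range k, q ^ i := by
  rw [Finset.sum_range_succ', Finset.mul_sum, pow_zero, add_comm]
  congr 1
  apply Finset.sum_congr rfl
  intro i _
  rw [pow_succ']

/-- **Higman's theorem** for families: a bracket-closed family indexed by `ZMod p`, `p` prime,
with trivial component at `0` and derived length at most `k` is nilpotent of class at most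
`1 + (p - 1) + ⋯ + (p - 1) ^ (k - 1)`. -/
theorem higman : ∀ (k : ℕ) (M : Fam L p), FClosed M → M 0 = ⊥ → Dv^[k] M = ⊥ →
    Lc M (∑ i ∈ Finset.range k, (p - 1) ^ i) = ⊥
  | 0, M, _, _, hD => by
    rw [Finset.range_zero, Finset.sum_empty, Lc_zero]
    exact hD
  | k + 1, M, hM, h0, hD => by
    have hN0 : Dv M 0 = ⊥ := le_bot_iff.1 ((Dv_le hM 0).trans (le_of_eq h0))
    have h1 := higman k (Dv M) (Dv_closed hM) hN0 (by
      rw [← Function.iterate_succ_apply]
      exact hD)
    rw [xi_succ]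
    apply le_bot_iff.1
    rw [← h1]
    exact Lc_step hM h0 _

/-- Kreknin and Higman together. -/
theorem kk_family (M : Fam L p) (hM : FClosed M) (h0 : M 0 = ⊥) :
    Lc M (∑ i ∈ Finset.range (2 ^ (p - 1) - 1), (p - 1) ^ i) = ⊥ :=
  higman _ M hM h0 (kreknin M hM h0)

omit [Fact p.Prime] in
theorem three_family (M : Fam L 3) (hM : FClosed M) (h0 : M 0 = ⊥) : Lc M 2 = ⊥ := by
  apply le_bot_iff.1
  show fbr (fbr M M) M ≤ ⊥
  apply fbr_le
  intro c b z hz y hy
  show ⁅z, y⁆ ∈ (⊥ : AddSubgroup L)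
  rw [AddSubgroup.mem_bot]
  have hle : fbr M M c ≤ (lieR y).ker := by
    apply iSup_le
    intro a
    apply br_le
    intro x1 h1 x2 h2
    rw [AddMonoidHom.mem_ker]
    show ⁅⁅x1, x2⁆, y⁆ = 0
    have key : ∀ d1 d2 d3 : ZMod 3, d1 = 0 ∨ d2 = 0 ∨ d3 = 0 ∨ d1 + d2 = 0 ∨ d1 + d2 + d3 = 0 ∨
        (d1 + d3 = 0 ∧ d2 + d3 = 0) := by decide
    have zero_of : ∀ {d : ZMod 3} {x : L}, x ∈ M d → d = 0 → x = 0 := by
      intro d x hx hd
      rw [hd, h0, AddSubgroup.mem_bot] at hx
      exact hx
    rcases key a (c - a) b with h | h | h | h | h | ⟨h, h'⟩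
    · rw [zero_of h1 h, zero_lie, zero_lie]
    · rw [zero_of h2 h, lie_zero, zero_lie]
    · rw [zero_of hy h, lie_zero]
    · rw [zero_of (hM.lie_mem h1 h2) h, zero_lie]
    · exact zero_of (hM.lie_mem (hM.lie_mem h1 h2) hy) h
    · rw [jac, zero_of (hM.lie_mem h1 hy) h, zero_of (hM.lie_mem h2 hy) h', zero_lie, lie_zero,
        add_zero]
  exact hle hz

end Higman

section Span

variable {L : Type u} [LieRing L] {n : ℕ}

/-- The additive span of the components of the lower central family. -/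
def Tm (M : Fam L n) (m : ℕ) : AddSubgroup L := ⨆ j : ZMod n, Lc M m j

theorem lie_mem_Tm {M : Fam L n} {m : ℕ} {y z : L} (hy : y ∈ Tm M m) (hz : z ∈ Tm M 0) :
    ⁅y, z⁆ ∈ Tm M (m + 1) := by
  have h1 : ∀ (b : ZMod n) (z : L), z ∈ M b → Tm M m ≤ (Tm M (m + 1)).comap (lieR z) := by
    intro b z hz
    apply iSup_le
    intro a y hy
    show ⁅y, z⁆ ∈ Tm M (m + 1)
    exact (le_iSup (fun j => Lc M (m + 1) j) (a + b)) (lie_mem_fbr hy hz)
  have h2 : Tm M 0 ≤ (Tm M (m + 1)).comap (lieL y) := by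
    apply iSup_le
    intro b z hz
    exact h1 b z hz hy
  exact h2 hz

theorem Tm_eq_bot {M : Fam L n} {m : ℕ} (h : Lc M m = ⊥) : Tm M m = ⊥ := by
  apply le_bot_iff.1
  apply iSup_le
  intro j
  rw [h]
  exact le_rfl

/-- The lower central series of a Lie ring, as additive subgroups (`LL L m` has weight
`m + 1`). -/
def LL (L : Type u) [LieRing L] : ℕ → AddSubgroup L
  | 0 => ⊤
  | m + 1 => br (LL L m) ⊤

end Span

end Cfsg.Agent.Helper53.HK
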