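-- helper53 library: the loop ring `ZMod p → L` of a Lie ring `L` with an automorphism of order
-- `p` without fixed points, its eigen-components, and the transfer of nilpotency back to `L`
-- (towards S3779); add-only.
import Cfsg.Agent.Helper53.HKFamily

set_option autoImplicit false

namespace Cfsg.Agent.Helper53.HK

universe u

/-- The loop ring: functions `ZMod p → L` with the convolution bracket. -/
def Loop (p : ℕ) (L : Type u) : Type u := ZMod p → L

namespace Loop

variable {L : Type u} [LieRing L] {p : ℕ}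

instance instAddCommGroup : AddCommGroup (Loop p L) :=
  inferInstanceAs (AddCommGroup (ZMod p → L))

theorem ext {f g : Loop p L} (h : ∀ c, f c = g c) : f = g := funext h

theorem add_apply (f g : Loop p L) (c : ZMod p) : (f + g) c = f c + g c := rfl

theorem zero_apply (c : ZMod p) : (0 : Loop p L) c = 0 := rfl

theorem neg_apply (f : Loop p L) (c : ZMod p) : (-f) c = -f c := rfl

theorem sub_apply (f g : Loop p L) (c : ZMod p) : (f - g) c = f c - g c := rfl

theorem nsmul_apply (m : ℕ) (f : Loop p L) (c : ZMod p) : (m • f) c = m • f c := rfl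

/-- Evaluation as an additive map. -/
def evalHom (c : ZMod p) : Loop p L →+ L :=
  AddMonoidHom.mk' (fun f => f c) (fun _ _ => rfl)

theorem evalHom_apply (c : ZMod p) (f : Loop p L) : evalHom c f = f c := rfl

theorem sum_apply {ι : Type*} (s : Finset ι) (F : ι → Loop p L) (c : ZMod p) :
    (∑ i ∈ s, F i) c = ∑ i ∈ s, F i c := by
  have h := map_sum (evalHom (L := L) c) F s
  exact h

variable [Fact p.Prime]

instance instBracket : Bracket (Loop p L) (Loop p L) :=
  ⟨fun f g => fun c => ∑ a : ZMod p, ⁅f a, g (c - a)⁆⟩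

theorem lie_apply (f g : Loop p L) (c : ZMod p) :
    ⁅f, g⁆ c = ∑ a : ZMod p, ⁅f a, g (c - a)⁆ := rfl

instance instLieRing : LieRing (Loop p L) :=
  { (inferInstance : AddCommGroup (Loop p L)), (inferInstance : Bracket (Loop p L) (Loop p L)) with
    add_lie := by
      intro f g h
      apply ext
      intro c
      simp only [lie_apply, add_apply, add_lie, Finset.sum_add_distrib]
    lie_add := by
      intro f g h
      apply ext
      intro c
      simp only [lie_apply, add_apply, lie_add, Finset.sum_add_distrib]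
    lie_self := by
      intro f
      apply ext
      intro c
      rw [lie_apply, zero_apply]
      apply Finset.sum_involution (fun a _ => c - a)
      · intro a _
        rw [sub_sub_cancel, ← lie_skew (f (c - a)) (f a)]
        exact add_neg_cancel _
      · intro a _ hne heq
        apply hne
        rw [heq, lie_self]
      · intro a _
        exact Finset.mem_univ _
      · intro a _
        exact sub_sub_cancel c a
    leibniz_lie := by
      intro x y z
      apply ext
      intro c
      rw [add_apply, lie_apply, lie_apply, lie_apply]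
      have h1 : ∑ a : ZMod p, ⁅x a, ⁅y, z⁆ (c - a)⁆ =
          ∑ a : ZMod p, ∑ b : ZMod p, ⁅x a, ⁅y b, z (c - a - b)⁆⁆ := by
        apply Finset.sum_congr rfl
        intro a _
        rw [lie_apply, lie_sum]
      have h2 : ∑ s : ZMod p, ⁅⁅x, y⁆ s, z (c - s)⁆ =
          ∑ a : ZMod p, ∑ b : ZMod p, ⁅⁅x a, y b⁆, z (c - a - b)⁆ := by
        have h3 : ∑ s : ZMod p, ⁅⁅x, y⁆ s, z (c - s)⁆ =
            ∑ s : ZMod p, ∑ a : ZMod p, ⁅⁅x a, y (s - a)⁆, z (c - s)⁆ := by
          apply Finset.sum_congr rfl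
          intro s _
          rw [lie_apply, sum_lie]
        rw [h3, Finset.sum_comm]
        apply Finset.sum_congr rfl
        intro a _
        apply Fintype.sum_equiv (Equiv.subRight a)
        intro s
        have e : c - a - (s - a) = c - s := by abel
        rw [Equiv.subRight_apply, e]
      have h4 : ∑ b : ZMod p, ⁅y b, ⁅x, z⁆ (c - b)⁆ =
          ∑ a : ZMod p, ∑ b : ZMod p, ⁅y b, ⁅x a, z (c - a - b)⁆⁆ := by
        have h5 : ∑ b : ZMod p, ⁅y b, ⁅x, z⁆ (c - b)⁆ =
            ∑ b : ZMod p, ∑ a : ZMod p, ⁅y b, ⁅x a, z (c - a - b)⁆⁆ := by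
          apply Finset.sum_congr rfl
          intro b _
          rw [lie_apply, lie_sum]
          apply Finset.sum_congr rfl
          intro a _
          rw [sub_right_comm]
        rw [h5, Finset.sum_comm]
      rw [h1, h2, h4, ← Finset.sum_add_distrib]
      apply Finset.sum_congr rfl
      intro a _
      rw [← Finset.sum_add_distrib]
      apply Finset.sum_congr rfl
      intro b _
      exact leibniz_lie (x a) (y b) (z (c - a - b)) }

/-- The function supported at `0`. -/
def dl (x : L) : Loop p L := fun c => if c = 0 then x else 0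

/-- The constant function. -/
def kc (x : L) : Loop p L := fun _ => x

theorem dl_lie (x : L) (g : Loop p L) (c : ZMod p) : ⁅dl (p := p) x, g⁆ c = ⁅x, g c⁆ := by
  rw [lie_apply, Finset.sum_eq_single (0 : ZMod p)]
  · show ⁅(if (0 : ZMod p) = 0 then x else 0), g (c - 0)⁆ = ⁅x, g c⁆
    rw [if_pos rfl, sub_zero]
  · intro a _ ha
    show ⁅(if a = 0 then x else 0), g (c - a)⁆ = 0
    rw [if_neg ha, zero_lie]
  · intro h
    exact absurd (Finset.mem_univ _) h

theorem lie_dl (f : Loop p L) (y : L) (c : ZMod p) : ⁅f, dl (p := p) y⁆ c = ⁅f c, y⁆ := by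
  rw [lie_apply, Finset.sum_eq_single c]
  · show ⁅f c, (if c - c = 0 then y else 0)⁆ = ⁅f c, y⁆
    rw [if_pos (sub_self c)]
  · intro a _ ha
    show ⁅f a, (if c - a = 0 then y else 0)⁆ = 0
    rw [if_neg (fun h => ha (sub_eq_zero.1 h).symm), lie_zero]
  · intro h
    exact absurd (Finset.mem_univ _) h

theorem kc_lie_kc (x y : L) (c : ZMod p) : ⁅kc (p := p) x, kc y⁆ c = p • ⁅x, y⁆ := by
  rw [lie_apply]
  show ∑ _a : ZMod p, ⁅x, y⁆ = p • ⁅x, y⁆
  rw [Finset.sum_const, Finset.card_univ, ZMod.card]

/-- The embedding `x ↦ x ⊗ (p - N)`. -/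
def iota (x : L) : Loop p L := dl (p • x) - kc x

theorem iota_apply (x : L) (c : ZMod p) :
    iota (p := p) x c = (if c = 0 then p • x else 0) - x := rfl

theorem iota_add (x y : L) : iota (p := p) (x + y) = iota x + iota y := by
  apply ext
  intro c
  rw [add_apply, iota_apply, iota_apply, iota_apply]
  by_cases hc : c = 0
  · rw [if_pos hc, if_pos hc, if_pos hc, smul_add]
    abel
  · rw [if_neg hc, if_neg hc, if_neg hc]
    abel

/-- `iota` as an additive map. -/
def iotaHom : L →+ Loop p L := AddMonoidHom.mk' (fun x => iota x) iota_add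

theorem iotaHom_apply (x : L) : iotaHom (p := p) x = iota x := rfl

theorem iota_zero : iota (p := p) (0 : L) = 0 := map_zero iotaHom

theorem iota_neg (x : L) : iota (p := p) (-x) = -iota x := map_neg iotaHom x

theorem iota_nsmul (m : ℕ) (x : L) : iota (p := p) (m • x) = m • iota x := map_nsmul iotaHom m x

theorem iota_eq_zero {x : L} (h : iota (p := p) x = 0) : x = 0 := by
  have h1 : iota (p := p) x 1 = 0 := by rw [h, zero_apply]
  have : Fact (1 < p) := ⟨(Fact.out : p.Prime).one_lt⟩
  rw [iota_apply, if_neg (one_ne_zero), zero_sub, neg_eq_zero] at h1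
  exact h1

theorem iota_lie (x y : L) :
    ⁅iota (p := p) x, iota (p := p) y⁆ = p • iota (p := p) ⁅x, y⁆ := by
  apply ext
  intro c
  have e1 : ⁅iota (p := p) x, iota (p := p) y⁆ =
      ⁅dl (p := p) (p • x), dl (p := p) (p • y)⁆ - ⁅dl (p := p) (p • x), kc (p := p) y⁆ -
      ⁅kc (p := p) x, dl (p := p) (p • y)⁆ + ⁅kc (p := p) x, kc (p := p) y⁆ := by
    unfold iota
    rw [sub_lie, lie_sub, lie_sub]
    abel
  rw [e1, add_apply, sub_apply, sub_apply, dl_lie, dl_lie, lie_dl, kc_lie_kc, nsmul_apply,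
    iota_apply]
  show ⁅p • x, (if c = 0 then p • y else 0)⁆ - ⁅p • x, y⁆ - ⁅x, p • y⁆ + p • ⁅x, y⁆ =
    p • ((if c = 0 then p • ⁅x, y⁆ else 0) - ⁅x, y⁆)
  by_cases hc : c = 0
  · rw [if_pos hc, if_pos hc]
    simp only [nsmul_lie, lie_nsmul, smul_sub]
    abel
  · rw [if_neg hc, if_neg hc]
    simp only [nsmul_lie, lie_nsmul, smul_sub, lie_zero, smul_zero]
    abel

end Loop

section Components

variable {L : Type u} [LieRing L] {p : ℕ} [Fact p.Prime] (A : L →+ L)

/-- The eigen-components of the loop ring. -/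
def comp (i : ZMod p) : AddSubgroup (Loop p L) where
  carrier := {f | ∀ c, A (f c) = f (c - i)}
  zero_mem' := by
    intro c
    show A 0 = 0
    exact map_zero A
  add_mem' := by
    intro f g hf hg c
    show A (f c + g c) = f (c - i) + g (c - i)
    rw [map_add, hf c, hg c]
  neg_mem' := by
    intro f hf c
    show A (-f c) = -f (c - i)
    rw [map_neg, hf c]

theorem mem_comp (i : ZMod p) (f : Loop p L) : f ∈ comp A i ↔ ∀ c, A (f c) = f (c - i) := Iff.rfl

theorem comp_closed (hlie : ∀ x y, A ⁅x, y⁆ = ⁅A x, A y⁆) :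
    FClosed (comp A : Fam (Loop p L) p) := by
  apply fbr_le
  intro i j f hf g hg c
  rw [Loop.lie_apply, Loop.lie_apply, map_sum]
  apply Fintype.sum_equiv (Equiv.subRight i)
  intro a
  have e : c - (i + j) - (a - i) = c - a - j := by abel
  rw [Equiv.subRight_apply, hlie, hf a, hg (c - a), e]

theorem comp_zero (hfix : ∀ x, A x = x → x = 0) : comp (p := p) A 0 = ⊥ := by
  apply le_bot_iff.1
  intro f hf
  rw [AddSubgroup.mem_bot]
  apply Loop.ext
  intro c
  have h1 := hf c
  rw [sub_zero] at h1
  exact hfix _ h1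

theorem iter_mod (hper : ∀ x, (⇑A)^[p] x = x) (m : ℕ) (x : L) :
    (⇑A)^[m] x = (⇑A)^[m % p] x := by
  conv_lhs => rw [← Nat.mod_add_div m p]
  rw [Function.iterate_add_apply, Function.iterate_mul]
  congr 1
  exact Function.iterate_fixed (hper x) _

theorem iter_val_succ (hper : ∀ x, (⇑A)^[p] x = x) (k : ZMod p) (x : L) :
    (⇑A)^[(k + 1).val] x = A ((⇑A)^[k.val] x) := by
  have : Fact (1 < p) := ⟨(Fact.out : p.Prime).one_lt⟩
  rw [ZMod.val_add, ZMod.val_one, ← iter_mod A hper, Function.iterate_succ_apply']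

/-- The component of degree `i` of `x`. -/
def ecomp (i : ZMod p) (x : L) : Loop p L :=
  fun c => ∑ k : ZMod p, if -k * i = c then (⇑A)^[k.val] x else 0

theorem ecomp_mem (hper : ∀ x, (⇑A)^[p] x = x) (i : ZMod p) (x : L) :
    ecomp A i x ∈ comp A i := by
  intro c
  show A (∑ k : ZMod p, if -k * i = c then (⇑A)^[k.val] x else 0) =
    ∑ k : ZMod p, if -k * i = c - i then (⇑A)^[k.val] x else 0
  rw [map_sum]
  apply Fintype.sum_equiv (Equiv.addRight (1 : ZMod p))
  intro k
  rw [Equiv.coe_addRight]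
  by_cases h : -k * i = c
  · have h' : -(k + 1) * i = c - i := by
      rw [← h]
      ring
    rw [if_pos h, if_pos h', iter_val_succ A hper]
  · have h' : ¬ (-(k + 1) * i = c - i) := by
      intro h2
      apply h
      have e : -k * i = -(k + 1) * i + i := by ring
      rw [e, h2]
      ring
    rw [if_neg h, if_neg h', map_zero]

theorem sum_iter (hN : ∀ x, ∑ j ∈ Finset.range p, (⇑A)^[j] x = 0) (x : L) :
    ∑ k : ZMod p, (⇑A)^[k.val] x = 0 := by
  rw [← hN x]
  exact Finset.sum_nbij' (fun k => k.val) (fun m => (m : ZMod p))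
    (fun k _ => Finset.mem_range.2 (ZMod.val_lt k)) (fun m _ => Finset.mem_univ _)
    (fun k _ => ZMod.natCast_zmod_val k)
    (fun m hm => ZMod.val_natCast_of_lt (Finset.mem_range.1 hm)) (fun k _ => rfl)

theorem sum_ecomp (hN : ∀ x, ∑ j ∈ Finset.range p, (⇑A)^[j] x = 0) (x : L) :
    ∑ i : ZMod p, ecomp A i x = Loop.iota x := by
  apply Loop.ext
  intro c
  rw [Loop.sum_apply, Loop.iota_apply]
  show ∑ i : ZMod p, ∑ k : ZMod p, (if -k * i = c then (⇑A)^[k.val] x else 0) =
    (if c = 0 then p • x else 0) - x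
  rw [Finset.sum_comm]
  rw [← Finset.add_sum_erase Finset.univ _ (Finset.mem_univ (0 : ZMod p))]
  have h1 : ∑ i : ZMod p, (if -(0 : ZMod p) * i = c then (⇑A)^[(0 : ZMod p).val] x else 0) =
      if c = 0 then p • x else 0 := by
    have e : ∀ i : ZMod p, (if -(0 : ZMod p) * i = c then (⇑A)^[(0 : ZMod p).val] x else 0) =
        if c = 0 then x else 0 := by
      intro i
      rw [neg_zero, zero_mul, ZMod.val_zero, Function.iterate_zero, id]
      by_cases hc : c = 0
      · rw [if_pos hc, if_pos hc.symm]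
      · rw [if_neg hc, if_neg (fun h => hc h.symm)]
    rw [Finset.sum_congr rfl (fun i _ => e i), Finset.sum_const, Finset.card_univ, ZMod.card]
    by_cases hc : c = 0
    · rw [if_pos hc, if_pos hc]
    · rw [if_neg hc, if_neg hc, smul_zero]
  have h2 : ∀ k ∈ Finset.univ.erase (0 : ZMod p),
      ∑ i : ZMod p, (if -k * i = c then (⇑A)^[k.val] x else 0) = (⇑A)^[k.val] x := by
    intro k hk
    have hk0 : k ≠ 0 := (Finset.mem_erase.1 hk).1
    rw [Finset.sum_eq_single (-c * k⁻¹)]
    · have e : -k * (-c * k⁻¹) = c := by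
        have e2 : -k * (-c * k⁻¹) = c * (k * k⁻¹) := by ring
        rw [e2, mul_inv_cancel₀ hk0, mul_one]
      rw [if_pos e]
    · intro i _ hi
      have hne : ¬ (-k * i = c) := by
        intro h
        apply hi
        rw [← h]
        have e2 : -(-k * i) * k⁻¹ = i * (k * k⁻¹) := by ring
        rw [e2, mul_inv_cancel₀ hk0, mul_one]
      rw [if_neg hne]
    · intro h
      exact absurd (Finset.mem_univ _) h
  rw [h1, Finset.sum_congr rfl h2]
  have h3 := sum_iter A hN x
  have h4 := Finset.add_sum_erase Finset.univ (fun k : ZMod p => (⇑A)^[k.val] x)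
    (Finset.mem_univ (0 : ZMod p))
  rw [h3] at h4
  have h5 : ∑ k ∈ Finset.univ.erase (0 : ZMod p), (⇑A)^[k.val] x = -x := by
    have h6 : (⇑A)^[(0 : ZMod p).val] x = x := by
      rw [ZMod.val_zero, Function.iterate_zero, id]
    rw [h6] at h4
    exact (neg_eq_of_add_eq_zero_right h4).symm
  rw [h5]
  abel

theorem iota_mem_Tm (hper : ∀ x, (⇑A)^[p] x = x)
    (hN : ∀ x, ∑ j ∈ Finset.range p, (⇑A)^[j] x = 0) (x : L) :
    Loop.iota x ∈ Tm (comp A : Fam (Loop p L) p) 0 := by
  rw [← sum_ecomp A hN x]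
  apply sum_mem
  intro i _
  exact (le_iSup (fun j => Lc (comp A : Fam (Loop p L) p) 0 j) i) (ecomp_mem A hper i x)

theorem fixed_eq_zero (hN : ∀ x, ∑ j ∈ Finset.range p, (⇑A)^[j] x = 0)
    (htor : ∀ x : L, p • x = 0 → x = 0) (x : L) (hx : A x = x) : x = 0 := by
  apply htor
  have h1 := hN x
  have h2 : ∀ j ∈ Finset.range p, (⇑A)^[j] x = x := fun j _ => Function.iterate_fixed hx j
  rw [Finset.sum_congr rfl h2, Finset.sum_const, Finset.card_range] at h1
  exact h1

theorem pow_tor (htor : ∀ x : L, p • x = 0 → x = 0) : ∀ (m : ℕ) (x : L), p ^ m • x = 0 → x = 0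
  | 0, x, h => by
    rw [pow_zero, one_nsmul] at h
    exact h
  | m + 1, x, h => by
    rw [pow_succ, mul_nsmul'] at h
    exact htor x (pow_tor htor m _ h)

/-- Transfer: if every bracket-closed family of the loop ring with trivial component at `0` has
`Lc M h = ⊥`, then the `h`-th term of the lower central series of `L` is trivial. -/
theorem loop_main (hlie : ∀ x y, A ⁅x, y⁆ = ⁅A x, A y⁆) (hper : ∀ x, (⇑A)^[p] x = x)
    (hN : ∀ x, ∑ j ∈ Finset.range p, (⇑A)^[j] x = 0) (htor : ∀ x : L, p • x = 0 → x = 0)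
    (h : ℕ) (hcls : ∀ M : Fam (Loop p L) p, FClosed M → M 0 = ⊥ → Lc M h = ⊥) :
    LL L h = ⊥ := by
  have hM : FClosed (comp A : Fam (Loop p L) p) := comp_closed A hlie
  have h0 : comp (p := p) A 0 = ⊥ := comp_zero A (fixed_eq_zero A hN htor)
  have hL := hcls (comp A) hM h0
  have claim : ∀ m : ℕ, ∀ y ∈ LL L m, p ^ m • Loop.iota y ∈ Tm (comp A : Fam (Loop p L) p) m := by
    intro m
    induction m with
    | zero =>
      intro y _
      rw [pow_zero, one_nsmul]
      exact iota_mem_Tm A hper hN y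
    | succ m ih =>
      intro y hy
      have hy' : y ∈ AddSubgroup.closure {z | ∃ x ∈ LL L m, ∃ y ∈ (⊤ : AddSubgroup L),
          ⁅x, y⁆ = z} := hy
      clear hy
      induction hy' using AddSubgroup.closure_induction with
      | mem z hz =>
        obtain ⟨y', hy', x, -, rfl⟩ := hz
        have e : p ^ (m + 1) • Loop.iota (p := p) ⁅y', x⁆ =
            ⁅p ^ m • Loop.iota (p := p) y', Loop.iota x⁆ := by
          rw [pow_succ, mul_nsmul', ← Loop.iota_lie, nsmul_lie]
        rw [e]
        exact lie_mem_Tm (ih y' hy') (iota_mem_Tm A hper hN x)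
      | zero =>
        rw [Loop.iota_zero, smul_zero]
        exact zero_mem _
      | add a b _ _ iha ihb =>
        rw [Loop.iota_add, smul_add]
        exact add_mem iha ihb
      | neg a _ iha =>
        rw [Loop.iota_neg, smul_neg]
        exact neg_mem iha
  apply le_bot_iff.1
  intro y hy
  rw [AddSubgroup.mem_bot]
  have h1 := claim h y hy
  rw [Tm_eq_bot hL, AddSubgroup.mem_bot, ← Loop.iota_nsmul] at h1
  exact pow_tor htor h y (Loop.iota_eq_zero h1)

end Components

end Cfsg.Agent.Helper53.HK
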