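-- helper53 library: Higman / Kreknin-Kostrikin for finite groups with a fixed-point-free
-- automorphism of prime order (towards S3779); add-only.
import Mathlib
import Cfsg.Agent.Helper53.HKLie
import Cfsg.Agent.Helper53.HKLoop
import Cfsg.Agent.Helper19.ThompsonThesis

set_option autoImplicit false

namespace Cfsg.Agent.Helper53.HK

open scoped commutatorElement

universe u

section Auto

variable {G : Type u} [Group G] (α : MulAut G)

theorem Gam_map (w : ℕ) {g : G} (hg : g ∈ Gam G w) : α g ∈ Gam G w := by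
  have h := (Gam_char G w).fixed α
  rw [← h] at hg
  exact hg

theorem Gam_map_iter (w : ℕ) (n : ℕ) {g : G} (hg : g ∈ Gam G w) : (⇑α)^[n] g ∈ Gam G w := by
  induction n generalizing g with
  | zero => exact hg
  | succ n ih =>
    rw [Function.iterate_succ_apply]
    exact ih (Gam_map α w hg)

theorem iter_eq_pow (n : ℕ) (g : G) : (⇑α)^[n] g = (α ^ n) g := by
  induction n generalizing g with
  | zero => rfl
  | succ n ih => rw [Function.iterate_succ_apply, ih, pow_succ, MulAut.mul_apply]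

/-- The automorphism restricted to a term of the lower central series. -/
def resAut (w : ℕ) : ↥(Gam G w) →* ↥(Gam G w) :=
  ((α.toMonoidHom).comp (Gam G w).subtype).codRestrict (Gam G w) (fun x => Gam_map α w x.2)

theorem resAut_coe (w : ℕ) (x : ↥(Gam G w)) : ((resAut α w x : ↥(Gam G w)) : G) = α x := rfl

/-- The induced map on a section, multiplicatively. -/
def secMapMul (w : ℕ) : (↥(Gam G w) ⧸ GamSub G w) →* (↥(Gam G w) ⧸ GamSub G w) :=
  QuotientGroup.map (GamSub G w) (GamSub G w) (resAut α w) (by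
    intro x hx
    rw [Subgroup.mem_comap, Subgroup.mem_subgroupOf]
    rw [Subgroup.mem_subgroupOf] at hx
    exact Gam_map α (w + 1) hx)

/-- The induced map on a section. -/
def secMap (w : ℕ) : Sec G w →+ Sec G w := MonoidHom.toAdditive (secMapMul α w)

theorem secMap_sec (w : ℕ) {g : G} (hg : g ∈ Gam G w) :
    secMap α w (sec G w g hg) = sec G w (α g) (Gam_map α w hg) := rfl

theorem secMap_iter_sec (w : ℕ) (n : ℕ) {g : G} (hg : g ∈ Gam G w) :
    (⇑(secMap α w))^[n] (sec G w g hg) = sec G w ((⇑α)^[n] g) (Gam_map_iter α w n hg) := by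
  induction n generalizing g with
  | zero => rfl
  | succ n ih =>
    rw [Function.iterate_succ_apply, secMap_sec, ih]
    rfl

theorem secMap_per {p : ℕ} (hper : ∀ g : G, (⇑α)^[p] g = g) (w : ℕ) (a : Sec G w) :
    (⇑(secMap α w))^[p] a = a := by
  obtain ⟨g, hg, rfl⟩ := sec_surj a
  rw [secMap_iter_sec]
  exact sec_congr (hper g) _ _

theorem secMap_fpf [Finite G] {p : ℕ} (hFP : Cfsg.Agent.Helper19.FP p α.toMonoidHom) (w : ℕ)
    (a : Sec G w) (ha : secMap α w a = a) : a = 0 := by
  obtain ⟨g, hg, rfl⟩ := sec_surj a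
  rw [secMap_sec] at ha
  have h1 : g⁻¹ * α g ∈ Gam G (w + 1) := (sec_eq_iff hg (Gam_map α w hg)).1 ha.symm
  have hinv : Gam G (w + 1) ≤ (Gam G (w + 1)).comap α.toMonoidHom := by
    intro x hx
    exact Gam_map α (w + 1) hx
  exact (sec_eq_zero_iff hg).2 (hFP.mem_of_inv_mul_mem hinv h1)

theorem secMap_norm [Finite G] {p : ℕ} (hFP : Cfsg.Agent.Helper19.FP p α.toMonoidHom) (w : ℕ)
    (a : Sec G w) : ∑ j ∈ Finset.range p, (⇑(secMap α w))^[j] a = 0 := by
  apply secMap_fpf α hFP w
  rw [map_sum]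
  have hper : (⇑(secMap α w))^[p] a = a := secMap_per α hFP.iter w a
  have e : ∀ j : ℕ, secMap α w ((⇑(secMap α w))^[j] a) = (⇑(secMap α w))^[j + 1] a := by
    intro j
    rw [Function.iterate_succ_apply']
  simp only [e]
  have h1 := Finset.sum_range_succ' (fun j => (⇑(secMap α w))^[j] a) p
  have h2 := Finset.sum_range_succ (fun j => (⇑(secMap α w))^[j] a) p
  rw [h2] at h1
  simp only [hper, Function.iterate_zero, id_eq] at h1
  exact (add_right_cancel h1).symm

theorem sec_tor [Finite G] {p : ℕ} (hp : p.Prime) (hpG : ¬ p ∣ Nat.card G) (w : ℕ)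
    (a : Sec G w) (h : p • a = 0) : a = 0 := by
  have h1 : addOrderOf a ∣ p := addOrderOf_dvd_of_nsmul_eq_zero h
  have h2 : addOrderOf a ∣ Nat.card (Sec G w) := addOrderOf_dvd_natCard a
  have h3 : Nat.card (Sec G w) ∣ Nat.card G := by
    have e1 : Nat.card (Sec G w) = Nat.card (↥(Gam G w) ⧸ GamSub G w) := rfl
    rw [e1]
    exact (Subgroup.card_quotient_dvd_card _).trans (Subgroup.card_subgroup_dvd_card _)
  rcases (Nat.dvd_prime hp).1 h1 with h4 | h4
  · exact AddMonoid.addOrderOf_eq_one_iff.1 h4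
  · exact absurd (h4 ▸ (h2.trans h3)) hpG

/-- The induced endomorphism of the associated Lie ring. -/
def hatA : LG G →+ LG G :=
  DirectSum.toAddMonoid (fun w => (DirectSum.of (Sec G) w).comp (secMap α w))

theorem hatA_of (w : ℕ) (a : Sec G w) :
    hatA α (DirectSum.of (Sec G) w a) = DirectSum.of (Sec G) w (secMap α w a) := by
  unfold hatA
  rw [DirectSum.toAddMonoid_of]
  rfl

theorem hatA_mkL (w : ℕ) {g : G} (hg : g ∈ Gam G w) :
    hatA α (mkL G w g hg) = mkL G w (α g) (Gam_map α w hg) := by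
  unfold mkL
  rw [hatA_of, secMap_sec]

theorem hatA_iter_of (w : ℕ) (n : ℕ) (a : Sec G w) :
    (⇑(hatA α))^[n] (DirectSum.of (Sec G) w a) =
      DirectSum.of (Sec G) w ((⇑(secMap α w))^[n] a) := by
  induction n generalizing a with
  | zero => rfl
  | succ n ih =>
    rw [Function.iterate_succ_apply, hatA_of, ih]
    rfl

theorem hatA_lie (x y : LG G) : hatA α ⁅x, y⁆ = ⁅hatA α x, hatA α y⁆ := by
  refine LG_ind (P := fun x => ∀ y : LG G, hatA α ⁅x, y⁆ = ⁅hatA α x, hatA α y⁆) ?_ ?_ ?_ x y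
  · intro y
    rw [zero_lie, map_zero, zero_lie]
  · intro i g hg y
    refine LG_ind (P := fun y => hatA α ⁅mkL G i g hg, y⁆ =
      ⁅hatA α (mkL G i g hg), hatA α y⁆) ?_ ?_ ?_ y
    · rw [lie_zero, map_zero, lie_zero]
    · intro j h hh
      rw [mkL_lie, hatA_mkL, hatA_mkL, hatA_mkL, mkL_lie]
      exact mkL_congr rfl (map_commutatorElement α g h) _ _
    · intro y y' hy hy'
      rw [lie_add, map_add, map_add, lie_add, hy, hy']
  · intro x x' hx hx' y
    rw [add_lie, map_add, map_add, add_lie, hx y, hx' y]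

theorem hatA_per {p : ℕ} (hper : ∀ g : G, (⇑α)^[p] g = g) (x : LG G) :
    (⇑(hatA α))^[p] x = x := by
  refine DirectSum.induction_on x ?_ ?_ ?_
  · exact iterate_map_zero (hatA α) p
  · intro i a
    rw [hatA_iter_of, secMap_per α hper]
  · intro x y hx hy
    rw [iterate_map_add, hx, hy]

theorem hatA_norm [Finite G] {p : ℕ} (hFP : Cfsg.Agent.Helper19.FP p α.toMonoidHom)
    (x : LG G) : ∑ j ∈ Finset.range p, (⇑(hatA α))^[j] x = 0 := by
  refine DirectSum.induction_on x ?_ ?_ ?_
  · apply Finset.sum_eq_zero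
    intro j _
    exact iterate_map_zero (hatA α) j
  · intro i a
    simp only [hatA_iter_of]
    rw [← map_sum, secMap_norm α hFP, map_zero]
  · intro x y hx hy
    simp only [iterate_map_add]
    rw [Finset.sum_add_distrib, hx, hy, add_zero]

theorem LG_tor [Finite G] {p : ℕ} (hp : p.Prime) (hpG : ¬ p ∣ Nat.card G) (x : LG G)
    (h : p • x = 0) : x = 0 := by
  apply DFinsupp.ext
  intro i
  have h1 := congrArg (DFinsupp.evalAddMonoidHom (β := Sec G) i) h
  rw [map_nsmul, map_zero] at h1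
  exact sec_tor hp hpG i _ h1

theorem not_dvd_card [Finite G] {p : ℕ} (hp : p.Prime) (hα : orderOf α = p)
    (hfpf : ∀ g : G, α g = g → g = 1) : ¬ p ∣ Nat.card G := by
  have : Fact p.Prime := ⟨hp⟩
  have hA : IsPGroup p (Subgroup.zpowers α) :=
    IsPGroup.of_card (n := 1) (by rw [Nat.card_zpowers, hα, pow_one])
  have h1 := hA.card_modEq_card_fixedPoints G
  have h2 : Nat.card ↥(MulAction.fixedPoints (Subgroup.zpowers α) G) = 1 := by
    rw [Nat.card_eq_one_iff_unique]
    refine ⟨⟨fun x y => Subtype.ext ?_⟩, ⟨⟨1, fun a => ?_⟩⟩⟩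
    · have hx : (x : G) = 1 := hfpf x (x.2 ⟨α, Subgroup.mem_zpowers α⟩)
      have hy : (y : G) = 1 := hfpf y (y.2 ⟨α, Subgroup.mem_zpowers α⟩)
      rw [hx, hy]
    · show (a : MulAut G) 1 = 1
      exact map_one _
  rw [h2] at h1
  intro hdvd
  have h3 : Nat.card G ≡ 0 [MOD p] := (Nat.modEq_zero_iff_dvd).2 hdvd
  have h4 : 0 ≡ 1 [MOD p] := h3.symm.trans h1
  have h5 : 0 % p = 1 % p := h4
  rw [Nat.zero_mod, Nat.mod_eq_of_lt hp.one_lt] at h5
  exact absurd h5 (by norm_num)

end Auto

section Main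

variable {G : Type u} [Group G]

theorem mkL_mem_LL : ∀ (m : ℕ) (u : G) (hu : u ∈ Gam G (m + 1)),
    mkL G (m + 1) u hu ∈ LL (LG G) m
  | 0, u, hu => AddSubgroup.mem_top _
  | m + 1, u, hu => by
    have hu' : u ∈ Subgroup.closure {x | ∃ a ∈ Gam G (m + 1), ∃ b ∈ (⊤ : Subgroup G),
        ⁅a, b⁆ = x} := hu
    have key : ∀ (v : G), v ∈ Subgroup.closure {x | ∃ a ∈ Gam G (m + 1),
        ∃ b ∈ (⊤ : Subgroup G), ⁅a, b⁆ = x} →
        ∀ hv : v ∈ Gam G (m + 1 + 1), mkL G (m + 1 + 1) v hv ∈ LL (LG G) (m + 1) := by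
      intro v hv
      induction hv using Subgroup.closure_induction with
      | mem z hz =>
        obtain ⟨a, ha, b, -, rfl⟩ := hz
        intro hv
        have hb : b ∈ Gam G 1 := Subgroup.mem_top b
        have e : mkL G (m + 1 + 1) ⁅a, b⁆ hv = ⁅mkL G (m + 1) a ha, mkL G 1 b hb⁆ := by
          rw [mkL_lie]
        rw [e]
        exact lie_mem_br (mkL_mem_LL m a ha) (AddSubgroup.mem_top _)
      | one =>
        intro hv
        rw [(mkL_eq_zero_iff hv).2 (one_mem _)]
        exact zero_mem _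
      | mul x y hx hy ihx ihy =>
        intro hv
        have hx' : x ∈ Gam G (m + 1 + 1) := hx
        have hy' : y ∈ Gam G (m + 1 + 1) := hy
        rw [mkL_mul hx' hy']
        exact add_mem (ihx hx') (ihy hy')
      | inv x hx ihx =>
        intro hv
        have hx' : x ∈ Gam G (m + 1 + 1) := hx
        rw [mkL_inv hx']
        exact neg_mem (ihx hx')
    exact key u hu' hu

/-- **Higman / Kreknin–Kostrikin, group form**: if every bracket-closed `ZMod p`-family in the
loop ring of the associated Lie ring with trivial `0`-component has `Lc M h = ⊥`, then a finite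
group with a fixed-point-free automorphism of prime order `p` has `γ_{h+1} = 1`. -/
theorem hk_group [Finite G] {p : ℕ} [Fact p.Prime] (α : MulAut G) (hα : orderOf α = p)
    (hfpf : ∀ g : G, α g = g → g = 1) (h : ℕ)
    (hcls : ∀ M : Fam (Loop p (LG G)) p, FClosed M → M 0 = ⊥ → Lc M h = ⊥) :
    (⊤ : Subgroup G).lowerCentralSeries h = ⊥ := by
  have hp : p.Prime := Fact.out
  have hper : ∀ g : G, (⇑α)^[p] g = g := by
    intro g
    rw [iter_eq_pow α p g, ← hα, pow_orderOf_eq_one]
    rfl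
  have hFP : Cfsg.Agent.Helper19.FP p α.toMonoidHom := ⟨hfpf, hper⟩
  have hpG : ¬ p ∣ Nat.card G := not_dvd_card α hp hα hfpf
  have hLL := loop_main (hatA α) (hatA_lie α) (hatA_per α hper) (hatA_norm α hFP)
    (LG_tor hp hpG) h hcls
  have hle : (⊤ : Subgroup G).lowerCentralSeries h ≤
      (⊤ : Subgroup G).lowerCentralSeries (h + 1) := by
    intro u hu
    have hu' : u ∈ Gam G (h + 1) := hu
    have h1 := mkL_mem_LL h u hu'
    rw [hLL, AddSubgroup.mem_bot] at h1
    exact (mkL_eq_zero_iff hu').1 h1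
  have hnil : Group.IsNilpotent G := Cfsg.Agent.Helper19.thompson_thesis hp α.toMonoidHom hFP
  obtain ⟨n, hn⟩ := Subgroup.nilpotent_iff_lowerCentralSeries.1 hnil
  have hstep : ∀ k : ℕ, (⊤ : Subgroup G).lowerCentralSeries h ≤
      (⊤ : Subgroup G).lowerCentralSeries (h + k) := by
    intro k
    induction k with
    | zero => exact le_rfl
    | succ k ih => exact hle.trans (Subgroup.commutator_mono ih le_rfl)
  apply le_bot_iff.1
  calc (⊤ : Subgroup G).lowerCentralSeries h
      ≤ (⊤ : Subgroup G).lowerCentralSeries (h + n) := hstep n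
    _ ≤ (⊤ : Subgroup G).lowerCentralSeries n :=
        (⊤ : Subgroup G).lowerCentralSeries_antitone (Nat.le_add_left n h)
    _ = ⊥ := hn

end Main

end Cfsg.Agent.Helper53.HK
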