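-- helper53 library: Lie ring consequences of a splitting automorphism of prime order
-- (towards S3782, Alperin's theorem); add-only.
import Mathlib
import Cfsg.Agent.Helper53.HKGroup

set_option autoImplicit false

namespace Cfsg.Agent.Helper53.Alp

open Cfsg.Agent.Helper53.HK
open scoped commutatorElement

universe u

section LoopSplit

variable {L : Type u} [LieRing L] {p : ℕ} [Fact p.Prime] (A : L →+ L)

/-- The family `p • comp A i`. -/
def pcomp (i : ZMod p) : AddSubgroup (Loop p L) :=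
  (comp A i).map (nsmulAddMonoidHom p)

theorem smul_mem_pcomp {i : ZMod p} {f : Loop p L} (hf : f ∈ comp A i) : p • f ∈ pcomp A i :=
  ⟨f, hf, rfl⟩

theorem pcomp_closed (hlie : ∀ x y, A ⁅x, y⁆ = ⁅A x, A y⁆) :
    FClosed (pcomp A : Fam (Loop p L) p) := by
  apply fbr_le
  rintro i j _ ⟨f, hf, rfl⟩ _ ⟨g, hg, rfl⟩
  have h1 : ⁅f, g⁆ ∈ comp A (i + j) := (comp_closed A hlie).lie_mem hf hg
  have e : ⁅nsmulAddMonoidHom p f, nsmulAddMonoidHom p g⁆ = p • (p • ⁅f, g⁆) := by
    show ⁅p • f, p • g⁆ = p • (p • ⁅f, g⁆)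
    rw [nsmul_lie, lie_nsmul]
  rw [e]
  exact smul_mem_pcomp A ((comp A (i + j)).nsmul_mem h1 p)

theorem pcomp_zero (hN : ∀ x, ∑ j ∈ Finset.range p, (⇑A)^[j] x = 0) :
    pcomp (p := p) A 0 = ⊥ := by
  apply le_bot_iff.1
  rintro _ ⟨f, hf, rfl⟩
  rw [AddSubgroup.mem_bot]
  apply Loop.ext
  intro c
  show p • f c = 0
  have h1 : A (f c) = f c := by
    have := hf c
    rwa [sub_zero] at this
  have h2 := hN (f c)
  have h3 : ∀ j ∈ Finset.range p, (⇑A)^[j] (f c) = f c :=
    fun j _ => Function.iterate_fixed h1 j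
  rw [Finset.sum_congr rfl h3, Finset.sum_const, Finset.card_range] at h2
  exact h2

theorem smul_iota_mem (hper : ∀ x, (⇑A)^[p] x = x)
    (hN : ∀ x, ∑ j ∈ Finset.range p, (⇑A)^[j] x = 0) (x : L) :
    p • Loop.iota (p := p) x ∈ Tm (pcomp A : Fam (Loop p L) p) 0 := by
  rw [← sum_ecomp A hN x, Finset.smul_sum]
  apply sum_mem
  intro i _
  exact (le_iSup (fun j => Lc (pcomp A : Fam (Loop p L) p) 0 j) i)
    (smul_mem_pcomp A (ecomp_mem A hper i x))

/-- If the norm `1 + A + ⋯ + A^(p-1)` vanishes on the Lie ring `L`, then `p ^ (2h+1)` kills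
the `(h+1)`-st term of the lower central series, `h` being a class bound for `ZMod p`-graded
families with trivial `0`-component. -/
theorem loop_split (hlie : ∀ x y, A ⁅x, y⁆ = ⁅A x, A y⁆) (hper : ∀ x, (⇑A)^[p] x = x)
    (hN : ∀ x, ∑ j ∈ Finset.range p, (⇑A)^[j] x = 0)
    (h : ℕ) (hcls : ∀ M : Fam (Loop p L) p, FClosed M → M 0 = ⊥ → Lc M h = ⊥) :
    ∀ y ∈ LL L h, p ^ (2 * h + 1) • y = 0 := by
  have hM : FClosed (pcomp A : Fam (Loop p L) p) := pcomp_closed A hlie
  have h0 : pcomp (p := p) A 0 = ⊥ := pcomp_zero A hN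
  have hL := hcls (pcomp A) hM h0
  have claim : ∀ m : ℕ, ∀ y ∈ LL L m,
      p ^ (2 * m + 1) • Loop.iota (p := p) y ∈ Tm (pcomp A : Fam (Loop p L) p) m := by
    intro m
    induction m with
    | zero =>
      intro y _
      rw [mul_zero, zero_add, pow_one]
      exact smul_iota_mem A hper hN y
    | succ m ih =>
      intro y hy
      have hy' : y ∈ AddSubgroup.closure {z | ∃ x ∈ LL L m, ∃ y ∈ (⊤ : AddSubgroup L),
          ⁅x, y⁆ = z} := hy
      clear hy
      induction hy' using AddSubgroup.closure_induction with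
      | mem z hz =>
        obtain ⟨y', hy', x, -, rfl⟩ := hz
        have e0 : p ^ (2 * (m + 1) + 1) = p ^ (2 * m + 1) * (p * p) := by ring
        have e : p ^ (2 * (m + 1) + 1) • Loop.iota (p := p) ⁅y', x⁆ =
            ⁅p ^ (2 * m + 1) • Loop.iota (p := p) y', p • Loop.iota (p := p) x⁆ := by
          rw [nsmul_lie, lie_nsmul, Loop.iota_lie, e0, mul_nsmul', mul_nsmul']
        rw [e]
        exact lie_mem_Tm (ih y' hy') (smul_iota_mem A hper hN x)
      | zero =>
        rw [Loop.iota_zero, smul_zero]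
        exact zero_mem _
      | add a b _ _ iha ihb =>
        rw [Loop.iota_add, smul_add]
        exact add_mem iha ihb
      | neg a _ iha =>
        rw [Loop.iota_neg, smul_neg]
        exact neg_mem iha
  intro y hy
  have h1 := claim h y hy
  rw [Tm_eq_bot hL, AddSubgroup.mem_bot, ← Loop.iota_nsmul] at h1
  exact Loop.iota_eq_zero h1

end LoopSplit

section Group

variable {G : Type u} [Group G] (α : MulAut G)

theorem sec_sum_prod (w : ℕ) {g : G} (hg : g ∈ Gam G w) : ∀ k : ℕ,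
    ∃ hk : ((List.range k).map (fun j => (⇑α)^[j] g)).prod ∈ Gam G w,
      ∑ j ∈ Finset.range k, (⇑(secMap α w))^[j] (sec G w g hg) = sec G w _ hk
  | 0 => ⟨one_mem _, rfl⟩
  | k + 1 => by
    obtain ⟨hk, ih⟩ := sec_sum_prod w hg k
    have e : ((List.range (k + 1)).map (fun j => (⇑α)^[j] g)).prod =
        ((List.range k).map (fun j => (⇑α)^[j] g)).prod * (⇑α)^[k] g := by
      rw [List.range_succ, List.map_append, List.prod_append, List.map_singleton,
        List.prod_singleton]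
    have hk' : ((List.range (k + 1)).map (fun j => (⇑α)^[j] g)).prod ∈ Gam G w := by
      rw [e]
      exact mul_mem hk (Gam_map_iter α w k hg)
    refine ⟨hk', ?_⟩
    rw [Finset.sum_range_succ, ih, secMap_iter_sec]
    rw [← sec_mul hk (Gam_map_iter α w k hg) (mul_mem hk (Gam_map_iter α w k hg))]
    exact sec_congr e.symm _ _

theorem secMap_norm_split {p : ℕ}
    (hsplit : ∀ g : G, ((List.range p).map (fun j => (⇑α)^[j] g)).prod = 1) (w : ℕ)
    (a : Sec G w) : ∑ j ∈ Finset.range p, (⇑(secMap α w))^[j] a = 0 := by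
  obtain ⟨g, hg, rfl⟩ := sec_surj a
  obtain ⟨hk, e⟩ := sec_sum_prod α w hg p
  rw [e, sec_congr (hsplit g) hk (one_mem _)]
  rfl

theorem hatA_norm_split {p : ℕ}
    (hsplit : ∀ g : G, ((List.range p).map (fun j => (⇑α)^[j] g)).prod = 1)
    (x : LG G) : ∑ j ∈ Finset.range p, (⇑(hatA α))^[j] x = 0 := by
  refine DirectSum.induction_on x ?_ ?_ ?_
  · apply Finset.sum_eq_zero
    intro j _
    exact iterate_map_zero (hatA α) j
  · intro i a
    simp only [hatA_iter_of]
    rw [← map_sum, secMap_norm_split α hsplit, map_zero]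
  · intro x y hx hy
    simp only [iterate_map_add]
    rw [Finset.sum_add_distrib, hx, hy, add_zero]

/-- **Splitting automorphisms**: if `g · α(g) ⋯ α^(p-1)(g) = 1` for all `g`, then the section
`γ_{h+1}/γ_{h+2}` is killed by `p ^ (2h+1)`. -/
theorem split_sec_pow {p : ℕ} [Fact p.Prime] (hper : ∀ g : G, (⇑α)^[p] g = g)
    (hsplit : ∀ g : G, ((List.range p).map (fun j => (⇑α)^[j] g)).prod = 1) (h : ℕ)
    (hcls : ∀ M : Fam (Loop p (LG G)) p, FClosed M → M 0 = ⊥ → Lc M h = ⊥)
    (a : Sec G (h + 1)) : p ^ (2 * h + 1) • a = 0 := by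
  obtain ⟨u, hu, rfl⟩ := sec_surj a
  have h1 := mkL_mem_LL h u hu
  have h2 := loop_split (hatA α) (hatA_lie α) (hatA_per α hper) (hatA_norm_split α hsplit)
    h hcls _ h1
  have h3 : DirectSum.of (Sec G) (h + 1) (p ^ (2 * h + 1) • sec G (h + 1) u hu) =
      DirectSum.of (Sec G) (h + 1) 0 := by
    rw [map_nsmul, map_zero]
    exact h2
  exact DirectSum.of_injective (β := Sec G) (h + 1) h3

end Group

end Cfsg.Agent.Helper53.Alp
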