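-- helper53 library: p-groups with a splitting automorphism of order p and few fixed points
-- have bounded derived length (the core of Alperin's theorem, S3782); add-only.
import Mathlib
import Cfsg.Agent.Helper53.AlpLie
import Cfsg.Agent.Helper53.AlpCount

set_option autoImplicit false

namespace Cfsg.Agent.Helper53.Alp

open Cfsg.Agent.Helper53.HK
open Cfsg.Agent.Helper19 (resHom resHom_coe resHom_iterate_coe)
open scoped commutatorElement

universe u

section Aut

variable {G : Type u} [Group G]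

/-- An endomorphism of finite period as an automorphism. -/
def autOf (φ : G →* G) {p : ℕ} (hp : 0 < p) (hper : ∀ x, (⇑φ)^[p] x = x) : MulAut G :=
  { toFun := φ
    invFun := (⇑φ)^[p - 1]
    left_inv := fun x => by
      have e : (⇑φ)^[p - 1] (φ x) = (⇑φ)^[p - 1 + 1] x :=
        (Function.iterate_succ_apply (⇑φ) (p - 1) x).symm
      rw [e, Nat.sub_add_cancel hp]
      exact hper x
    right_inv := fun x => by
      have e : φ ((⇑φ)^[p - 1] x) = (⇑φ)^[p - 1 + 1] x :=
        (Function.iterate_succ_apply' (⇑φ) (p - 1) x).symm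
      rw [e, Nat.sub_add_cancel hp]
      exact hper x
    map_mul' := φ.map_mul }

theorem autOf_apply (φ : G →* G) {p : ℕ} (hp : 0 < p) (hper : ∀ x, (⇑φ)^[p] x = x) (x : G) :
    autOf φ hp hper x = φ x := rfl

theorem char_le_comap (φ : G →* G) {p : ℕ} (hp : 0 < p) (hper : ∀ x, (⇑φ)^[p] x = x)
    (K : Subgroup G) [hK : K.Characteristic] : K ≤ K.comap φ := by
  intro x hx
  have h := hK.fixed (autOf φ hp hper)
  rw [← h] at hx
  exact hx

theorem pgroup_card_lt {p : ℕ} [Fact p.Prime] [Finite G] (hG : IsPGroup p G) {A B : Subgroup G}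
    (hAB : A < B) : p * Nat.card A ≤ Nat.card B := by
  have hp : p.Prime := Fact.out
  obtain ⟨a, ha⟩ := IsPGroup.iff_card.1 (hG.to_subgroup A)
  obtain ⟨m, hm⟩ := IsPGroup.iff_card.1 (hG.to_subgroup B)
  have hdvd := Subgroup.card_dvd_of_le hAB.le
  rw [ha, hm] at hdvd ⊢
  have h1 : a ≤ m := (Nat.pow_dvd_pow_iff_le_right hp.one_lt).1 hdvd
  have h2 : a ≠ m := by
    intro h
    apply hAB.ne
    apply Subgroup.eq_of_le_of_card_ge hAB.le
    rw [ha, hm, h]
  rw [← pow_succ']
  exact Nat.pow_le_pow_right hp.pos (by omega)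

end Aut

/-- **Core of Alperin's theorem.**  A finite `p`-group `Q` with an endomorphism `φ` of period `p`
such that `g · φ(g) ⋯ φ^(p-1)(g) = 1` for all `g` (a splitting automorphism) and at most `p ^ n`
fixed points: with `b = n p (2h+1)`, the subgroup `γ_{b+1}(Q)` has class at most `h + 1`; in
particular the derived length of `Q` is at most `b + h + 1`. -/
theorem split_core {p : ℕ} [Fact p.Prime] {Q : Type u} [Group Q] [Finite Q] (hQ : IsPGroup p Q)
    (φ : Q →* Q) (hper : ∀ x, (⇑φ)^[p] x = x)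
    (hsplit : ∀ g : Q, ((List.range p).map (fun j => (⇑φ)^[j] g)).prod = 1)
    (n : ℕ) (hfix : Nat.card (Fx φ) ≤ p ^ n) (h : ℕ)
    (hcls : ∀ (H : Subgroup Q) (M : Fam (Loop p (LG ↥H)) p), FClosed M → M 0 = ⊥ →
      Lc M h = ⊥) :
    derivedSeries Q (n * (p * (2 * h + 1)) + (h + 1)) = ⊥ := by
  have hp : p.Prime := Fact.out
  set b := n * (p * (2 * h + 1)) with hb
  have hnil : Group.IsNilpotent Q := hQ.isNilpotent
  let H : Subgroup Q := (⊤ : Subgroup Q).lowerCentralSeries b
  have hHc : H.Characteristic :=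
    inferInstanceAs ((⊤ : Subgroup Q).lowerCentralSeries b).Characteristic
  have hH : H ≤ H.comap φ := char_le_comap φ hp.pos hper H
  let φH : ↥H →* ↥H := resHom φ H hH
  have hperH : ∀ x : ↥H, (⇑φH)^[p] x = x := by
    intro x
    apply Subtype.ext
    rw [resHom_iterate_coe]
    exact hper x
  have hsplitH : ∀ g : ↥H, ((List.range p).map (fun j => (⇑φH)^[j] g)).prod = 1 := by
    intro g
    apply Subtype.ext
    show H.subtype ((List.range p).map (fun j => (⇑φH)^[j] g)).prod = 1
    rw [map_list_prod, List.map_map]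
    have e : (⇑H.subtype ∘ fun j => (⇑φH)^[j] g) = fun j => (⇑φ)^[j] (g : Q) :=
      funext fun j => resHom_iterate_coe φ H hH j g
    rw [e]
    exact hsplit g
  let αH : MulAut ↥H := autOf φH hp.pos hperH
  have hsec : ∀ a : Sec ↥H (h + 1), p ^ (2 * h + 1) • a = 0 :=
    split_sec_pow αH hperH hsplitH h (hcls H)
  have hsecper : ∀ a : Sec ↥H (h + 1), (⇑(secMap αH (h + 1)))^[p] a = a :=
    fun a => secMap_per αH hperH (h + 1) a
  have hc1 := card_le_fix_pow (secMap αH (h + 1)) hp hsecper hsec
  have hc2 : Nat.card {a : Sec ↥H (h + 1) // secMap αH (h + 1) a = a} ≤ p ^ n := by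
    have e1 : Nat.card {a : Sec ↥H (h + 1) // secMap αH (h + 1) a = a} =
        Nat.card (Fx (secMapMul αH (h + 1))) :=
      Nat.card_congr
        { toFun := fun a => ⟨Additive.toMul a.1, a.2⟩
          invFun := fun x => ⟨Additive.ofMul x.1, x.2⟩
          left_inv := fun _ => rfl
          right_inv := fun _ => rfl }
    rw [e1]
    refine le_trans (card_fx_quot_le (resAut αH (h + 1)) (GamSub ↥H (h + 1)) _) ?_
    have hinj : Nat.card (Fx (resAut αH (h + 1))) ≤ Nat.card (Fx φ) :=
      Nat.card_le_card_of_injective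
        (fun x : Fx (resAut αH (h + 1)) => (⟨((x.1 : ↥(Gam ↥H (h + 1))) : ↥H), by
          have h1 := congrArg (fun y : ↥(Gam ↥H (h + 1)) => ((y : ↥H) : Q)) x.2
          exact h1⟩ : Fx φ))
        (fun x y hxy => Subtype.ext (Subtype.ext (Subtype.ext (by
          have h' := congrArg Subtype.val hxy
          exact h'))))
    exact hinj.trans hfix
  have hc3 : Nat.card (Sec ↥H (h + 1)) ≤ p ^ b := by
    refine hc1.trans ?_
    have e : p ^ b = (p ^ n) ^ (p * (2 * h + 1)) := by rw [hb, pow_mul]
    rw [e]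
    exact Nat.pow_le_pow_left hc2 _
  have hc4 : Nat.card ((⊤ : Subgroup ↥H).lowerCentralSeries h) ≤
      p ^ b * Nat.card ((⊤ : Subgroup ↥H).lowerCentralSeries (h + 1)) := by
    have e1 := Subgroup.card_eq_card_quotient_mul_card_subgroup (GamSub ↥H (h + 1))
    have e2 : Nat.card (GamSub ↥H (h + 1)) = Nat.card (Gam ↥H (h + 2)) :=
      Nat.card_congr (Subgroup.subgroupOfEquivOfLe (Gam_succ_le ↥H (h + 1))).toEquiv
    have e3 : Nat.card (↥(Gam ↥H (h + 1)) ⧸ GamSub ↥H (h + 1)) = Nat.card (Sec ↥H (h + 1)) :=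
      rfl
    show Nat.card (Gam ↥H (h + 1)) ≤ p ^ b * Nat.card (Gam ↥H (h + 2))
    rw [e1, e2, e3]
    exact Nat.mul_le_mul_right _ hc3
  let X : Subgroup Q := H.lowerCentralSeries h
  have hXc : X.Characteristic := Subgroup.lowerCentralSeries_characteristic (S := H) h
  have hXn : X.Normal := Subgroup.normal_of_characteristic X
  have hXY : H.lowerCentralSeries (h + 1) = ⁅X, H⁆ := rfl
  have hcX : Nat.card X = Nat.card ((⊤ : Subgroup ↥H).lowerCentralSeries h) := by
    show Nat.card (H.lowerCentralSeries h) = _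
    rw [← Subgroup.top_subtype_lowerCentralSeries H h]
    exact Subgroup.card_map_of_injective H.subtype_injective
  have hcY : Nat.card (⁅X, H⁆ : Subgroup Q) = Nat.card ((⊤ : Subgroup ↥H).lowerCentralSeries (h + 1)) := by
    rw [← hXY, ← Subgroup.top_subtype_lowerCentralSeries H (h + 1)]
    exact Subgroup.card_map_of_injective H.subtype_injective
  have hI : Nat.card X ≤ p ^ b * Nat.card (⁅X, H⁆ : Subgroup Q) := by
    rw [hcX, hcY]
    exact hc4
  have hle : ⁅X, H⁆ ≤ itc X (b + 1) := comm_lcs_le_itc b X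
  have chain : ∀ k : ℕ, itc X k = ⊥ ∨ p ^ k * Nat.card (itc X k) ≤ Nat.card X := by
    intro k
    induction k with
    | zero =>
      right
      rw [pow_zero, one_mul, itc_zero]
    | succ k ih =>
      by_cases h0 : itc X k = ⊥
      · left
        rw [itc_succ, h0, Subgroup.commutator_bot_left]
      · right
        have hlt : itc X (k + 1) < itc X k := by
          refine lt_of_le_of_ne (itc_succ_le X k) ?_
          intro he
          exact h0 (eq_bot_of_commutator_top_eq _ he)
        have h1 := pgroup_card_lt hQ hlt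
        rcases ih with ih | ih
        · exact absurd ih h0
        · calc p ^ (k + 1) * Nat.card (itc X (k + 1))
              = p ^ k * (p * Nat.card (itc X (k + 1))) := by ring
            _ ≤ p ^ k * Nat.card (itc X k) := Nat.mul_le_mul_left _ h1
            _ ≤ Nat.card X := ih
  have hbot : ⁅X, H⁆ = ⊥ := by
    rcases chain (b + 1) with h1 | h1
    · exact le_bot_iff.1 (h1 ▸ hle)
    · exfalso
      have h2 : Nat.card (⁅X, H⁆ : Subgroup Q) ≤ Nat.card (itc X (b + 1)) := Subgroup.card_le_of_le hle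
      have h3 : 0 < Nat.card (itc X (b + 1)) := Nat.card_pos
      have h4 : p ^ (b + 1) * Nat.card (itc X (b + 1)) ≤ p ^ b * Nat.card (itc X (b + 1)) :=
        h1.trans (hI.trans (Nat.mul_le_mul_left _ h2))
      have h5 : p ^ (b + 1) ≤ p ^ b := Nat.le_of_mul_le_mul_right h4 h3
      have h6 : p ^ b < p ^ (b + 1) := Nat.pow_lt_pow_right hp.one_lt (Nat.lt_succ_self b)
      omega
  have hH1 : (⊤ : Subgroup ↥H).lowerCentralSeries (h + 1) = ⊥ := by
    have h1 := Subgroup.top_subtype_lowerCentralSeries H (h + 1)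
    rw [hXY, hbot] at h1
    exact (Subgroup.map_eq_bot_iff_of_injective _ H.subtype_injective).1 h1
  have hH2 : derivedSeries ↥H (h + 1) = ⊥ :=
    le_bot_iff.1 (hH1 ▸ Subgroup.derived_le_lower_central (h + 1))
  have h7 := derivedSeries_add_le_map H b (Subgroup.derived_le_lower_central b) (h + 1)
  rw [hH2, Subgroup.map_bot] at h7
  exact le_bot_iff.1 h7

end Cfsg.Agent.Helper53.Alp
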