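-- helper53 library: Alperin's theorem for p-groups: a finite p-group with an endomorphism of
-- period p with at most p^n fixed points has (p,n)-bounded derived length (towards S3782);
-- add-only.
import Mathlib
import Cfsg.Agent.Helper53.AlpCore

set_option autoImplicit false

namespace Cfsg.Agent.Helper53.Alp

open Cfsg.Agent.Helper53.HK
open Cfsg.Agent.Helper19 (resHom resHom_coe resHom_iterate_coe)
open scoped commutatorElement

universe u

/-- The Higman–Kreknin–Kostrikin number. -/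
def xi (p : ℕ) : ℕ := ∑ i ∈ Finset.range (2 ^ (p - 1) - 1), (p - 1) ^ i

/-- The derived length bound of the splitting case. -/
def Dc (p n : ℕ) : ℕ := n * (p * (2 * xi p + 1)) + (xi p + 1)

/-- The derived length bound for `p`-groups with fewer than `p ^ n` fixed points. -/
def Fb (p : ℕ) : ℕ → ℕ
  | 0 => 0
  | n + 1 => Fb p n + 1 + Dc p n

theorem Fb_succ (p n : ℕ) : Fb p (n + 1) = Fb p n + 1 + Dc p n := rfl

section Quot

variable {G : Type u} [Group G]

theorem qmap_iterate (φ : G →* G) (N : Subgroup G) [N.Normal] (hN : N ≤ N.comap φ) (k : ℕ)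
    (x : G) : (⇑(QuotientGroup.map N N φ hN))^[k] (x : G ⧸ N) = (((⇑φ)^[k] x : G) : G ⧸ N) := by
  induction k generalizing x with
  | zero => rfl
  | succ k ih =>
    rw [Function.iterate_succ_apply, QuotientGroup.map_mk, ih]
    rfl

theorem qmap_per (φ : G →* G) (N : Subgroup G) [N.Normal] (hN : N ≤ N.comap φ) {p : ℕ}
    (hper : ∀ x, (⇑φ)^[p] x = x) (q : G ⧸ N) :
    (⇑(QuotientGroup.map N N φ hN))^[p] q = q := by
  induction q using QuotientGroup.induction_on with
  | H x => rw [qmap_iterate, hper]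

theorem prod_psi (φ : G →* G) (x : G) : ∀ k : ℕ,
    ((List.range k).map (fun j => (⇑φ)^[j] (x⁻¹ * φ x))).prod = x⁻¹ * (⇑φ)^[k] x
  | 0 => by simp
  | k + 1 => by
    have e : (⇑φ)^[k] (φ x) = (⇑φ)^[k + 1] x := rfl
    rw [List.range_succ, List.map_append, List.prod_append, List.map_singleton,
      List.prod_singleton, prod_psi φ x k, iterate_map_mul, iterate_map_inv, e]
    group

theorem res_per (φ : G →* G) (N : Subgroup G) (hN : N ≤ N.comap φ) {p : ℕ}
    (hper : ∀ x, (⇑φ)^[p] x = x) (x : ↥N) : (⇑(resHom φ N hN))^[p] x = x := by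
  apply Subtype.ext
  rw [resHom_iterate_coe]
  exact hper x

end Quot

/-- **Alperin's theorem for `p`-groups**, inductive form. -/
theorem pgroup_dl_aux {p : ℕ} [Fact p.Prime] (n : ℕ) : ∀ (P : Type u) [Group P] [Finite P],
    IsPGroup p P → ∀ φ : P →* P, (∀ x, (⇑φ)^[p] x = x) → Nat.card (Fx φ) < p ^ n →
    derivedSeries P (Fb p n) = ⊥ := by
  induction n with
  | zero =>
    intro P _ _ hP φ hper hfix
    exfalso
    have : 0 < Nat.card (Fx φ) := Nat.card_pos
    rw [pow_zero] at hfix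
    omega
  | succ n ih =>
    intro P _ _ hP φ hper hfix
    have hp : p.Prime := Fact.out
    obtain ⟨c, hc⟩ := IsPGroup.iff_card.1 (hP.to_subgroup (Fx φ))
    have hcn : c ≤ n := by
      rw [hc] at hfix
      have := (Nat.pow_lt_pow_iff_right hp.one_lt).1 hfix
      omega
    let 𝒩 : Set (Subgroup P) :=
      {N | N.Normal ∧ N ≤ N.comap φ ∧ ∀ y ∈ N, ∃ x, x⁻¹ * φ x = y}
    have hbot : (⊥ : Subgroup P) ∈ 𝒩 :=
      ⟨inferInstance, bot_le, fun y hy => ⟨1, by rw [Subgroup.mem_bot.1 hy]; simp⟩⟩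
    have hsup : ∀ N₁ ∈ 𝒩, ∀ N₂ ∈ 𝒩, N₁ ⊔ N₂ ∈ 𝒩 := by
      rintro N₁ ⟨hn₁, hi₁, he₁⟩ N₂ ⟨hn₂, hi₂, he₂⟩
      refine ⟨inferInstance, sup_le (hi₁.trans (Subgroup.comap_mono le_sup_left))
        (hi₂.trans (Subgroup.comap_mono le_sup_right)), ?_⟩
      intro y hy
      obtain ⟨y₁, hy₁, y₂, hy₂, rfl⟩ := Subgroup.mem_sup_of_normal_right.1 hy
      obtain ⟨x, hx⟩ := he₂ y₂ hy₂
      obtain ⟨u, hu⟩ := he₁ (x * y₁ * x⁻¹) (hn₁.conj_mem y₁ hy₁ x)
      refine ⟨u * x, ?_⟩
      have hu' : φ u = u * (x * y₁ * x⁻¹) := by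
        rw [← hu]
        group
      rw [← hx, map_mul, hu']
      group
    have : Nonempty {N : Subgroup P // N ∈ 𝒩} := ⟨⟨⊥, hbot⟩⟩
    obtain ⟨⟨N, hN⟩, hmax⟩ := Finite.exists_max
      (fun N : {N : Subgroup P // N ∈ 𝒩} => Nat.card (N : Subgroup P))
    have hNmax : ∀ N' ∈ 𝒩, N' ≤ N := by
      intro N' hN'
      have h1 := hmax ⟨N' ⊔ N, hsup N' hN' N hN⟩
      have h2 : N = N' ⊔ N := Subgroup.eq_of_le_of_card_ge le_sup_right h1
      rw [h2]
      exact le_sup_left
    obtain ⟨hNn, hNi, hNe⟩ := hN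
    let φN : ↥N →* ↥N := resHom φ N hNi
    have hperN : ∀ x : ↥N, (⇑φN)^[p] x = x := res_per φ N hNi hper
    have hsplitN : ∀ g : ↥N, ((List.range p).map (fun j => (⇑φN)^[j] g)).prod = 1 := by
      intro g
      apply Subtype.ext
      show N.subtype ((List.range p).map (fun j => (⇑φN)^[j] g)).prod = 1
      rw [map_list_prod, List.map_map]
      have e : (⇑N.subtype ∘ fun j => (⇑φN)^[j] g) = fun j => (⇑φ)^[j] (g : P) :=
        funext fun j => resHom_iterate_coe φ N hNi j g
      rw [e]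
      obtain ⟨x, hx⟩ := hNe g g.2
      rw [← hx, prod_psi, hper, inv_mul_cancel]
    have hfixN : Nat.card (Fx φN) ≤ p ^ n :=
      (card_fx_res_le φ N hNi).trans (by rw [hc]; exact Nat.pow_le_pow_right hp.pos hcn)
    have hcoreN : derivedSeries ↥N (Dc p n) = ⊥ :=
      split_core (hP.to_subgroup N) φN hperN hsplitN n hfixN (xi p)
        (fun H M hM h0 => kk_family M hM h0)
    have hfin : ∀ k, derivedSeries P k ≤ N → derivedSeries P (k + Dc p n) = ⊥ := by
      intro k hk
      have h7 := derivedSeries_add_le_map N k hk (Dc p n)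
      rw [hcoreN, Subgroup.map_bot] at h7
      exact le_bot_iff.1 h7
    by_cases hNtop : N = ⊤
    · have h8 := hfin 0 (by rw [hNtop]; exact le_top)
      apply le_bot_iff.1
      rw [← h8, Fb_succ]
      apply derivedSeries_antitone
      omega
    · let M : Subgroup P := (Subgroup.center (P ⧸ N)).comap (QuotientGroup.mk' N)
      have hMn : M.Normal := Subgroup.Normal.comap inferInstance _
      have hperq : ∀ q : P ⧸ N, (⇑(QuotientGroup.map N N φ hNi))^[p] q = q :=
        qmap_per φ N hNi hper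
      have hMi : M ≤ M.comap φ := by
        intro x hx
        have h1 : (x : P ⧸ N) ∈ Subgroup.center (P ⧸ N) := hx
        exact char_le_comap (QuotientGroup.map N N φ hNi) hp.pos hperq
          (Subgroup.center (P ⧸ N)) h1
      have hMM : ⁅M, M⁆ ≤ N := by
        rw [Subgroup.commutator_le]
        intro a ha b _
        have h1 : ∀ g : P ⧸ N, g * (a : P ⧸ N) = (a : P ⧸ N) * g :=
          Subgroup.mem_center_iff.1 ha
        have h2 : (QuotientGroup.mk' N) ⁅a, b⁆ = 1 := by
          rw [map_commutatorElement, commutatorElement_def]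
          have h3 : (b : P ⧸ N) * (a : P ⧸ N) = (a : P ⧸ N) * (b : P ⧸ N) := h1 (b : P ⧸ N)
          show (a : P ⧸ N) * (b : P ⧸ N) * (a : P ⧸ N)⁻¹ * (b : P ⧸ N)⁻¹ = 1
          rw [← h3]
          group
        exact (QuotientGroup.eq_one_iff _).1 h2
      obtain ⟨y₀, hy₀M, hy₀⟩ : ∃ y₀ ∈ M, ∀ x, x⁻¹ * φ x ≠ y₀ := by
        by_contra hcon
        push Not at hcon
        have hMN : M ≤ N := hNmax M ⟨hMn, hMi, hcon⟩
        obtain ⟨g₀, hg₀⟩ : ∃ g₀ : P, g₀ ∉ N := by
          by_contra hall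
          push Not at hall
          exact hNtop (eq_top_iff.2 fun x _ => hall x)
        have hnt : Nontrivial (P ⧸ N) :=
          ⟨⟨(g₀ : P ⧸ N), 1, fun h => hg₀ ((QuotientGroup.eq_one_iff g₀).1 h)⟩⟩
        have hcnt : Nontrivial (Subgroup.center (P ⧸ N)) :=
          (hP.to_quotient N).center_nontrivial
        obtain ⟨z, hz⟩ := exists_ne (1 : Subgroup.center (P ⧸ N))
        obtain ⟨g, hg⟩ := QuotientGroup.mk_surjective (z : P ⧸ N)
        have hgM : g ∈ M := by
          show (g : P ⧸ N) ∈ Subgroup.center (P ⧸ N)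
          rw [hg]
          exact z.2
        apply hz
        apply Subtype.ext
        rw [← hg]
        exact (QuotientGroup.eq_one_iff g).2 (hMN hgM)
      have hperM : ∀ q : P ⧸ M, (⇑(QuotientGroup.map M M φ hMi))^[p] q = q :=
        qmap_per φ M hMi hper
      have hlt := card_fx_quot_lt φ M hMi hy₀M hy₀
      obtain ⟨a, ha⟩ := IsPGroup.iff_card.1
        ((hP.to_quotient M).to_subgroup (Fx (QuotientGroup.map M M φ hMi)))
      have hfixM : Nat.card (Fx (QuotientGroup.map M M φ hMi)) < p ^ n := by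
        rw [ha, hc] at hlt
        have h1 := (Nat.pow_lt_pow_iff_right hp.one_lt).1 hlt
        rw [ha]
        exact Nat.pow_lt_pow_right hp.one_lt (by omega)
      have hIH := ih (P ⧸ M) (hP.to_quotient M) (QuotientGroup.map M M φ hMi) hperM hfixM
      have h9 : derivedSeries P (Fb p n) ≤ M := derivedSeries_le_of_quot M _ hIH
      have h10 : derivedSeries P (Fb p n + 1) ≤ N := by
        rw [derivedSeries_succ]
        exact (Subgroup.commutator_mono h9 h9).trans hMM
      rw [Fb_succ]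
      exact hfin (Fb p n + 1) h10

/-- **Alperin's theorem for `p`-groups**: a finite `p`-group with an endomorphism of period `p`
having at most `p ^ n` fixed points has derived length at most `Fb p (n + 1)`. -/
theorem pgroup_dl {p : ℕ} [Fact p.Prime] (n : ℕ) (P : Type u) [Group P] [Finite P]
    (hP : IsPGroup p P) (φ : P →* P) (hper : ∀ x, (⇑φ)^[p] x = x)
    (hfix : Nat.card (Fx φ) ≤ p ^ n) : derivedSeries P (Fb p (n + 1)) = ⊥ :=
  pgroup_dl_aux (n + 1) P hP φ hper
    (lt_of_le_of_lt hfix (Nat.pow_lt_pow_right (Fact.out : p.Prime).one_lt (Nat.lt_succ_self n)))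

end Cfsg.Agent.Helper53.Alp
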