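-- helper53 library: Alperin's theorem for finite solvable groups (reduction to p-groups);
-- add-only.
import Mathlib
import Cfsg.Agent.Helper53.AlpPGroup
import Cfsg.Agent.Helper1.PPrimeCore
import Cfsg.Agent.Helper22.Fitting
import Cfsg.Agent.Helper22.SolvableCore
import Cfsg.Agent.Helper70.FrattiniAut2

set_option autoImplicit false

namespace Cfsg.Agent.Helper53.Alp

open Cfsg.Agent.Helper53.HK
open Cfsg.Agent.Helper19 (resHom resHom_coe resHom_iterate_coe)
open scoped commutatorElement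

universe u

section General

variable {G : Type u} [Group G]

theorem index_le_of_fun (C : Subgroup G) {T : Type*} [Finite T] (F : G → T)
    (hF : ∀ g g' : G, F g = F g' → g⁻¹ * g' ∈ C) : C.index ≤ Nat.card T := by
  rw [Subgroup.index_eq_card]
  apply Nat.card_le_card_of_injective (fun q : G ⧸ C => F q.out)
  intro q q' h
  have h1 := hF _ _ h
  rw [← QuotientGroup.out_eq' q, ← QuotientGroup.out_eq' q']
  exact QuotientGroup.eq.2 h1

/-- A quotient which is abelian of exponent dividing `p ^ c`, with an induced endomorphism of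
period `p`. -/
theorem card_quot_le_fix_pow [Finite G] (φ : G →* G) (N : Subgroup G) [N.Normal]
    (hN : N ≤ N.comap φ) {p c : ℕ} (hp : p.Prime) (hper : ∀ x, (⇑φ)^[p] x = x)
    (hcomm : ∀ x y : G, ⁅x, y⁆ ∈ N) (hexp : ∀ x : G, x ^ (p ^ c) ∈ N) :
    Nat.card (G ⧸ N) ≤ (Nat.card (Fx φ)) ^ (p * c) := by
  let _ : CommGroup (G ⧸ N) :=
    { (inferInstance : Group (G ⧸ N)) with
      mul_comm := by
        intro a b
        induction a using QuotientGroup.induction_on with
        | H x =>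
          induction b using QuotientGroup.induction_on with
          | H y =>
            rw [← QuotientGroup.mk_mul, ← QuotientGroup.mk_mul, QuotientGroup.eq]
            have h1 : (x * y)⁻¹ * (y * x) = ⁅y⁻¹, x⁻¹⁆ := by
              rw [commutatorElement_def]
              group
            rw [h1]
            exact hcomm _ _ }
  let a : Additive (G ⧸ N) →+ Additive (G ⧸ N) :=
    MonoidHom.toAdditive (QuotientGroup.map N N φ hN)
  have hpera : ∀ x, (⇑a)^[p] x = x := fun x => qmap_per φ N hN hper (Additive.toMul x)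
  have hexpa : ∀ x : Additive (G ⧸ N), p ^ c • x = 0 := by
    intro x
    obtain ⟨g, hg⟩ := QuotientGroup.mk_surjective (Additive.toMul x)
    have h2 : ((g ^ (p ^ c) : G) : G ⧸ N) = 1 := (QuotientGroup.eq_one_iff _).2 (hexp g)
    have h3 : (Additive.toMul x) ^ (p ^ c) = 1 := by
      rw [← hg, ← QuotientGroup.mk_pow]
      exact h2
    exact congrArg Additive.ofMul h3
  have h1 := card_le_fix_pow a hp hpera hexpa
  have e1 : Nat.card {x : Additive (G ⧸ N) // a x = x} =
      Nat.card (Fx (QuotientGroup.map N N φ hN)) :=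
    Nat.card_congr
      { toFun := fun x => ⟨Additive.toMul x.1, x.2⟩
        invFun := fun x => ⟨Additive.ofMul x.1, x.2⟩
        left_inv := fun _ => rfl
        right_inv := fun _ => rfl }
  rw [e1] at h1
  exact h1.trans (Nat.pow_le_pow_left (card_fx_quot_le φ N hN) _)

/-- Fixed-point-free endomorphisms of prime period: Higman–Kreknin–Kostrikin. -/
theorem fpf_dl {p : ℕ} [Fact p.Prime] [Finite G] (φ : G →* G) (hper : ∀ x, (⇑φ)^[p] x = x)
    (hfpf : ∀ x, φ x = x → x = 1) : derivedSeries G (xi p) = ⊥ := by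
  have hp : p.Prime := Fact.out
  by_cases h1 : autOf φ hp.pos hper = 1
  · have hsub : ∀ x : G, x = 1 := fun x => hfpf x (by
      have h2 := congrArg (fun a : MulAut G => a x) h1
      exact h2)
    apply le_bot_iff.1
    intro x _
    rw [Subgroup.mem_bot]
    exact hsub x
  · have hα : orderOf (autOf φ hp.pos hper) = p := by
      apply orderOf_eq_prime _ h1
      ext x
      rw [← iter_eq_pow]
      exact hper x
    have h2 := hk_group (autOf φ hp.pos hper) hα hfpf (xi p)
      (fun M hM h0 => kk_family M hM h0)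
    apply le_bot_iff.1
    rw [← h2]
    exact Subgroup.derived_le_lower_central (xi p)

end General

section Frat

variable {P : Type u} [Group P]

theorem frat_map (σ : MulAut P) {y : P} (hy : y ∈ frattini P) : σ y ∈ frattini P := by
  have h := (frattini_characteristic (G := P)).fixed σ
  rw [← h] at hy
  exact hy

/-- The automorphisms acting trivially on the Frattini quotient. -/
def fratStab (P : Type u) [Group P] : Subgroup (MulAut P) where
  carrier := {σ | ∀ x, σ x * x⁻¹ ∈ frattini P}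
  mul_mem' := by
    intro σ τ hσ hτ x
    have e : (σ * τ) x * x⁻¹ = (σ (τ x) * (τ x)⁻¹) * (τ x * x⁻¹) := by
      rw [MulAut.mul_apply]
      group
    rw [e]
    exact mul_mem (hσ _) (hτ _)
  one_mem' := by
    intro x
    rw [MulAut.one_apply, mul_inv_cancel]
    exact one_mem _
  inv_mem' := by
    intro σ hσ x
    have h := hσ (σ⁻¹ x)
    rw [MulAut.apply_inv_self] at h
    have h2 := inv_mem h
    rwa [mul_inv_rev, inv_inv] at h2

theorem mem_fratStab {σ : MulAut P} : σ ∈ fratStab P ↔ ∀ x, σ x * x⁻¹ ∈ frattini P := Iff.rfl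

instance fratStab_normal : (fratStab P).Normal := by
  refine ⟨fun σ hσ τ => ?_⟩
  intro x
  have e : (τ * σ * τ⁻¹) x * x⁻¹ = τ (σ (τ⁻¹ x) * (τ⁻¹ x)⁻¹) := by
    rw [map_mul, map_inv, MulAut.apply_inv_self]
    rfl
  rw [e]
  exact frat_map τ (hσ _)

theorem fratStab_isPGroup [Finite P] {p : ℕ} [Fact p.Prime] (hP : IsPGroup p P) :
    IsPGroup p (fratStab P) := by
  have hp : p.Prime := Fact.out
  obtain ⟨n', hn'⟩ := IsPGroup.iff_card.1 hP
  obtain ⟨r, -, hr⟩ := (Nat.dvd_prime_pow hp).1 (hn' ▸ Subgroup.index_dvd_card (frattini P))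
  have h := Cfsg.Agent.Helper70.card_aut_trivial_on_frattini_quotient_dvd hn' hr (fratStab P)
    (fun σ hσ x => hσ x)
  obtain ⟨k, -, hk⟩ := (Nat.dvd_prime_pow hp).1 h
  exact IsPGroup.of_card hk

end Frat

section Stab

variable {G : Type u} [Group G] (Pb : Subgroup G) [Pb.Normal]

/-- The elements acting trivially on the Frattini quotient of the normal subgroup `Pb`. -/
def stabC : Subgroup G := (fratStab ↥Pb).comap (MulAut.conjNormal : G →* MulAut ↥Pb)

instance stabC_normal : (stabC Pb).Normal :=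
  Subgroup.Normal.comap inferInstance _

theorem stabC_isPGroup [Finite G] {p : ℕ} [Fact p.Prime] (hP : IsPGroup p Pb)
    (hcent : Subgroup.centralizer (Pb : Set G) ≤ Pb) : IsPGroup p (stabC Pb) := by
  apply (fratStab_isPGroup hP).comap_of_ker_isPGroup
  apply hP.to_le
  intro g hg
  apply hcent
  rw [Subgroup.mem_centralizer_iff]
  intro x hx
  have h1 : (MulAut.conjNormal g : MulAut ↥Pb) = 1 := hg
  have h2 := congrArg (fun a : MulAut ↥Pb => ((a ⟨x, hx⟩ : ↥Pb) : G)) h1
  have h3 : g * x * g⁻¹ = x := h2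
  calc x * g = g * x * g⁻¹ * g := by rw [h3]
    _ = g * x := by group

theorem stabC_index_le [Finite G] :
    (stabC Pb).index ≤ Nat.card (↥Pb ⧸ frattini ↥Pb) ^ Nat.card (↥Pb ⧸ frattini ↥Pb) := by
  have hfr : ∀ g : G, frattini ↥Pb ≤
      (frattini ↥Pb).comap (MulAut.conjNormal g : MulAut ↥Pb).toMonoidHom :=
    fun g x hx => frat_map _ hx
  rw [← Nat.card_fun]
  apply index_le_of_fun (stabC Pb)
    (fun g => (⇑(QuotientGroup.map (frattini ↥Pb) (frattini ↥Pb)
      (MulAut.conjNormal g : MulAut ↥Pb).toMonoidHom (hfr g)) :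
      ↥Pb ⧸ frattini ↥Pb → ↥Pb ⧸ frattini ↥Pb))
  intro g g' h
  show (MulAut.conjNormal (g⁻¹ * g') : MulAut ↥Pb) ∈ fratStab ↥Pb
  intro x
  have h1 := congrFun h (x : ↥Pb ⧸ frattini ↥Pb)
  have h2 : ((MulAut.conjNormal g : MulAut ↥Pb) x)⁻¹ * (MulAut.conjNormal g' : MulAut ↥Pb) x ∈
      frattini ↥Pb := QuotientGroup.eq.1 h1
  have e : (MulAut.conjNormal (g⁻¹ * g') : MulAut ↥Pb) x * x⁻¹ =
      (MulAut.conjNormal g : MulAut ↥Pb)⁻¹
        ((MulAut.conjNormal g' : MulAut ↥Pb) x * ((MulAut.conjNormal g : MulAut ↥Pb) x)⁻¹) := by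
    rw [map_mul, map_inv, map_mul, map_inv, MulAut.inv_apply_self, MulAut.mul_apply]
  rw [e]
  apply frat_map
  have h3 := (inferInstance : (frattini ↥Pb).Normal).conj_mem _ h2
    ((MulAut.conjNormal g : MulAut ↥Pb) x)
  have e2 : (MulAut.conjNormal g : MulAut ↥Pb) x *
      (((MulAut.conjNormal g : MulAut ↥Pb) x)⁻¹ * (MulAut.conjNormal g' : MulAut ↥Pb) x) *
      ((MulAut.conjNormal g : MulAut ↥Pb) x)⁻¹ =
      (MulAut.conjNormal g' : MulAut ↥Pb) x * ((MulAut.conjNormal g : MulAut ↥Pb) x)⁻¹ := by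
    group
  rw [e2] at h3
  exact h3

end Stab

/-- The case `O_{p'}(G) = 1`. -/
theorem alperin_quot {p : ℕ} [Fact p.Prime] (n : ℕ) (G : Type u) [Group G] [Finite G]
    [Group.IsSolvable G] (φ : G →* G) (hper : ∀ x, (⇑φ)^[p] x = x)
    (hfix : Nat.card (Fx φ) ≤ p ^ n) (hred : Cfsg.pPrimeCore p G = ⊥) :
    derivedSeries G ((p ^ (p * n)) ^ (p ^ (p * n)) + Fb p (n + 1)) = ⊥ := by
  have hp : p.Prime := Fact.out
  have hPn : (Cfsg.pCore p G).Normal := Cfsg.Agent.Helper1.pCore_normal p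
  have hPc : (Cfsg.pCore p G).Characteristic := Cfsg.Agent.Helper22.pCore_characteristic p G
  have hPp : IsPGroup p (Cfsg.pCore p G) := Cfsg.Agent.Helper1.pCore_isPGroup p
  have hPi : Cfsg.pCore p G ≤ (Cfsg.pCore p G).comap φ :=
    char_le_comap φ hp.pos hper (Cfsg.pCore p G)
  have hcent : Subgroup.centralizer (Cfsg.pCore p G : Set G) ≤ Cfsg.pCore p G :=
    Cfsg.Agent.Helper22.centralizer_pCore_le_of_isSolvable p hred
  have hperP : ∀ x : ↥(Cfsg.pCore p G), (⇑(resHom φ (Cfsg.pCore p G) hPi))^[p] x = x :=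
    res_per φ (Cfsg.pCore p G) hPi hper
  have hfixP : Nat.card (Fx (resHom φ (Cfsg.pCore p G) hPi)) ≤ p ^ n :=
    (card_fx_res_le φ (Cfsg.pCore p G) hPi).trans hfix
  have hPdl : derivedSeries ↥(Cfsg.pCore p G) (Fb p (n + 1)) = ⊥ :=
    pgroup_dl n ↥(Cfsg.pCore p G) hPp (resHom φ (Cfsg.pCore p G) hPi) hperP hfixP
  -- the Frattini quotient of `O_p(G)` is small
  have hV : Nat.card (↥(Cfsg.pCore p G) ⧸ frattini ↥(Cfsg.pCore p G)) ≤ p ^ (p * n) := by
    have hΦi : frattini ↥(Cfsg.pCore p G) ≤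
        (frattini ↥(Cfsg.pCore p G)).comap (resHom φ (Cfsg.pCore p G) hPi) :=
      char_le_comap (resHom φ (Cfsg.pCore p G) hPi) hp.pos hperP _
    have h1 := card_quot_le_fix_pow (resHom φ (Cfsg.pCore p G) hPi)
      (frattini ↥(Cfsg.pCore p G)) hΦi (c := 1) hp hperP
      (fun x y => (Cfsg.Agent.Helper70.frattini_pGroup_facts hPp).1 (by
        rw [commutator_eq_closure]
        exact Subgroup.subset_closure (commutator_mem_commutatorSet x y)))
      (fun x => by
        rw [pow_one]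
        exact (Cfsg.Agent.Helper70.frattini_pGroup_facts hPp).2 x)
    refine h1.trans ?_
    rw [mul_one]
    calc (Nat.card (Fx (resHom φ (Cfsg.pCore p G) hPi))) ^ p ≤ (p ^ n) ^ p :=
          Nat.pow_le_pow_left hfixP p
      _ = p ^ (p * n) := by rw [← pow_mul, mul_comm]
  -- the stabiliser of the Frattini quotient
  have hCp : IsPGroup p (stabC (Cfsg.pCore p G)) := stabC_isPGroup (Cfsg.pCore p G) hPp hcent
  have hCP : stabC (Cfsg.pCore p G) ≤ Cfsg.pCore p G :=
    Cfsg.Agent.Helper1.le_pCore (stabC_normal (Cfsg.pCore p G)) hCp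
  have hidx : (stabC (Cfsg.pCore p G)).index ≤ (p ^ (p * n)) ^ (p ^ (p * n)) := by
    refine (stabC_index_le (Cfsg.pCore p G)).trans ?_
    have hpos : 0 < Nat.card (↥(Cfsg.pCore p G) ⧸ frattini ↥(Cfsg.pCore p G)) := Nat.card_pos
    calc Nat.card (↥(Cfsg.pCore p G) ⧸ frattini ↥(Cfsg.pCore p G)) ^
          Nat.card (↥(Cfsg.pCore p G) ⧸ frattini ↥(Cfsg.pCore p G))
        ≤ (p ^ (p * n)) ^ Nat.card (↥(Cfsg.pCore p G) ⧸ frattini ↥(Cfsg.pCore p G)) :=
          Nat.pow_le_pow_left hV _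
      _ ≤ (p ^ (p * n)) ^ (p ^ (p * n)) :=
          Nat.pow_le_pow_right (pow_pos hp.pos _) hV
  have h1 : derivedSeries (G ⧸ stabC (Cfsg.pCore p G)) ((p ^ (p * n)) ^ (p ^ (p * n))) = ⊥ :=
    derivedSeries_eq_bot_of_card_le _ (by
      rw [← Subgroup.index_eq_card]
      exact hidx)
  have h2 : derivedSeries G ((p ^ (p * n)) ^ (p ^ (p * n))) ≤ Cfsg.pCore p G :=
    (derivedSeries_le_of_quot (stabC (Cfsg.pCore p G)) _ h1).trans hCP
  have h3 := derivedSeries_add_le_map (Cfsg.pCore p G) _ h2 (Fb p (n + 1))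
  rw [hPdl, Subgroup.map_bot] at h3
  exact le_bot_iff.1 h3

/-- **Alperin's theorem**: a finite solvable group with an endomorphism of prime period `p`
having exactly `p ^ n` fixed points has `(p, n)`-bounded derived length. -/
theorem alperin_solvable {p : ℕ} [Fact p.Prime] (n : ℕ) (G : Type u) [Group G] [Finite G]
    [Group.IsSolvable G] (φ : G →* G) (hper : ∀ x, (⇑φ)^[p] x = x)
    (hfix : Nat.card (Fx φ) = p ^ n) :
    derivedSeries G ((p ^ (p * n)) ^ (p ^ (p * n)) + Fb p (n + 1) + xi p) = ⊥ := by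
  have hp : p.Prime := Fact.out
  -- the p'-core
  have hKn : (Cfsg.pPrimeCore p G).Normal := Cfsg.Agent.Helper1.pPrimeCore_normal p
  have hKc : (Cfsg.pPrimeCore p G).Characteristic :=
    Cfsg.Agent.Helper22.pPrimeCore_characteristic p G
  have hKi : Cfsg.pPrimeCore p G ≤ (Cfsg.pPrimeCore p G).comap φ :=
    char_le_comap φ hp.pos hper (Cfsg.pPrimeCore p G)
  have hKcop : (Nat.card (Cfsg.pPrimeCore p G)).Coprime p :=
    Cfsg.Agent.Helper1.pPrimeCore_coprime p
  have hKdl : derivedSeries ↥(Cfsg.pPrimeCore p G) (xi p) = ⊥ := by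
    apply fpf_dl (resHom φ (Cfsg.pPrimeCore p G) hKi) (res_per φ (Cfsg.pPrimeCore p G) hKi hper)
    intro x hx
    have h1 : orderOf (x : G) ∣ Nat.card (Cfsg.pPrimeCore p G) := by
      rw [Subgroup.orderOf_coe]
      exact orderOf_dvd_natCard x
    have hxF : (x : G) ∈ Fx φ := congrArg Subtype.val hx
    have h2 : orderOf (x : G) ∣ p ^ n := by
      rw [← hfix]
      have h3 := orderOf_dvd_natCard (⟨(x : G), hxF⟩ : Fx φ)
      rwa [← Subgroup.orderOf_coe] at h3
    have h4 : (orderOf (x : G)).Coprime (p ^ n) :=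
      Nat.Coprime.coprime_dvd_left h1 (Nat.Coprime.pow_right n hKcop)
    have h5 : orderOf (x : G) = 1 := Nat.Coprime.eq_one_of_dvd h4 h2
    apply Subtype.ext
    exact orderOf_eq_one_iff.1 h5
  -- the quotient
  have hperq : ∀ q : G ⧸ Cfsg.pPrimeCore p G,
      (⇑(QuotientGroup.map (Cfsg.pPrimeCore p G) (Cfsg.pPrimeCore p G) φ hKi))^[p] q = q :=
    qmap_per φ (Cfsg.pPrimeCore p G) hKi hper
  have hfixq : Nat.card (Fx (QuotientGroup.map (Cfsg.pPrimeCore p G) (Cfsg.pPrimeCore p G)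
      φ hKi)) ≤ p ^ n := (card_fx_quot_le φ (Cfsg.pPrimeCore p G) hKi).trans hfix.le
  have hred : Cfsg.pPrimeCore p (G ⧸ Cfsg.pPrimeCore p G) = ⊥ :=
    Cfsg.Agent.Helper1.pPrimeCore_quotient_eq_bot p
  have hq := alperin_quot n (G ⧸ Cfsg.pPrimeCore p G)
    (QuotientGroup.map (Cfsg.pPrimeCore p G) (Cfsg.pPrimeCore p G) φ hKi) hperq hfixq hred
  have h4 : derivedSeries G ((p ^ (p * n)) ^ (p ^ (p * n)) + Fb p (n + 1)) ≤
      Cfsg.pPrimeCore p G := derivedSeries_le_of_quot (Cfsg.pPrimeCore p G) _ hq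
  have h5 := derivedSeries_add_le_map (Cfsg.pPrimeCore p G) _ h4 (xi p)
  rw [hKdl, Subgroup.map_bot] at h5
  exact le_bot_iff.1 h5

end Cfsg.Agent.Helper53.Alp
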