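import Mathlib

/-!
# CALL S0996, PIECE QS (helper53): Sylow `p`-subgroups of `G ⧸ K` for a normal `p'`-subgroup `K`
when `p ∥ |G|`.
-/

set_option autoImplicit false

namespace Cfsg.Agent.Helper53

open Cfsg

universe u

/-- PIECE QS -/
theorem brn_quot_sylow {G : Type u} [Group G] [Finite G] {p : ℕ} [Fact p.Prime] (P : Sylow p G)
    (hP : Nat.card (P : Subgroup G) = p) (K : Subgroup G) [K.Normal]
    (hK : (Nat.card K).Coprime p) :
    ∃ Q : Sylow p (G ⧸ K), Nat.card (Q : Subgroup (G ⧸ K)) = p ∧
      Nat.card (Sylow p (G ⧸ K)) ∣ Nat.card (Sylow p G) := by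
  have hpp : p.Prime := Fact.out
  have hsurj : Function.Surjective (QuotientGroup.mk' K) := QuotientGroup.mk'_surjective K
  have hQcoe : ((P.mapSurjective hsurj : Sylow p (G ⧸ K)) : Subgroup (G ⧸ K)) =
      (P : Subgroup G).map (QuotientGroup.mk' K) := Sylow.coe_mapSurjective hsurj P
  refine ⟨P.mapSurjective hsurj, ?_, ?_⟩
  · have h1 := (P.mapSurjective hsurj).card_eq_multiplicity
    have h2 := P.card_eq_multiplicity
    rw [hP] at h2
    have hf1 : (Nat.card G).factorization p = 1 := by
      have h3 : p ^ 1 = p ^ (Nat.card G).factorization p := by rw [pow_one]; exact h2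
      exact (Nat.pow_right_injective hpp.two_le h3).symm
    have hmul : Nat.card G = Nat.card (G ⧸ K) * Nat.card K :=
      Subgroup.card_eq_card_quotient_mul_card_subgroup K
    have hfK : (Nat.card K).factorization p = 0 := by
      apply Nat.factorization_eq_zero_of_not_dvd
      intro hd
      exact hpp.one_lt.ne' (Nat.Coprime.eq_one_of_dvd hK.symm hd)
    have hfQ : (Nat.card (G ⧸ K)).factorization p = 1 := by
      have h : (Nat.card G).factorization p =
          (Nat.card (G ⧸ K) * Nat.card K).factorization p := by rw [← hmul]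
      rw [Nat.factorization_mul Nat.card_pos.ne' Nat.card_pos.ne', Finsupp.add_apply, hfK,
        add_zero, hf1] at h
      exact h.symm
    rw [h1, hfQ, pow_one]
  · have e1 : Nat.card (Sylow p (G ⧸ K)) =
        (Subgroup.normalizer (((P.mapSurjective hsurj : Sylow p (G ⧸ K)) : Subgroup (G ⧸ K)) :
          Set (G ⧸ K))).index := Sylow.card_eq_index_normalizer _
    have e2 : Nat.card (Sylow p G) =
        (Subgroup.normalizer ((P : Subgroup G) : Set G)).index :=
      Sylow.card_eq_index_normalizer P
    rw [e1, e2, hQcoe]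
    have hle : Subgroup.normalizer ((P : Subgroup G) : Set G) ≤
        (Subgroup.normalizer (((P : Subgroup G).map (QuotientGroup.mk' K) : Subgroup (G ⧸ K)) :
          Set (G ⧸ K))).comap (QuotientGroup.mk' K) := by
      rw [← Subgroup.map_le_iff_le_comap]
      exact Subgroup.le_normalizer_map _
    rw [← Subgroup.index_comap_of_surjective _ hsurj]
    exact Subgroup.index_dvd_of_le hle

end Cfsg.Agent.Helper53
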