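import Mathlib

/-!
# A subgroup embedded in the roots of unity of a field (PIECE C of CALL S2371)
-/

set_option autoImplicit false

namespace Cfsg.Agent.Helper53

theorem cyclic_selfcentralizing_of_hom {G M : Type*} [Group G] [Field M] (C : Subgroup G)
    (f : C →* Mˣ) (hf : Function.Injective f) (n : ℕ) (hn : 0 < n) (hfn : ∀ c : C, f c ^ n = 1)
    (s : C) (hs : orderOf (f s) = n)
    (hcent : ∀ g : G, g * (s : G) = (s : G) * g → g ∈ C) :
    IsCyclic C ∧ Nat.card C = n ∧ Subgroup.centralizer (C : Set G) = C := by
  have hne : NeZero n := ⟨hn.ne'⟩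
  have hmem : ∀ c : C, f c ∈ rootsOfUnity n M := fun c => (mem_rootsOfUnity n (f c)).mpr (hfn c)
  let f' : C → rootsOfUnity n M := fun c => ⟨f c, hmem c⟩
  have hf' : Function.Injective f' := fun a b hab => hf (congrArg Subtype.val hab)
  have hfinR : Finite (rootsOfUnity n M) := inferInstance
  have hcard_le : Nat.card C ≤ n :=
    (Nat.card_le_card_of_injective f' hf').trans (card_rootsOfUnity M n)
  have hfin : Finite C := Finite.of_injective f' hf'
  have hos : orderOf s = n := by rw [← hs]; exact (orderOf_injective f hf s).symm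
  have hcard : Nat.card C = n := by
    apply le_antisymm hcard_le
    rw [← hos]
    exact Nat.le_of_dvd Nat.card_pos (orderOf_dvd_natCard s)
  have hcyc : IsCyclic C := isCyclic_of_orderOf_eq_card s (by rw [hos, hcard])
  refine ⟨hcyc, hcard, ?_⟩
  have hcomm : ∀ a b : C, a * b = b * a := by
    intro a b
    apply hf
    rw [map_mul, map_mul, mul_comm]
  apply le_antisymm
  · intro g hg
    rw [Subgroup.mem_centralizer_iff] at hg
    exact hcent g (hg s s.2).symm
  · intro c hc
    rw [Subgroup.mem_centralizer_iff]
    intro h hh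
    have := hcomm ⟨h, hh⟩ ⟨c, hc⟩
    exact congrArg Subtype.val this

end Cfsg.Agent.Helper53
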