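import Cfsg.Agent.Helper59.Deg11A

/-!
# Degree 11: three-point stabilizers of order 8 and 16 (PIECES E and S of CALL S0679)
-/

set_option autoImplicit false

namespace Cfsg.Agent.Helper53

open MulAction Cfsg.Agent.Helper59

variable {G α : Type*} [Group G] [Finite G] [MulAction G α] [Fintype α] [DecidableEq α]

omit [Finite G] in
/-- A nonidentity 2-element fixing four points has an involution power fixing them, with 5 or 7
fixed points. -/
theorem d11_invol_pow (D : D11 G α) {a b c e : α} (hab : a ≠ b) (hac : a ≠ c) (hbc : b ≠ c)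
    (hea : e ≠ a) (heb : e ≠ b) (hec : e ≠ c) {g : G} {k : ℕ} (hg : g ^ 2 ^ k = 1) (hg1 : g ≠ 1)
    (ha : g • a = a) (hb : g • b = b) (hc : g • c = c) (he : g • e = e) :
    ∃ u : G, orderOf u = 2 ∧ u • a = a ∧ u • b = b ∧ u • c = c ∧ u • e = e ∧
      (fx α u = 5 ∨ fx α u = 7) ∧ fx α g ≤ fx α u := by
  obtain ⟨n, hn⟩ := exists_pow_orderOf_eq_prime Nat.prime_two hg hg1
  have hfix : ∀ x : α, g • x = x → g ^ n • x = x := fun x hx =>
    mem_fxs.mp (fxs_subset_pow g n (mem_fxs.mpr hx))
  have h4 : 4 ≤ fx α (g ^ n) := four_le_fx hab hac hea.symm hbc heb.symm hec.symm (hfix a ha)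
    (hfix b hb) (hfix c hc) (hfix e he)
  refine ⟨g ^ n, hn, hfix a ha, hfix b hb, hfix c hc, hfix e he, ?_, fx_le_pow g n⟩
  rcases D.o2 _ hn with h | h | h | h
  · omega
  · omega
  · exact Or.inl h
  · exact Or.inr h

omit [Finite G] in
/-- The involutions with `f` fixed points in a three-point stabilizer, together with `1`, fit
in the stabilizer. -/
theorem d11_inv_card_lt [Fintype G] (a b c : α) (f : ℕ) :
    (Finset.univ.filter (fun y : G => orderOf y = 2 ∧ fx α y = f ∧
        y • a = a ∧ y • b = b ∧ y • c = c)).card + 1 ≤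
      Nat.card (stabilizer G a ⊓ stabilizer G b ⊓ stabilizer G c : Subgroup G) := by
  classical
  have hcard : Nat.card (stabilizer G a ⊓ stabilizer G b ⊓ stabilizer G c : Subgroup G)
      = (Finset.univ.filter (fun g : G =>
          g ∈ (stabilizer G a ⊓ stabilizer G b ⊓ stabilizer G c : Subgroup G))).card := by
    rw [Nat.card_eq_fintype_card, Fintype.card_subtype]
  rw [hcard, ← Finset.card_insert_of_notMem (a := (1 : G)) (by simp)]
  apply Finset.card_le_card
  intro y hy
  rw [Finset.mem_insert, Finset.mem_filter] at hy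
  rw [Finset.mem_filter]
  refine ⟨Finset.mem_univ _, ?_⟩
  rcases hy with rfl | ⟨-, -, -, h1, h2, h3⟩
  · exact Subgroup.one_mem _
  · exact ⟨⟨h1, h2⟩, h3⟩

/-- PIECE E: a three-point stabilizer of order 8 is semiregular off its fixed points. -/
theorem d11_stab_eight (D : D11 G α) (h3 : Tr3 G α) {a b c : α} (hab : a ≠ b) (hac : a ≠ c)
    (hbc : b ≠ c)
    (hK : Nat.card (stabilizer G a ⊓ stabilizer G b ⊓ stabilizer G c : Subgroup G) = 8)
    {g : G} (ha : g • a = a) (hb : g • b = b) (hc : g • c = c) {e : α} (hea : e ≠ a)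
    (heb : e ≠ b) (hec : e ≠ c) (he : g • e = e) : g = 1 := by
  classical
  have : Fintype G := Fintype.ofFinite G
  by_contra hg1
  have hgK : g ∈ (stabilizer G a ⊓ stabilizer G b ⊓ stabilizer G c : Subgroup G) :=
    ⟨⟨ha, hb⟩, hc⟩
  have hg8 : g ^ 2 ^ 3 = 1 := by
    have h := pow_card_eq_one'
      (G := (stabilizer G a ⊓ stabilizer G b ⊓ stabilizer G c : Subgroup G)) (x := ⟨g, hgK⟩)
    rw [hK] at h
    have := congrArg Subtype.val h
    simpa using this
  obtain ⟨u, hu2, hua, hub, huc, hue, hfu, -⟩ :=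
    d11_invol_pow D hab hac hbc hea heb hec hg8 hg1 ha hb hc he
  obtain ⟨h10, h35⟩ := D.inv_count3 h3 hab hac hbc
  have b5 := d11_inv_card_lt (G := G) a b c 5
  have b7 := d11_inv_card_lt (G := G) a b c 7
  rw [hK] at b5 b7
  rcases hfu with h | h
  · have hmem : u ∈ Finset.univ.filter (fun y : G => orderOf y = 2 ∧ fx α y = 5 ∧
        y • a = a ∧ y • b = b ∧ y • c = c) := by
      rw [Finset.mem_filter]; exact ⟨Finset.mem_univ _, hu2, h, hua, hub, huc⟩
    have hpos := Finset.card_pos.mpr ⟨u, hmem⟩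
    omega
  · have hmem : u ∈ Finset.univ.filter (fun y : G => orderOf y = 2 ∧ fx α y = 7 ∧
        y • a = a ∧ y • b = b ∧ y • c = c) := by
      rw [Finset.mem_filter]; exact ⟨Finset.mem_univ _, hu2, h, hua, hub, huc⟩
    have hpos := Finset.card_pos.mpr ⟨u, hmem⟩
    omega

/-- PIECE S: a three-point stabilizer of order 16 is impossible. -/
theorem d11_stab_sixteen (D : D11 G α) (h3 : Tr3 G α) {a b c : α} (hab : a ≠ b) (hac : a ≠ c)
    (hbc : b ≠ c)
    (hK : Nat.card (stabilizer G a ⊓ stabilizer G b ⊓ stabilizer G c : Subgroup G) = 16) :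
    False := by
  classical
  have : Fintype G := Fintype.ofFinite G
  obtain ⟨h10, h35⟩ := D.inv_count3 h3 hab hac hbc
  have b5 := d11_inv_card_lt (G := G) a b c 5
  have b7 := d11_inv_card_lt (G := G) a b c 7
  rw [hK] at b5 b7
  obtain ⟨K, hKdef⟩ : ∃ K : Subgroup G,
      K = stabilizer G a ⊓ stabilizer G b ⊓ stabilizer G c := ⟨_, rfl⟩
  rw [← hKdef] at hK
  have hKa : ∀ g ∈ K, g • a = a := fun g hg => by rw [hKdef] at hg; exact hg.1.1
  have hKb : ∀ g ∈ K, g • b = b := fun g hg => by rw [hKdef] at hg; exact hg.1.2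
  have hKc : ∀ g ∈ K, g • c = c := fun g hg => by rw [hKdef] at hg; exact hg.2
  have hpow : ∀ g ∈ K, g ^ 2 ^ 4 = 1 := by
    intro g hg
    have h := pow_card_eq_one' (G := K) (x := ⟨g, hg⟩)
    rw [hK] at h
    have := congrArg Subtype.val h
    simpa using this
  obtain ⟨I5, hI5⟩ : ∃ I5 : Finset G, I5 = Finset.univ.filter (fun y : G => orderOf y = 2 ∧
      fx α y = 5 ∧ y • a = a ∧ y • b = b ∧ y • c = c) := ⟨_, rfl⟩
  obtain ⟨I7, hI7⟩ : ∃ I7 : Finset G, I7 = Finset.univ.filter (fun y : G => orderOf y = 2 ∧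
      fx α y = 7 ∧ y • a = a ∧ y • b = b ∧ y • c = c) := ⟨_, rfl⟩
  rw [← hI5] at h10 b5
  rw [← hI7] at h35 b7
  have hI7e : I7.card = 0 := by omega
  obtain ⟨Y, hY⟩ : ∃ Y : Finset α, Y = ((Finset.univ.erase a).erase b).erase c := ⟨_, rfl⟩
  have hYmem : ∀ x, x ∈ Y ↔ x ≠ a ∧ x ≠ b ∧ x ≠ c := by
    intro x
    rw [hY, Finset.mem_erase, Finset.mem_erase, Finset.mem_erase]
    simp only [Finset.mem_univ, and_true]
    tauto
  have hYcard : Y.card = 8 := by
    rw [hY, Finset.card_erase_of_mem (Finset.mem_erase.mpr ⟨hbc.symm,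
        Finset.mem_erase.mpr ⟨hac.symm, Finset.mem_univ c⟩⟩),
      Finset.card_erase_of_mem (Finset.mem_erase.mpr ⟨hab.symm, Finset.mem_univ b⟩),
      Finset.card_erase_of_mem (Finset.mem_univ a), Finset.card_univ, D.card]
  -- (i)
  have key : ∀ g ∈ K, g ≠ 1 → ∀ e ∈ Y, g • e = e → fx α g = 5 ∧ ∃ u ∈ I5, u • e = e := by
    intro g hg hg1 e he hge
    obtain ⟨hea, heb, hec⟩ := (hYmem e).mp he
    obtain ⟨u, hu2, hua, hub, huc, hue, hfu, hle⟩ := d11_invol_pow D hab hac hbc hea heb hec
      (hpow g hg) hg1 (hKa g hg) (hKb g hg) (hKc g hg) hge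
    have hu5 : fx α u = 5 := by
      rcases hfu with h | h
      · exact h
      · exfalso
        have hmem : u ∈ I7 := by
          rw [hI7, Finset.mem_filter]; exact ⟨Finset.mem_univ _, hu2, h, hua, hub, huc⟩
        have hpos := Finset.card_pos.mpr ⟨u, hmem⟩
        omega
    have h4 : 4 ≤ fx α g := four_le_fx hab hac hea.symm hbc heb.symm hec.symm (hKa g hg)
      (hKb g hg) (hKc g hg) hge
    have hodd := D.fx_odd (hpow g hg)
    refine ⟨by omega, u, ?_, hue⟩
    rw [hI5, Finset.mem_filter]; exact ⟨Finset.mem_univ _, hu2, hu5, hua, hub, huc⟩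
  -- (ii)
  have hKe : ∀ e ∈ Y, Nat.card (K ⊓ stabilizer G e : Subgroup G) ≤ 2 := by
    intro e he
    have h6 : Nat.card (K ⊓ stabilizer G e : Subgroup G) ∣ Fintype.card α - 5 := by
      apply card_dvd_of_fx_const (K ⊓ stabilizer G e) 5
      · intro q hq hq1
        exact (key q hq.1 hq1 e he hq.2).1
      · rw [D.card]; norm_num
    rw [D.card] at h6
    have h16 : Nat.card (K ⊓ stabilizer G e : Subgroup G) ∣ 16 := by
      rw [← hK]; exact Subgroup.card_dvd_of_le inf_le_left
    have h2 : Nat.card (K ⊓ stabilizer G e : Subgroup G) ∣ 2 := by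
      have hg : Nat.gcd (11 - 5) 16 = 2 := by norm_num
      rw [← hg]
      exact Nat.dvd_gcd h6 h16
    exact Nat.le_of_dvd (by norm_num) h2
  -- (iii)
  have hI5pos : 0 < I5.card := by
    obtain ⟨e, he⟩ : Y.Nonempty := by
      rw [← Finset.card_pos, hYcard]; norm_num
    have horb := card_orbit_subgroup K e
    rw [hK] at horb
    have hsub : orbit K e ⊆ (Y : Set α) := by
      rintro x ⟨t, rfl⟩
      obtain ⟨hea, heb, hec⟩ := (hYmem e).mp he
      rw [Finset.mem_coe, hYmem]
      refine ⟨?_, ?_, ?_⟩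
      · intro h
        apply hea
        have h' : (t : G) • e = (t : G) • a := by rw [hKa t t.2]; exact h
        exact MulAction.injective _ h'
      · intro h
        apply heb
        have h' : (t : G) • e = (t : G) • b := by rw [hKb t t.2]; exact h
        exact MulAction.injective _ h'
      · intro h
        apply hec
        have h' : (t : G) • e = (t : G) • c := by rw [hKc t t.2]; exact h
        exact MulAction.injective _ h'
    have hle : Nat.card (orbit K e) ≤ 8 := by
      rw [Nat.card_coe_set_eq, ← hYcard, ← Set.ncard_coe_finset Y]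
      exact Set.ncard_le_ncard hsub (Finset.finite_toSet Y)
    have hge2 : 2 ≤ Nat.card (K ⊓ stabilizer G e : Subgroup G) := by
      by_contra hlt
      push Not at hlt
      have : Nat.card (orbit K e) * Nat.card (K ⊓ stabilizer G e : Subgroup G) ≤ 8 * 1 :=
        Nat.mul_le_mul hle (by omega)
      omega
    have hnt : ¬ ∀ x ∈ (K ⊓ stabilizer G e : Subgroup G), x = 1 := by
      intro h
      rw [← Subgroup.eq_bot_iff_forall] at h
      rw [h, Subgroup.card_bot] at hge2
      omega
    push Not at hnt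
    obtain ⟨g, hg, hg1⟩ := hnt
    obtain ⟨-, u, hu, -⟩ := key g hg.1 hg1 e he hg.2
    exact Finset.card_pos.mpr ⟨u, hu⟩
  -- (iv) double count
  have h10' : 10 ≤ I5.card := by omega
  have hdc := Finset.sum_card_bipartiteAbove_eq_sum_card_bipartiteBelow (s := I5) (t := Y)
    (r := fun (g : G) (o : α) => g • o = o)
  have hL : ∀ y ∈ I5, 1 ≤ (Y.bipartiteAbove (fun (g : G) (o : α) => g • o = o) y).card := by
    intro y hy
    rw [hI5, Finset.mem_filter] at hy
    obtain ⟨-, hy2, hy5, hya, hyb, hyc⟩ := hy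
    have hlt : ({a, b, c} : Finset α).card < (fxs α y).card := by
      have h3c : ({a, b, c} : Finset α).card = 3 :=
        Finset.card_eq_three.mpr ⟨a, b, c, hab, hac, hbc, rfl⟩
      rw [h3c]; unfold fx at hy5; omega
    obtain ⟨e, he, hne⟩ := Finset.exists_mem_notMem_of_card_lt_card hlt
    rw [Finset.one_le_card]
    refine ⟨e, ?_⟩
    rw [Finset.mem_bipartiteAbove, hYmem]
    simp only [Finset.mem_insert, Finset.mem_singleton, not_or] at hne
    exact ⟨hne, mem_fxs.mp he⟩
  have hR : ∀ e ∈ Y, (I5.bipartiteBelow (fun (g : G) (o : α) => g • o = o) e).card ≤ 1 := by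
    intro e he
    have h2 := hKe e he
    have hcardeq : Nat.card (K ⊓ stabilizer G e : Subgroup G)
        = (Finset.univ.filter (fun g : G => g ∈ (K ⊓ stabilizer G e : Subgroup G))).card := by
      rw [Nat.card_eq_fintype_card, Fintype.card_subtype]
    have hsub : insert 1 (I5.bipartiteBelow (fun (g : G) (o : α) => g • o = o) e)
        ⊆ Finset.univ.filter (fun g : G => g ∈ (K ⊓ stabilizer G e : Subgroup G)) := by
      intro y hy
      rw [Finset.mem_insert, Finset.mem_bipartiteBelow, hI5, Finset.mem_filter] at hy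
      rw [Finset.mem_filter]
      refine ⟨Finset.mem_univ _, ?_⟩
      rcases hy with rfl | ⟨⟨-, -, -, h1, h2, h3⟩, h4⟩
      · exact Subgroup.one_mem _
      · rw [hKdef]; exact ⟨⟨⟨h1, h2⟩, h3⟩, h4⟩
    have hc := Finset.card_le_card hsub
    rw [Finset.card_insert_of_notMem (by simp [Finset.mem_bipartiteBelow, hI5]), ← hcardeq] at hc
    omega
  have hsumL : I5.card ≤ ∑ y ∈ I5,
      (Y.bipartiteAbove (fun (g : G) (o : α) => g • o = o) y).card := by
    calc I5.card = ∑ y ∈ I5, 1 := by simp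
      _ ≤ _ := Finset.sum_le_sum hL
  have hsumR : ∑ e ∈ Y, (I5.bipartiteBelow (fun (g : G) (o : α) => g • o = o) e).card ≤ 8 := by
    calc _ ≤ ∑ e ∈ Y, 1 := Finset.sum_le_sum hR
      _ = 8 := by simp [hYcard]
  omega

end Cfsg.Agent.Helper53
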