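import Cfsg.Agent.Helper59.Deg11A

/-!
# Degree 11: a subgroup of order 9 in a two-point stabilizer (PIECE T of CALL S0679)
-/

set_option autoImplicit false

namespace Cfsg.Agent.Helper53

open MulAction Cfsg.Agent.Helper59

variable {G α : Type*} [Group G] [Finite G] [MulAction G α] [Fintype α] [DecidableEq α]

/-- In a faithful 2-transitive, not 3-transitive group of degree 11 with the Jordan data, a
subgroup of order 9 of a two-point stabilizer has exactly 6 elements with five fixed points. -/
theorem d11_nine_six (D : D11 G α) (hnt : ¬ Tr3 G α) {a b : α}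
    (hab : a ≠ b) (T : Subgroup G) (hT : T ≤ stabilizer G a ⊓ stabilizer G b)
    (hcard : Nat.card T = 9) :
    Nat.card {t : G // t ∈ T ∧ fx α t = 5} = 6 := by
  classical
  have : Fintype G := Fintype.ofFinite G
  have : Fact (Nat.Prime 3) := ⟨by norm_num⟩
  have hTa : ∀ t ∈ T, t • a = a := fun t ht => (hT ht).1
  have hTb : ∀ t ∈ T, t • b = b := fun t ht => (hT ht).2
  have hTp : IsPGroup 3 T := IsPGroup.of_card (n := 2) (by rw [hcard]; norm_num)
  have hpow : ∀ t ∈ T, t ^ 3 ^ 2 = 1 := by
    intro t ht
    have h := pow_card_eq_one' (G := T) (x := ⟨t, ht⟩)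
    rw [hcard] at h
    have := congrArg Subtype.val h
    simpa using this
  set Y : Finset α := (Finset.univ.erase a).erase b with hY
  have hYmem : ∀ x, x ∈ Y ↔ x ≠ a ∧ x ≠ b := by
    intro x
    rw [hY, Finset.mem_erase, Finset.mem_erase]
    simp only [Finset.mem_univ, and_true]
    tauto
  have hYcard : Y.card = 9 := by
    rw [hY, Finset.card_erase_of_mem (Finset.mem_erase.mpr ⟨hab.symm, Finset.mem_univ b⟩),
      Finset.card_erase_of_mem (Finset.mem_univ a), Finset.card_univ, D.card]
  -- stabilizers of outside points have order 3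
  have hTo : ∀ o : α, o ≠ a → o ≠ b → Nat.card (T ⊓ stabilizer G o : Subgroup G) = 3 := by
    intro o hoa hob
    have hdvd : Nat.card (T ⊓ stabilizer G o : Subgroup G) ∣ 3 := by
      apply D.card_three_fix (T ⊓ stabilizer G o) (hTp.to_le inf_le_left) hab hoa.symm hob.symm
      intro q hq
      exact ⟨hTa q hq.1, hTb q hq.1, hq.2⟩
    have horb := card_orbit_subgroup T o
    rcases (Nat.dvd_prime (by norm_num : Nat.Prime 3)).mp hdvd with h1 | h3
    · exfalso
      rw [h1, mul_one, hcard] at horb
      apply hnt
      have hsub : orbit T o ⊆ (Y : Set α) := by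
        rintro x ⟨t, rfl⟩
        rw [Finset.mem_coe, hYmem]
        refine ⟨?_, ?_⟩
        · intro h
          apply hoa
          have h' : (t : G) • o = (t : G) • a := by rw [hTa t t.2]; exact h
          exact MulAction.injective _ h'
        · intro h
          apply hob
          have h' : (t : G) • o = (t : G) • b := by rw [hTb t t.2]; exact h
          exact MulAction.injective _ h'
      have heq : orbit T o = (Y : Set α) := by
        apply Set.eq_of_subset_of_ncard_le hsub _ (Finset.finite_toSet Y)
        rw [Set.ncard_coe_finset, hYcard, ← Nat.card_coe_set_eq, horb]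
      apply D.tr3_of_stab hab
      intro c c' hca hcb hc'a hc'b
      have hc : c ∈ orbit T o := by rw [heq, Finset.mem_coe, hYmem]; exact ⟨hca, hcb⟩
      have hc' : c' ∈ orbit T o := by rw [heq, Finset.mem_coe, hYmem]; exact ⟨hc'a, hc'b⟩
      obtain ⟨t1, ht1⟩ := hc
      obtain ⟨t2, ht2⟩ := hc'
      have ht1' : (t1 : G) • o = c := ht1
      have ht2' : (t2 : G) • o = c' := ht2
      refine ⟨(t2 : G) * (t1 : G)⁻¹, ?_, ?_, ?_⟩
      · exact hTa _ (T.mul_mem t2.2 (T.inv_mem t1.2))
      · exact hTb _ (T.mul_mem t2.2 (T.inv_mem t1.2))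
      · rw [mul_smul, ← ht1', inv_smul_smul, ht2']
    · exact h3
  set X : Finset G := Finset.univ.filter (fun t => t ∈ T ∧ t ≠ 1) with hX
  have hdc := Finset.sum_card_bipartiteAbove_eq_sum_card_bipartiteBelow (s := X) (t := Y)
    (r := fun (g : G) (o : α) => g • o = o)
  have hR : ∀ o ∈ Y, (X.bipartiteBelow (fun (g : G) (o : α) => g • o = o) o).card = 2 := by
    intro o ho
    obtain ⟨hoa, hob⟩ := (hYmem o).mp ho
    have h3 := hTo o hoa hob
    have hfin : (Finset.univ.filter
        (fun g : G => g ∈ (T ⊓ stabilizer G o : Subgroup G))).card = 3 := by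
      rw [← h3, Nat.card_eq_fintype_card, Fintype.card_subtype]
    have hins : Finset.univ.filter (fun g : G => g ∈ (T ⊓ stabilizer G o : Subgroup G))
        = insert 1 (X.bipartiteBelow (fun (g : G) (o : α) => g • o = o) o) := by
      ext g
      simp only [Finset.mem_filter, Finset.mem_univ, true_and, Finset.mem_insert,
        Finset.mem_bipartiteBelow, hX, Subgroup.mem_inf, mem_stabilizer_iff]
      constructor
      · rintro ⟨h1, h2⟩
        by_cases hg : g = 1
        · left; exact hg
        · right; exact ⟨⟨h1, hg⟩, h2⟩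
      · rintro (rfl | ⟨⟨h1, _⟩, h2⟩)
        · exact ⟨T.one_mem, one_smul _ _⟩
        · exact ⟨h1, h2⟩
    rw [hins, Finset.card_insert_of_notMem (by simp [Finset.mem_bipartiteBelow, hX])] at hfin
    omega
  have hL : ∀ g ∈ X, (Y.bipartiteAbove (fun (g : G) (o : α) => g • o = o) g).card
      = if fx α g = 5 then 3 else 0 := by
    intro g hg
    rw [hX, Finset.mem_filter] at hg
    obtain ⟨-, hgT, hg1⟩ := hg
    have hfxs : fxs α g
        = insert a (insert b (Y.bipartiteAbove (fun (g : G) (o : α) => g • o = o) g)) := by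
      ext x
      simp only [mem_fxs, Finset.mem_insert, Finset.mem_bipartiteAbove, hYmem]
      constructor
      · intro h
        by_cases hxa : x = a
        · left; exact hxa
        · by_cases hxb : x = b
          · right; left; exact hxb
          · right; right; exact ⟨⟨hxa, hxb⟩, h⟩
      · rintro (rfl | rfl | ⟨_, h⟩)
        · exact hTa g hgT
        · exact hTb g hgT
        · exact h
    have hfx : fx α g
        = (Y.bipartiteAbove (fun (g : G) (o : α) => g • o = o) g).card + 2 := by
      unfold fx
      rw [hfxs, Finset.card_insert_of_notMem, Finset.card_insert_of_notMem]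
      · simp [Finset.mem_bipartiteAbove, hYmem]
      · simp [Finset.mem_bipartiteAbove, hYmem, hab]
    by_cases hne : (Y.bipartiteAbove (fun (g : G) (o : α) => g • o = o) g).Nonempty
    · obtain ⟨o, ho⟩ := hne
      rw [Finset.mem_bipartiteAbove, hYmem] at ho
      have h5 := D.fx_three (hpow g hgT) hg1 hab ho.1.1.symm ho.1.2.symm (hTa g hgT)
        (hTb g hgT) ho.2
      rw [if_pos h5]; omega
    · rw [Finset.not_nonempty_iff_eq_empty] at hne
      rw [hne, Finset.card_empty] at hfx ⊢
      rw [if_neg (by omega)]
  rw [Finset.sum_congr rfl hL, Finset.sum_congr rfl hR, Finset.sum_const, smul_eq_mul, hYcard,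
    ← Finset.sum_filter, Finset.sum_const, smul_eq_mul] at hdc
  have hfinal : Nat.card {t : G // t ∈ T ∧ fx α t = 5}
      = (X.filter (fun g => fx α g = 5)).card := by
    rw [Nat.card_eq_fintype_card, Fintype.card_subtype]
    congr 1
    ext g
    simp only [Finset.mem_filter, Finset.mem_univ, true_and, hX]
    constructor
    · rintro ⟨h1, h2⟩
      refine ⟨⟨h1, ?_⟩, h2⟩
      rintro rfl
      rw [fx_one, D.card] at h2
      omega
    · rintro ⟨⟨h1, _⟩, h2⟩
      exact ⟨h1, h2⟩
  rw [hfinal]; omega

end Cfsg.Agent.Helper53
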