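import Cfsg.Agent.Helper64.MRDefs
import Cfsg.Agent.Helper64.MRData6

/-! CALL MR (helper64), table piece LC6 (helper53, double): the lattice certificate for `E6`. -/

set_option autoImplicit false

namespace Cfsg.Agent.Helper53.MRLC6

open Cfsg Cfsg.Lie Cfsg.Agent.Helper64.MR

/-- PIECE LC6 (witnesses: `latME6`, `latVE6`). -/
theorem lat_E6 : LatCert chevE6 3 0 cE6 where
  hi₀ := by decide
  hc := by decide
  mat := ⟨latME6, by decide +kernel⟩
  vec := ⟨latVE6, by decide +kernel⟩
  root := by decide +kernel

end Cfsg.Agent.Helper53.MRLC6
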