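import Cfsg.Agent.Helper64.MRDefs
import Cfsg.Agent.Helper64.MRData6

/-! CALL MR (helper64), table piece TOP6 (helper53, double): the highest weight vector of the
27-dimensional representation of `E6`. -/

set_option autoImplicit false

namespace Cfsg.Agent.Helper53.MRTOP6

open Cfsg Cfsg.Lie Cfsg.Agent.Helper64.MR

/-- Boolean check: the source of a row is not `μ`. -/
def chkNe (o : Option (ℕ × ℤ)) (μ : ℕ) : Bool :=
  match o with
  | none => true
  | some p => decide (p.1 ≠ μ)

theorem chkNe_spec {o : Option (ℕ × ℤ)} {μ : ℕ} (h : chkNe o μ = true) :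
    ∀ p, o = some p → p.1 ≠ μ := by
  intro p hp
  subst hp
  simpa [chkNe] using h

theorem top6_pos : ∀ i < chevE6.rank, ∀ ν < repE6.N,
    chkNe (repE6.term1 (chevE6.simple i) ν) 0 = true := by decide +kernel

theorem top6_neg : ∀ i < chevE6.rank, i ≠ 0 → ∀ ν < repE6.N,
    chkNe (repE6.term1 (chevE6.neg (chevE6.simple i)) ν) 0 = true := by decide +kernel

theorem top6_dn : repE6.term1 (chevE6.neg (chevE6.simple 0)) 1 = some (0, 1) ∧
    ∀ ν < repE6.N, ν ≠ 1 → chkNe (repE6.term1 (chevE6.neg (chevE6.simple 0)) ν) 0 = true := by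
  decide +kernel

theorem top6_upw : repE6.term1 (chevE6.simple 0) 0 = some (1, 1) ∧
    ∀ ν < repE6.N, ν ≠ 0 → chkNe (repE6.term1 (chevE6.simple 0) ν) 1 = true := by
  decide +kernel

theorem top6_dnw : ∀ ν < repE6.N,
    chkNe (repE6.term1 (chevE6.neg (chevE6.simple 0)) ν) 1 = true := by decide +kernel

/-- PIECE TOP6. -/
theorem top_E6 : repE6.Top chevE6 0 0 1 where
  hμ₀ := by decide
  hμ₁ := by decide
  hne := by decide
  pos := fun i hi ν hν => chkNe_spec (top6_pos i hi ν hν)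
  neg := fun i hi hne ν hν => chkNe_spec (top6_neg i hi hne ν hν)
  dn := ⟨top6_dn.1, fun ν hν hne => chkNe_spec (top6_dn.2 ν hν hne)⟩
  upw := ⟨top6_upw.1, fun ν hν hne => chkNe_spec (top6_upw.2 ν hν hne)⟩
  dnw := fun ν hν => chkNe_spec (top6_dnw ν hν)

end Cfsg.Agent.Helper53.MRTOP6
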