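import Mathlib
import Cfsg.Prelude.Def_GeometricClasses
import Cfsg.Agent.Helper71.QMTen
import Cfsg.Agent.Helper71.Q6Comm

/-!
# CALL S5798 (helper71), PIECE QE (helper53): the first transvection.
-/

set_option autoImplicit false
set_option linter.unusedSectionVars false
set_option linter.unusedVariables false

namespace Cfsg.Agent.Helper53.S6QE

open Matrix Cfsg.Agent.Helper93 Cfsg.Agent.Helper94 Cfsg.Agent.Helper98 Cfsg.Geo

section Q6

variable {ι : Type} [Fintype ι] [DecidableEq ι] {F : Type*} [Field F]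
variable {Q Q' : (ι → F) → F}

theorem q6_first_tv (hQ : IsNondegenerateQuadraticForm Q) (hQ' : IsNondegenerateQuadraticForm Q')
    (M : Subgroup (GL ι F)) (hHM : quadSimilarityGroup Q ⊓ specialLinear ι F ≤ M)
    (hM' : ∀ (c d : ι → F) (hc : Q' c ≠ 0) (hd : Q' d ≠ 0),
      reflGL hQ' c hc * reflGL hQ' d hd ∈ M)
    (h2 : (2 : F) ≠ 0) (hn : 4 < Fintype.card ι)
    (hcv : ∃ c a, Q' c ≠ 0 ∧ Q a ≠ 0 ∧ polB hQ a c = 0 ∧ polB hQ' a c ≠ 0)
    (hperp : ∀ z : Fin 4 → (ι → F), ∃ y, y ≠ 0 ∧ ∀ i, polB hQ' y (z i) = 0) :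
    ∃ u w, qm_R hQ M u w ∧ u ≠ 0 ∧ Q w ≠ 0 := by
  obtain ⟨c, a, hc, ha, hac, hac'⟩ := hcv
  obtain ⟨c₁, hc₁⟩ := qm_riesz hQ hQ' c
  obtain ⟨b, hb, hbz⟩ := qm_exists_aniso hQ ![c, c₁] (by omega)
  have hbc : polB hQ b c = 0 := hbz 0
  have hbc' : polB hQ' b c = 0 := by
    rw [← hc₁]
    exact hbz 1
  obtain ⟨b', hb'⟩ := qm_riesz hQ' hQ b
  obtain ⟨a', ha'⟩ := qm_riesz hQ' hQ a
  obtain ⟨y, hy0, hyz⟩ := hperp ![b, b', a', c]
  have hyb' : polB hQ' y b = 0 := hyz 0
  have hyb : polB hQ y b = 0 := by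
    rw [← hb']
    exact hyz 1
  have hya : polB hQ y a = 0 := by
    rw [← ha']
    exact hyz 2
  have hyc' : polB hQ' y c = 0 := hyz 3
  have hcb' : polB hQ' c b = 0 := by rw [polB_comm]; exact hbc'
  have hcb : polB hQ c b = 0 := by rw [polB_comm]; exact hbc
  have hca : polB hQ c a = 0 := by rw [polB_comm]; exact hac
  have hd : ∃ d, Q' d ≠ 0 ∧ polB hQ' d b = 0 ∧ polB hQ d b = 0 ∧ polB hQ d a = 0 ∧
      ∀ l : F, d ≠ l • c := by
    have key : ∀ e : F, Q' (y + e • c) ≠ 0 → ∃ d, Q' d ≠ 0 ∧ polB hQ' d b = 0 ∧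
        polB hQ d b = 0 ∧ polB hQ d a = 0 ∧ ∀ l : F, d ≠ l • c := by
      intro e he
      refine ⟨y + e • c, he, ?_, ?_, ?_, ?_⟩
      · rw [map_add, LinearMap.add_apply, map_smul, LinearMap.smul_apply, hyb', hcb', smul_zero,
          add_zero]
      · rw [map_add, LinearMap.add_apply, map_smul, LinearMap.smul_apply, hyb, hcb, smul_zero,
          add_zero]
      · rw [map_add, LinearMap.add_apply, map_smul, LinearMap.smul_apply, hya, hca, smul_zero,
          add_zero]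
      · intro l hl
        have hy : y = (l - e) • c := by rw [sub_smul, ← hl, add_sub_cancel_right]
        have h1 : polB hQ' y c = (l - e) * (2 * Q' c) := by
          rw [hy, map_smul, LinearMap.smul_apply, polB_self, smul_eq_mul]
        rw [hyc'] at h1
        have h3 : l - e = 0 := by
          rcases mul_eq_zero.mp h1.symm with h | h
          · exact h
          · exact absurd h (mul_ne_zero h2 hc)
        apply hy0
        rw [hy, h3, zero_smul]
    by_cases hqy : Q' y = 0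
    · rcases qm_add_or_sub hQ' h2 y c hqy hc with h | h
      · apply key 1
        rw [one_smul]
        exact h
      · apply key (-1)
        rw [neg_one_smul, ← sub_eq_add_neg]
        exact h
    · apply key 0
      rw [zero_smul, add_zero]
      exact hqy
  obtain ⟨d, hd, hdb', hdb, hda, hdl⟩ := hd
  have hbd' : polB hQ' b d = 0 := by rw [polB_comm]; exact hdb'
  have hT : reflGL hQ a ha * reflGL hQ b hb * (reflGL hQ' c hc * reflGL hQ' d hd) *
      (reflGL hQ b hb * reflGL hQ a ha) * (reflGL hQ' d hd * reflGL hQ' c hc) ∈ M :=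
    M.mul_mem (M.mul_mem (M.mul_mem (hHM (qm_refl2_mem hQ a b ha hb)) (hM' c d hc hd))
      (hHM (qm_refl2_mem hQ b a hb ha))) (hM' d c hd hc)
  obtain ⟨u₁, hu₁⟩ : ∃ u₁, u₁ = qm_cf hQ' d a • d +
      (qm_cf hQ' c a - qm_cf hQ' d a * qm_cf hQ' c d) • c := ⟨_, rfl⟩
  have hu₁a : polB hQ u₁ ((Q a)⁻¹ • a) = 0 := by
    simp only [hu₁, map_add, LinearMap.add_apply, map_smul, LinearMap.smul_apply, hda, hca,
      smul_zero, add_zero]
  refine ⟨u₁, (Q a)⁻¹ • a, ⟨hu₁a, ?_⟩, ?_, ?_⟩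
  · have hft : ft (polB hQ) u₁ ((Q a)⁻¹ • a) hu₁a = reflGL hQ a ha * reflGL hQ b hb *
        (reflGL hQ' c hc * reflGL hQ' d hd) * (reflGL hQ b hb * reflGL hQ a ha) *
        (reflGL hQ' d hd * reflGL hQ' c hc) := by
      apply gl_ext'
      intro x
      rw [ft_mulVec, Cfsg.Agent.Helper71.Q6Comm.q6_comm_refl hQ hQ' a b c d ha hb hc hd hca hda
        hcb hdb hbc' hbd', qm_cf_apply hQ a x, map_smul, smul_eq_mul, ← hu₁]
    rw [hft]
    exact hT
  · intro h0
    have hcc : qm_cf hQ' c a ≠ 0 := by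
      rw [qm_cf_apply]
      exact mul_ne_zero (inv_ne_zero hc) hac'
    have hc0 : c ≠ 0 := by
      rintro rfl
      exact hc (q_zero hQ')
    by_cases hda0 : qm_cf hQ' d a = 0
    · rw [hu₁, hda0, zero_smul, zero_add, zero_mul, sub_zero] at h0
      rcases smul_eq_zero.mp h0 with h | h
      · exact hcc h
      · exact hc0 h
    · apply hdl (-(qm_cf hQ' c a - qm_cf hQ' d a * qm_cf hQ' c d) / qm_cf hQ' d a)
      have h5 : qm_cf hQ' d a • d = -((qm_cf hQ' c a - qm_cf hQ' d a * qm_cf hQ' c d) • c) := by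
        rw [hu₁] at h0
        exact eq_neg_of_add_eq_zero_left h0
      calc d = (qm_cf hQ' d a)⁻¹ • (qm_cf hQ' d a • d) := by
            rw [smul_smul, inv_mul_cancel₀ hda0, one_smul]
        _ = (-(qm_cf hQ' c a - qm_cf hQ' d a * qm_cf hQ' c d) / qm_cf hQ' d a) • c := by
            rw [h5, smul_neg, smul_smul, ← neg_smul]
            congr 1
            field_simp
  · rw [q_smul hQ]
    exact mul_ne_zero (pow_ne_zero 2 (inv_ne_zero ha)) ha

end Q6

end Cfsg.Agent.Helper53.S6QE
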