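import Mathlib
import Cfsg.Agent.Helper96.OHDefs
import Cfsg.Agent.Helper33.OType
import Cfsg.Agent.Helper43.OrthPlane
import Cfsg.Agent.S2617
import Cfsg.Agent.Helper31.OHOPERP
import Cfsg.Agent.Helper84.OEETRANSFIXCore
import Cfsg.Agent.Helper86.OEENDSUBCARD
import Cfsg.Agent.Helper88.OEISOAll
import Cfsg.Agent.Helper86.ELCAU
import Cfsg.Agent.Helper35.ELSUBT
import Cfsg.Agent.Helper65.S74Defs

set_option autoImplicit false
set_option linter.unusedVariables false
set_option linter.unusedSectionVars false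

/-!
# CALL S74 (helper65, row S5974), shared stage CAUH (helper53, double), ALL characteristics.

* `hyp_cnt_core`: the hyperbolic twin of `Helper86.EL5988.el_cnt_core` (same proof with the type
  flipped; Witt transitivity from `Helper88.OEAll.oe_trans_fix_all`): if `r` divides the number of
  hyperbolic `m`-subspaces of `K` (and there is one), some isometry `T ≠ 1` with `T ^ r = 1` fixes
  the perp of `K` pointwise and `range (T - 1) ≤ K`.
* `s74_cauchy`: if the prime `r` divides the number of hyperbolic `m`-spaces (row wording) of a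
  plus-type form in dimension `2 d` (`2 ≤ m < d`, `m` even), the isometry group has an element of
  order `r`.
-/

namespace Cfsg.Agent.Helper53.S74

open Module Polynomial Cfsg Cfsg.Geo
open Cfsg.Agent.Helper13.TIu Cfsg.Agent.Helper96.OH
open Cfsg.Agent.Helper31.OH5992 Cfsg.Agent.Helper84.OE5993 Cfsg.Agent.Helper86.OE5993
open scoped MatrixGroups

section core

variable {ι : Type} [Fintype ι] [DecidableEq ι] {F : Type*} [Field F] (Q : (ι → F) → F)

/-- CNT core, hyperbolic: `r ∣ #{hyperbolic m-subspaces of K}` gives an isometry of order `r`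
fixing the perp of `K` pointwise. -/
theorem hyp_cnt_core [Fintype F] (hQ : IsNondegenerateQuadraticForm Q) (r : ℕ) [Fact r.Prime]
    (m : ℕ) (hme : Even m) (K : Submodule F (ι → F)) (hK : ONd Q K)
    (W₀ : Submodule F (ι → F)) (hW₀ : (finrank F W₀ = m ∧ ONd Q W₀ ∧ OPl Q W₀) ∧ W₀ ≤ K)
    (hr : r ∣ Nat.card {W : Submodule F (ι → F) //
      (finrank F W = m ∧ ONd Q W ∧ OPl Q W) ∧ W ≤ K}) :
    ∃ T : Module.End F (ι → F), OPres Q T ∧ T ≠ 1 ∧ T ^ r = 1 ∧
      (∀ v, (∀ u ∈ K, QuadraticMap.polar Q u v = 0) → T v = v) ∧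
      LinearMap.range (T - 1) ≤ K := by
  classical
  have hrpr : r.Prime := Fact.out
  haveI : Finite ((ι → F) ≃ₗ[F] (ι → F)) :=
    Finite.of_injective (fun g => (g : (ι → F) → (ι → F))) DFunLike.coe_injective
  -- the complement of K
  obtain ⟨P, -, -, hPnd, hdisj, hsup, hKP, hPdim⟩ := o_perp Q hQ (1 : Module.End F (ι → F))
    (opres_one Q) 1 Nat.one_pos (one_pow 1) ⊤ K (ond_top Q hQ) hK le_top le_top
    (by rintro _ ⟨v, hv, rfl⟩; exact hv)
  have hPnd' : UNd (pB Q hQ) P := (und_iff Q hQ P).mpr hPnd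
  have hfixP : ∀ g ∈ oeFixPerp Q K, ∀ y ∈ P, g y = y := by
    intro g hg y hy
    exact hg.2 y (fun u hu => hKP u hu y hy)
  have hpolar : ∀ g ∈ oeFixPerp Q K, ∀ u v, pB Q hQ (g u) (g v) = pB Q hQ u v := by
    intro g hg u v
    rw [pB_apply, pB_apply]
    unfold QuadraticMap.polar
    rw [← map_add, hg.1, hg.1, hg.1]
  -- elements of the subgroup preserve K
  have hKinv : ∀ g ∈ oeFixPerp Q K, ∀ w ∈ K, g w ∈ K := by
    intro g hg w hw
    have h1 : g w ∈ K ⊔ P := by rw [hsup]; exact Submodule.mem_top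
    obtain ⟨k, hk, y, hy, hky⟩ := Submodule.mem_sup.mp h1
    have hy0 : y = 0 := by
      apply hPnd' y hy
      intro y' hy'
      have h3 : pB Q hQ (g w) y' = 0 := by
        rw [← hfixP g hg y' hy', hpolar g hg]
        exact hKP w hw y' hy'
      have h4 : pB Q hQ k y' = 0 := hKP k hk y' hy'
      rw [← hky, map_add, LinearMap.add_apply, h4, zero_add] at h3
      exact h3
    rw [hy0, add_zero] at hky
    rw [← hky]
    exact hk
  -- the action
  have hpres : ∀ g ∈ oeFixPerp Q K, ∀ W : Submodule F (ι → F),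
      ((finrank F W = m ∧ ONd Q W ∧ OPl Q W) ∧ W ≤ K) →
      ((finrank F (W.map (g : (ι → F) →ₗ[F] (ι → F))) = m ∧
        ONd Q (W.map (g : (ι → F) →ₗ[F] (ι → F))) ∧
        OPl Q (W.map (g : (ι → F) →ₗ[F] (ι → F)))) ∧
        W.map (g : (ι → F) →ₗ[F] (ι → F)) ≤ K) := by
    rintro g hg W ⟨⟨hW1, hW2, hW3⟩, hW4⟩
    have hiso : AreIsometricFor Q W (W.map (g : (ι → F) →ₗ[F] (ι → F))) :=
      ⟨Submodule.equivMapOfInjective (g : (ι → F) →ₗ[F] (ι → F)) g.injective W, fun w => by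
        rw [Submodule.coe_equivMapOfInjective_apply]
        exact hg.1 w⟩
    refine ⟨⟨?_, ?_, ?_⟩, ?_⟩
    · rw [← hW1]
      exact (Submodule.equivMapOfInjective (g : (ι → F) →ₗ[F] (ι → F))
        g.injective W).symm.finrank_eq
    · rw [← und_iff Q hQ]
      have hW2' : UNd (pB Q hQ) W := (und_iff Q hQ W).mpr hW2
      rintro _ ⟨u₀, hu₀, rfl⟩ hall
      have h1 : u₀ = 0 := by
        apply hW2' u₀ hu₀
        intro w hw
        rw [← hpolar g hg]
        exact hall _ (Submodule.mem_map_of_mem hw)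
      rw [h1, map_zero]
    · exact (Cfsg.Agent.Helper33.o_type_iso Q W _ hiso).mp hW3
    · rintro _ ⟨w, hw, rfl⟩
      exact hKinv g hg w (hW4 hw)
  letI inst : MulAction (oeFixPerp Q K) {W : Submodule F (ι → F) //
      (finrank F W = m ∧ ONd Q W ∧ OPl Q W) ∧ W ≤ K} :=
    { smul := fun g W => ⟨W.1.map (g.1 : (ι → F) →ₗ[F] (ι → F)), hpres g.1 g.2 W.1 W.2⟩
      one_smul := by
        intro W
        apply Subtype.ext
        show W.1.map (((1 : (ι → F) ≃ₗ[F] (ι → F))) : (ι → F) →ₗ[F] (ι → F)) = W.1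
        exact Submodule.map_id _
      mul_smul := by
        intro g h W
        apply Subtype.ext
        show W.1.map ((g.1 * h.1 : (ι → F) ≃ₗ[F] (ι → F)) :
            (ι → F) →ₗ[F] (ι → F)) =
          (W.1.map (h.1 : (ι → F) →ₗ[F] (ι → F))).map
            (g.1 : (ι → F) →ₗ[F] (ι → F))
        exact Submodule.map_comp _ _ _ }
  haveI : MulAction.IsPretransitive (oeFixPerp Q K) {W : Submodule F (ι → F) //
      (finrank F W = m ∧ ONd Q W ∧ OPl Q W) ∧ W ≤ K} := by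
    refine ⟨fun W W' => ?_⟩
    obtain ⟨l, hl⟩ := hme
    obtain ⟨g, hg0, hgb, hg1, hg2⟩ := Cfsg.Agent.Helper88.OEAll.oe_trans_fix_all Q hQ K W.1 W'.1
      hK W.2.1.2.1 W'.2.1.2.1 W.2.2 W'.2.2 l (by rw [W.2.1.1]; omega) (by rw [W'.2.1.1]; omega)
      ⟨fun _ => W'.2.1.2.2, fun _ => W.2.1.2.2⟩
    have hcoe : ((LinearEquiv.ofBijective g hgb : (ι → F) ≃ₗ[F] (ι → F)) :
        (ι → F) →ₗ[F] (ι → F)) = g := LinearMap.ext fun v => rfl
    refine ⟨⟨LinearEquiv.ofBijective g hgb, fun v => hg0 v, fun v hv => hg2 v hv⟩, ?_⟩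
    apply Subtype.ext
    show W.1.map ((LinearEquiv.ofBijective g hgb : (ι → F) ≃ₗ[F] (ι → F)) :
        (ι → F) →ₗ[F] (ι → F)) = W'.1
    rw [hcoe]
    exact hg1
  have hdvd : Nat.card {W : Submodule F (ι → F) //
      (finrank F W = m ∧ ONd Q W ∧ OPl Q W) ∧ W ≤ K} ∣ Nat.card (oeFixPerp Q K) := by
    rw [← MulAction.index_stabilizer_of_transitive (G := oeFixPerp Q K)
      (x := (⟨W₀, hW₀⟩ : {W : Submodule F (ι → F) //
      (finrank F W = m ∧ ONd Q W ∧ OPl Q W) ∧ W ≤ K}))]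
    exact Subgroup.index_dvd_card _
  have hr' : r ∣ Nat.card (oeFixPerp Q K) := dvd_trans hr hdvd
  obtain ⟨g, hg⟩ := exists_prime_orderOf_dvd_card' r hr'
  have hgr : g.1 ^ r = 1 := by
    have h1 : g ^ r = 1 := by rw [← hg]; exact pow_orderOf_eq_one g
    have h3 := congrArg Subtype.val h1
    simpa using h3
  obtain ⟨T, hTdef⟩ : ∃ T : Module.End F (ι → F),
      T = (g.1 : (ι → F) →ₗ[F] (ι → F)) := ⟨_, rfl⟩
  have hTapp : ∀ v, T v = g.1 v := fun v => by rw [hTdef]; rfl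
  have hTpow : ∀ k : ℕ, ∀ v, (T ^ k) v = (g.1 ^ k) v := by
    intro k
    induction k with
    | zero => intro v; rfl
    | succ k ih =>
      intro v
      rw [pow_succ, pow_succ, Module.End.mul_apply, LinearEquiv.mul_apply, hTapp, ih]
  have hTr : T ^ r = 1 := by
    apply LinearMap.ext
    intro v
    rw [hTpow, hgr]
    rfl
  have hT : OPres Q T := by
    intro v
    rw [hTapp]
    exact g.2.1 v
  refine ⟨T, hT, ?_, hTr, ?_, ?_⟩
  · intro h9
    have h10 : g = 1 := by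
      apply Subtype.ext
      apply LinearEquiv.ext
      intro v
      rw [← hTapp, h9]
      rfl
    rw [h10, orderOf_one] at hg
    exact hrpr.ne_one hg.symm
  · intro v hv
    rw [hTapp]
    exact g.2.2 v hv
  · rintro _ ⟨v, rfl⟩
    have h1 : v ∈ K ⊔ P := by rw [hsup]; exact Submodule.mem_top
    obtain ⟨k, hk, y, hy, rfl⟩ := Submodule.mem_sup.mp h1
    have h2 : (T - 1) (k + y) = g.1 k - k := by
      rw [LinearMap.sub_apply, Module.End.one_apply, hTapp, map_add, hfixP g.1 g.2 y hy]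
      abel
    rw [h2]
    exact K.sub_mem (hKinv g.1 g.2 k hk) hk

end core

section cau

variable {ι : Type} [Fintype ι] [DecidableEq ι] {F : Type*} [Field F] [Fintype F]

/-- CAUH: if the prime `r` divides the number of hyperbolic `m`-spaces, the isometry group of `Q`
has an element of order `r`. -/
theorem s74_cauchy (Q : (ι → F) → F) (hQ : IsNondegenerateQuadraticForm Q) (d m : ℕ)
    (hcard : Fintype.card ι = 2 * d) (hplus : IsPlusTypeOn Q ⊤)
    (hm : 2 ≤ m) (hme : Even m) (hmd : m < d) (r : ℕ) [Fact r.Prime]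
    (hrΩ : r ∣ Nat.card {W : Submodule F (ι → F) // Module.finrank F ↥W = m ∧
      (∀ u ∈ W, u ≠ 0 → ∃ v ∈ W, QuadraticMap.polar Q u v ≠ 0) ∧
      ∃ U : Submodule F (ι → F), U ≤ W ∧ 2 * Module.finrank F ↥U = m ∧ ∀ u ∈ U, Q u = 0}) :
    ∃ x : GL ι F, x ∈ Cfsg.isometryGroup F Q ∧ x ^ r = 1 ∧ x ≠ 1 := by
  have htop : finrank F (⊤ : Submodule F (ι → F)) = 2 * d := by
    rw [finrank_top, Module.finrank_fintype_fun_eq_card, hcard]
  obtain ⟨X, -, hXnd, hXdim, hXty⟩ := Cfsg.Agent.Helper35.EL.el_sub Q hQ ⊤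
    (Cfsg.Agent.Helper96.OH.ond_top Q hQ) d htop m hme (by omega) (by omega) True
  have hcardeq : Nat.card {W : Submodule F (ι → F) // Module.finrank F ↥W = m ∧
      (∀ u ∈ W, u ≠ 0 → ∃ v ∈ W, QuadraticMap.polar Q u v ≠ 0) ∧
      ∃ U : Submodule F (ι → F), U ≤ W ∧ 2 * Module.finrank F ↥U = m ∧ ∀ u ∈ U, Q u = 0} =
      Nat.card {W : Submodule F (ι → F) //
        (finrank F W = m ∧ ONd Q W ∧ OPl Q W) ∧ W ≤ ⊤} :=
    Nat.card_congr (Equiv.subtypeEquivRight (fun W =>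
      ⟨fun h => ⟨(Cfsg.Agent.Helper65.S74.hypM_iff Q m W).mp h, le_top⟩,
        fun h => (Cfsg.Agent.Helper65.S74.hypM_iff Q m W).mpr h.1⟩))
  rw [hcardeq] at hrΩ
  obtain ⟨T, hT, hT1, hTr, -, -⟩ :=
    hyp_cnt_core Q hQ r m hme ⊤ (ond_top Q hQ) X ⟨⟨hXdim, hXnd, hXty.mpr trivial⟩, le_top⟩ hrΩ
  obtain ⟨x, hx, hxr, hxT⟩ := Cfsg.Agent.Helper86.EL5988.el_gl_of_end Q T r
    (Nat.Prime.pos Fact.out) hT hTr
  refine ⟨x, hx, hxr, ?_⟩
  intro h1
  apply hT1
  rw [← hxT, h1, Units.val_one, Matrix.toLin'_one]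
  rfl

end cau

end Cfsg.Agent.Helper53.S74
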