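import Mathlib
import Cfsg.Agent.Helper96.OHDefs
import Cfsg.Agent.Helper96.OHAll
import Cfsg.Agent.Helper31.OHOFIX
import Cfsg.Agent.Helper37.OHOFIXCONGR
import Cfsg.Agent.Helper35.ELSUBT
import Cfsg.Agent.Helper53.S74CAUH

set_option autoImplicit false
set_option linter.unusedVariables false
set_option linter.unusedSectionVars false

/-!
# CALL S74 (helper65, row S5974), shared stage NDIVH, core (helper53), ALL characteristics.

Hyperbolic twins of `Helper86.EL5988.el_ndiv_core / el_pres_map / el_ndiv_of_bad` (same proofs with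
the type flipped, on top of `hyp_cnt_core`):
* `hyp_ndiv_of_bad`: if some isometry `T` with `T ^ r = 1` has a fixed space of dimension `< c` and
  `m < c`, then `r` does not divide the number of hyperbolic `m`-spaces, provided
  `m < dim (fixed space)` or (`m = dim (fixed space)` and (`i` odd or `|ι| / i` even)).
-/

namespace Cfsg.Agent.Helper53.S74

open Module Polynomial Cfsg Cfsg.Geo
open Cfsg.Agent.Helper13.TIu Cfsg.Agent.Helper96.OH
open Cfsg.Agent.Helper31.OH5992 Cfsg.Agent.Helper37.OH5992 Cfsg.Agent.Helper96.OHAll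

variable {ι : Type} [Fintype ι] [DecidableEq ι] {F : Type*} [Field F] (Q : (ι → F) → F)

/-- NDIV core: the number of hyperbolic `m`-subspaces of a small nondegenerate `K` is prime to `r`. -/
theorem hyp_ndiv_core [Fintype F] (hQ : IsNondegenerateQuadraticForm Q)
    (r : ℕ) [Fact r.Prime] (hr2 : 2 < r) (hrF : (r : F) ≠ 0) (i c : ℕ)
    (hi : i = orderOf ((Fintype.card F : ℕ) : ZMod r)) (hc : c = if Even i then i else 2 * i)
    (m : ℕ) (hme : Even m) (K : Submodule F (ι → F)) (hK : ONd Q K) (hKc : finrank F K < c)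
    (W₀ : Submodule F (ι → F)) (hW₀ : (finrank F W₀ = m ∧ ONd Q W₀ ∧ OPl Q W₀) ∧ W₀ ≤ K) :
    ¬ r ∣ Nat.card {W : Submodule F (ι → F) //
      (finrank F W = m ∧ ONd Q W ∧ OPl Q W) ∧ W ≤ K} := by
  intro hr
  obtain ⟨T, hT, hT1, hTr, -, hrange⟩ := hyp_cnt_core Q hQ r m hme K hK W₀ hW₀ hr
  have h1 := oall_cdvd Q hQ T hT r hr2 hrF hTr i c hi hc ⊤ le_top (ond_top Q hQ)
  rw [top_inf_eq, finrank_top] at h1
  have h2 := LinearMap.finrank_range_add_finrank_ker (T - 1)
  have h3 := Submodule.finrank_mono hrange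
  have h4 : finrank F (LinearMap.range (T - 1)) = 0 := by
    have h5 : finrank F (ι → F) - finrank F (LinearMap.ker (T - 1)) =
        finrank F (LinearMap.range (T - 1)) := by omega
    rw [h5] at h1
    exact Nat.eq_zero_of_dvd_of_lt h1 (by omega)
  have h6 : LinearMap.range (T - 1) = ⊥ := Submodule.finrank_eq_zero.mp h4
  have h7 : T - 1 = 0 := LinearMap.range_eq_bot.mp h6
  exact hT1 (sub_eq_zero.mp h7)

/-- an injective isometry preserves the hyperbolic `m`-spaces -/
theorem hyp_pres_map (hQ : IsNondegenerateQuadraticForm Q) (T : Module.End F (ι → F))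
    (hT : OPres Q T) (hinj : Function.Injective T) (m : ℕ) (W : Submodule F (ι → F))
    (h : finrank F W = m ∧ ONd Q W ∧ OPl Q W) :
    finrank F (W.map T) = m ∧ ONd Q (W.map T) ∧ OPl Q (W.map T) := by
  obtain ⟨hW1, hW2, hW3⟩ := h
  have hiso : AreIsometricFor Q W (W.map T) :=
    ⟨Submodule.equivMapOfInjective T hinj W, fun w => by
      rw [Submodule.coe_equivMapOfInjective_apply]
      exact hT w⟩
  have hpol := upres_of Q hQ T hT
  refine ⟨?_, ?_, ?_⟩
  · rw [← hW1]
    exact (Submodule.equivMapOfInjective T hinj W).symm.finrank_eq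
  · rw [← und_iff Q hQ]
    have hW2' : UNd (pB Q hQ) W := (und_iff Q hQ W).mpr hW2
    rintro _ ⟨u₀, hu₀, rfl⟩ hall
    have h1 : u₀ = 0 := by
      apply hW2' u₀ hu₀
      intro w hw
      rw [← hpol]
      exact hall _ (Submodule.mem_map_of_mem hw)
    rw [h1, map_zero]
  · exact (Cfsg.Agent.Helper33.o_type_iso Q W _ hiso).mp hW3

/-- NDIV from a bad element: an isometry of order `r` with a small fixed space. -/
theorem hyp_ndiv_of_bad [Fintype F] (hQ : IsNondegenerateQuadraticForm Q) (hplus : OPl Q ⊤)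
    (d : ℕ) (hcard : Fintype.card ι = 2 * d)
    (r : ℕ) [Fact r.Prime] (hr2 : 2 < r) (hrF : (r : F) ≠ 0) (i c : ℕ)
    (hi : i = orderOf ((Fintype.card F : ℕ) : ZMod r)) (hc : c = if Even i then i else 2 * i)
    (m : ℕ) (hme : Even m) (hm0 : 0 < m) (hmc : m < c)
    (T : Module.End F (ι → F)) (hT : OPres Q T) (hTr : T ^ r = 1)
    (hfix : finrank F (LinearMap.ker (T - 1)) < c)
    (hk : m < finrank F (LinearMap.ker (T - 1)) ∨
      (m = finrank F (LinearMap.ker (T - 1)) ∧ (Odd i ∨ Even (Fintype.card ι / i)))) :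
    ¬ r ∣ Nat.card {W : Submodule F (ι → F) // finrank F W = m ∧ ONd Q W ∧ OPl Q W} := by
  classical
  have hrpr : r.Prime := Fact.out
  have hinj : Function.Injective T := by
    have h1 : T ^ (r - 1) * T = 1 := by
      rw [← pow_succ, Nat.sub_add_cancel hrpr.one_le, hTr]
    intro u v huv
    have h2 := congrArg (T ^ (r - 1)) huv
    rw [← Module.End.mul_apply, ← Module.End.mul_apply, h1] at h2
    exact h2
  have hcev : Even c := by
    rw [hc]
    split_ifs with h
    · exact h
    · exact even_two_mul i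
  -- the fixed space and its complement
  obtain ⟨hCnd, P, -, hPT, hPnd, hPk, hsup, horth, hdim⟩ :=
    o_fix Q hQ T hT r hrpr.pos hrF hTr ⊤ le_top (ond_top Q hQ)
  rw [top_inf_eq] at hCnd hsup horth hdim
  rw [finrank_top, Module.finrank_fintype_fun_eq_card] at hdim
  have hcP : c ∣ finrank F P := by
    have h1 := oall_cdvd Q hQ T hT r hr2 hrF hTr i c hi hc P hPT hPnd
    rw [hPk, finrank_bot, Nat.sub_zero] at h1
    exact h1
  have hPev : Even (finrank F P) := hcev.trans_dvd hcP
  have hCev : Even (finrank F (LinearMap.ker (T - 1))) := by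
    obtain ⟨a, ha⟩ := hPev
    exact ⟨d - a, by omega⟩
  -- the fixed point congruence
  have hcong := o_fix_congr T r hTr (fun W => finrank F W = m ∧ ONd Q W ∧ OPl Q W)
    (fun W hW => hyp_pres_map Q hQ T hT hinj m W hW)
  have hinC : ∀ W : Submodule F (ι → F), (finrank F W = m ∧ ONd Q W ∧ OPl Q W) →
      W.map T ≤ W → W ≤ LinearMap.ker (T - 1) := by
    intro W hW hWT
    have h1 := oall_cdvd Q hQ T hT r hr2 hrF hTr i c hi hc W hWT hW.2.1
    have h3 : finrank F (W ⊓ LinearMap.ker (T - 1) : Submodule F (ι → F)) ≤ finrank F W :=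
      Submodule.finrank_mono inf_le_left
    have h2 : finrank F W - finrank F (W ⊓ LinearMap.ker (T - 1) : Submodule F (ι → F)) = 0 :=
      Nat.eq_zero_of_dvd_of_lt h1 (by rw [hW.1]; omega)
    have h4 : W ⊓ LinearMap.ker (T - 1) = W :=
      Submodule.eq_of_le_of_finrank_eq inf_le_left (by omega)
    rw [← h4]
    exact inf_le_right
  have hCfix : ∀ W : Submodule F (ι → F), W ≤ LinearMap.ker (T - 1) → W.map T ≤ W := by
    rintro W hW _ ⟨w, hw, rfl⟩
    have h1 := hW hw
    rw [LinearMap.mem_ker, LinearMap.sub_apply, Module.End.one_apply, sub_eq_zero] at h1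
    rw [h1]
    exact hw
  have hcard2 : Nat.card {W : Submodule F (ι → F) //
      (finrank F W = m ∧ ONd Q W ∧ OPl Q W) ∧ W.map T ≤ W} =
      Nat.card {W : Submodule F (ι → F) //
        (finrank F W = m ∧ ONd Q W ∧ OPl Q W) ∧ W ≤ LinearMap.ker (T - 1)} :=
    Nat.card_congr (Equiv.subtypeEquivRight (fun W =>
      ⟨fun h => ⟨h.1, hinC W h.1 h.2⟩, fun h => ⟨h.1, hCfix W h.2⟩⟩))
  rw [hcard2] at hcong
  intro hr
  have hr' : r ∣ Nat.card {W : Submodule F (ι → F) //
      (finrank F W = m ∧ ONd Q W ∧ OPl Q W) ∧ W ≤ LinearMap.ker (T - 1)} :=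
    (Nat.ModEq.dvd_iff hcong (dvd_refl r)).mp hr
  rcases hk with hk | ⟨hmeq, hty⟩
  · obtain ⟨k, hk'⟩ := hCev
    obtain ⟨X, hXC, hXnd, hXdim, hXty⟩ := Cfsg.Agent.Helper35.EL.el_sub Q hQ
      (LinearMap.ker (T - 1)) hCnd k (by omega) m hme hm0 (by omega) True
    exact hyp_ndiv_core Q hQ r hr2 hrF i c hi hc m hme _ hCnd hfix X
      ⟨⟨hXdim, hXnd, hXty.mpr trivial⟩, hXC⟩ hr'
  · -- the fixed space itself is the only hyperbolic `m`-subspace
    have hPpl : OPl Q P := by
      by_cases hodd : Odd i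
      · exact oall_type_odd Q hQ T hT r hr2 hrF hTr (hi ▸ hodd) P hPT hPnd hPk
      · have hev : Even i := Nat.not_odd_iff_even.mp hodd
        have hevι : Even (Fintype.card ι / i) := hty.resolve_left hodd
        have hci : c = i := by rw [hc, if_pos hev]
        obtain ⟨t, ht⟩ := hcP
        rw [hci] at ht
        have hi0 : 0 < i := by omega
        have hmi : m < i := by omega
        have hdivP : finrank F P / i = t := by
          rw [ht]
          exact Nat.mul_div_cancel_left t hi0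
        have hdivι : Fintype.card ι / i = t := by
          have h1 : Fintype.card ι = m + i * t := by omega
          rw [h1, Nat.add_mul_div_left m t hi0, Nat.div_eq_of_lt hmi, zero_add]
        apply (oall_type_even Q hQ T hT r hr2 hrF hTr (hi ▸ hev) P hPT hPnd hPk).mpr
        rw [← hi, hdivP, ← hdivι]
        exact hevι
    have hCpl : OPl Q (LinearMap.ker (T - 1)) := by
      have h1 := Cfsg.Agent.Helper33.o_type_mul Q hQ (LinearMap.ker (T - 1)) P hCnd hPnd horth
        hCev hPev
      rw [hsup] at h1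
      exact (h1.mp hplus).mpr hPpl
    have huniq : Nat.card {W : Submodule F (ι → F) //
        (finrank F W = m ∧ ONd Q W ∧ OPl Q W) ∧ W ≤ LinearMap.ker (T - 1)} = 1 := by
      rw [Nat.card_eq_one_iff_unique]
      refine ⟨⟨fun a b => Subtype.ext ?_⟩,
        ⟨⟨LinearMap.ker (T - 1), ⟨hmeq.symm, hCnd, hCpl⟩, le_refl _⟩⟩⟩
      have ha : a.1 = LinearMap.ker (T - 1) :=
        Submodule.eq_of_le_of_finrank_eq a.2.2 (by rw [a.2.1.1, hmeq])
      have hb : b.1 = LinearMap.ker (T - 1) :=
        Submodule.eq_of_le_of_finrank_eq b.2.2 (by rw [b.2.1.1, hmeq])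
      rw [ha, hb]
    rw [huniq] at hr'
    exact hrpr.ne_one (Nat.dvd_one.mp hr')

end Cfsg.Agent.Helper53.S74
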