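import Mathlib
import Cfsg.Prelude.Def_GeometricClasses
import Cfsg.Prelude.Def_Classical
import Cfsg.Agent.Helper65.S74Defs
import Cfsg.Agent.Helper96.OHAll
import Cfsg.Agent.Helper96.OHAux
import Cfsg.Agent.Helper35.TBXODD
import Cfsg.Agent.Helper35.TSSTDP
import Cfsg.Agent.Helper80.TSNONSCAL
import Cfsg.Agent.Helper35.S88OOBADELT
import Cfsg.Agent.Helper53.S74NDIVH

set_option autoImplicit false
set_option linter.unusedVariables false
set_option linter.unusedSectionVars false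

/-!
# Stage OOB (`s74_odd_bad`) of CALL S74 (row S5974; top architect helper65) - helper53 (double)

`r` odd `≠ p`, `i = ord_r(q)` odd, direction `⟹`, HYPERBOLIC `m`-spaces.  The bad element `x`
(`d / i` dual pairs, `Helper35.S88OO.oo_bad_elt`) has fixed space `C` of dimension
`(2 d) % (2 i)`.  By `hall` it fixes a hyperbolic `m`-space `W`; `2 i ∣ dim W - dim (W ⊓ C)`
(`Helper96.OHAll.oall_cdvd`), so `m = 2 i s + w` with `w ≤ dim C < 2 i`, i.e.
`m % (2 i) ≤ (2 d) % (2 i)`; and `s = 0` (that is `m < 2 i`, `m ≤ dim C`) is excluded by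
`hyp_ndiv_of_bad` and `hrΩ`.
-/

namespace Cfsg.Agent.Helper53.S74

open Module Cfsg Cfsg.Geo Cfsg.Agent.Helper65.S74
open Cfsg.Agent.Helper13.TIu Cfsg.Agent.Helper96.OH
open Cfsg.Agent.Helper35.S88OO (oo_bad_elt)
open scoped MatrixGroups

variable {F : Type*} [Field F] [Fintype F]

/-- OOB. -/
theorem s74_odd_bad {p : ℕ} [Fact p.Prime] [CharP F p] {q : ℕ} (hq : Fintype.card F = q)
    (d m : ℕ) (hd : 4 ≤ d) (hm : 2 ≤ m) (hme : Even m) (hmd : m < d) (r : ℕ) [Fact r.Prime]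
    (hr2 : 2 < r) (hrp : r ≠ p) (i : ℕ) (hi : i = orderOf (q : ZMod r)) (hodd : Odd i)
    (hrΩ : r ∣ Nat.card {W : Submodule F (Fin d ⊕ Fin d → F) // (Module.finrank F ↥W = m ∧
      (∀ u ∈ W, u ≠ 0 → ∃ v ∈ W, QuadraticMap.polar (Cfsg.quadFormPlus d F) u v ≠ 0) ∧
      ∃ U : Submodule F (Fin d ⊕ Fin d → F), U ≤ W ∧ 2 * Module.finrank F ↥U = m ∧
        ∀ u ∈ U, Cfsg.quadFormPlus d F u = 0)})
    (hall : AllHyp (Cfsg.quadFormPlus d F) r m) :
    2 * i ≤ m ∧ m % (2 * i) ≤ (2 * d) % (2 * i) := by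
  classical
  have hr : r.Prime := Fact.out
  subst hq
  obtain ⟨hQ, hplus⟩ := Cfsg.Agent.Helper35.TS5973.ts_std_plus (F := F) d
  have hcard : Fintype.card (Fin d ⊕ Fin d) = 2 * d := by
    rw [Fintype.card_sum, Fintype.card_fin]; ring
  have hrodd : Odd r := hr.odd_of_ne_two (by omega)
  have hrF : (r : F) ≠ 0 := Cfsg.Agent.Helper96.OHAux.oh_rF p r hrp
  have hc : 2 * i = if Even i then i else 2 * i := by
    rw [if_neg (Nat.not_even_iff_odd.2 hodd)]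
  have hipos : 0 < i := hodd.pos
  -- the bad element
  obtain ⟨x, hx, hxr, hxk⟩ := oo_bad_elt (F := F) p d (by omega) r hr2 hrp i hi hodd
  have hmodlt : (2 * d) % (2 * i) < 2 * i := Nat.mod_lt _ (by omega)
  have hTpres : OPres (Cfsg.quadFormPlus d F)
      (Matrix.toLin' (x : Matrix (Fin d ⊕ Fin d) (Fin d ⊕ Fin d) F)) := by
    intro v
    rw [Matrix.toLin'_apply]
    exact hx v v
  have hTr : (Matrix.toLin' (x : Matrix (Fin d ⊕ Fin d) (Fin d ⊕ Fin d) F)) ^ r = 1 := by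
    rw [Cfsg.Agent.Helper96.OHAux.oh_toLin'_pow_eq, ← Units.val_pow_eq_pow_val, hxr, Units.val_one,
      Matrix.toLin'_one]
    rfl
  -- the count in the `ONd` / `OPl` wording
  have hcardeq : Nat.card {W : Submodule F (Fin d ⊕ Fin d → F) // (Module.finrank F ↥W = m ∧
      (∀ u ∈ W, u ≠ 0 → ∃ v ∈ W, QuadraticMap.polar (Cfsg.quadFormPlus d F) u v ≠ 0) ∧
      ∃ U : Submodule F (Fin d ⊕ Fin d → F), U ≤ W ∧ 2 * Module.finrank F ↥U = m ∧
        ∀ u ∈ U, Cfsg.quadFormPlus d F u = 0)} =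
      Nat.card {W : Submodule F (Fin d ⊕ Fin d → F) // finrank F W = m ∧
        ONd (Cfsg.quadFormPlus d F) W ∧ OPl (Cfsg.quadFormPlus d F) W} :=
    Nat.card_congr (Equiv.subtypeEquivRight (fun W => hypM_iff (Cfsg.quadFormPlus d F) m W))
  rw [hcardeq] at hrΩ
  -- the hypothesis `hrΩ` excludes `m < 2 i`, `m ≤ (2 d) % (2 i)`
  have hnle : m < 2 * i → ¬ m ≤ (2 * d) % (2 * i) := by
    intro hlt hle
    refine hyp_ndiv_of_bad (Cfsg.quadFormPlus d F) hQ hplus d hcard r hr2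
      hrF i (2 * i) hi hc m hme (by omega) hlt _ hTpres hTr (by rw [hxk]; exact hmodlt) ?_ hrΩ
    rw [hxk]
    rcases Nat.lt_or_eq_of_le hle with h | h
    · exact Or.inl h
    · exact Or.inr ⟨h, Or.inl hodd⟩
  have hx1 : x ≠ 1 := by
    intro h1
    rw [h1, Units.val_one, Matrix.toLin'_one] at hxk
    have h2 : (LinearMap.id : (Fin d ⊕ Fin d → F) →ₗ[F] (Fin d ⊕ Fin d → F)) - 1 = 0 :=
      sub_self _
    rw [h2, LinearMap.ker_zero, finrank_top, Module.finrank_fintype_fun_eq_card, hcard] at hxk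
    omega
  have hxΩ : x ∈ omegaGL (Cfsg.quadFormPlus d F) :=
    Cfsg.Agent.Helper35.TB.tb_xodd _ hQ (by rw [hcard]; omega) x hx r hrodd hxr
  have hns := Cfsg.Agent.Helper80.TS5973.ts_nonscalar _ hQ r hrodd x hx hxr hx1
  obtain ⟨W, hW, hWT⟩ := (invHyp_iff _ _ _).mp
    (hall x hxΩ ⟨1, by rw [hxr, one_smul]; rfl⟩ hns)
  have hdvd := Cfsg.Agent.Helper96.OHAll.oall_cdvd (Cfsg.quadFormPlus d F) hQ _ hTpres r hr2 hrF
    hTr i (2 * i) hi hc W hWT hW.2.1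
  have hw1 : finrank F (W ⊓ LinearMap.ker (Matrix.toLin'
      (x : Matrix (Fin d ⊕ Fin d) (Fin d ⊕ Fin d) F) - 1) : Submodule F (Fin d ⊕ Fin d → F)) ≤
      finrank F W := Submodule.finrank_mono inf_le_left
  have hw2 : finrank F (W ⊓ LinearMap.ker (Matrix.toLin'
      (x : Matrix (Fin d ⊕ Fin d) (Fin d ⊕ Fin d) F) - 1) : Submodule F (Fin d ⊕ Fin d → F)) ≤
      finrank F (LinearMap.ker (Matrix.toLin'
        (x : Matrix (Fin d ⊕ Fin d) (Fin d ⊕ Fin d) F) - 1)) :=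
    Submodule.finrank_mono inf_le_right
  rw [hxk] at hw2
  rw [hW.1] at hw1 hdvd
  obtain ⟨w, hw⟩ : ∃ w : ℕ, w = finrank F (W ⊓ LinearMap.ker (Matrix.toLin'
      (x : Matrix (Fin d ⊕ Fin d) (Fin d ⊕ Fin d) F) - 1) : Submodule F (Fin d ⊕ Fin d → F)) :=
    ⟨_, rfl⟩
  rw [← hw] at hw1 hw2 hdvd
  obtain ⟨s, hs⟩ := hdvd
  have hmsw : m = 2 * i * s + w := by omega
  have hwlt2 : w < 2 * i := by omega
  have hmod : m % (2 * i) = w := by
    rw [hmsw, Nat.mul_add_mod]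
    exact Nat.mod_eq_of_lt hwlt2
  refine ⟨?_, by omega⟩
  by_contra hlt
  have hs0 : s = 0 := by
    by_contra hs0
    have h1 : 2 * i * 1 ≤ 2 * i * s := Nat.mul_le_mul_left _ (by omega)
    omega
  subst hs0
  exact hnle (by omega) (by omega)

end Cfsg.Agent.Helper53.S74
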