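import Mathlib
import Cfsg.Prelude.Def_GeometricClasses
import Cfsg.Prelude.Def_Classical
import Cfsg.Agent.Helper96.OHDefs

set_option autoImplicit false
set_option linter.unusedSectionVars false
set_option linter.unusedVariables false

/-!
# Sub-CALL S74T2 (helper65), helper53: dual families (own copy of GDUAL, with linear independence)
-/

namespace Cfsg.Agent.Helper53.S74T2

open Module Cfsg Cfsg.Geo Cfsg.Agent.Helper96.OH

variable {ι : Type} [Fintype ι] [DecidableEq ι] {F : Type*} [Field F] (Q : (ι → F) → F)

/-- a family `b` with a dual family `b'` inside its span is linearly independent and spans a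
nondegenerate subspace of dimension `n`. -/
theorem t2h53_gdual (hQ : IsNondegenerateQuadraticForm Q) {n : ℕ} (b b' : Fin n → (ι → F))
    (hb' : ∀ j, b' j ∈ Submodule.span F (Set.range b))
    (hdual : ∀ i j, QuadraticMap.polar Q (b i) (b' j) = if i = j then 1 else 0) :
    LinearIndependent F b ∧ ONd Q (Submodule.span F (Set.range b)) ∧
      finrank F ↥(Submodule.span F (Set.range b)) = n := by
  classical
  have hpair : ∀ (c : Fin n → F) (j : Fin n),
      QuadraticMap.polar Q (∑ i, c i • b i) (b' j) = c j := by
    intro c j
    rw [← pB_apply Q hQ, map_sum, LinearMap.sum_apply]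
    have h1 : ∀ i, (pB Q hQ) (c i • b i) (b' j) = c i * (if i = j then 1 else 0) := by
      intro i
      rw [map_smul, LinearMap.smul_apply, smul_eq_mul, pB_apply, hdual]
    rw [Finset.sum_congr rfl (fun i _ => h1 i)]
    simp
  have hli : LinearIndependent F b := by
    rw [Fintype.linearIndependent_iff]
    intro c hc j
    have h1 := hpair c j
    rw [hc] at h1
    rw [← h1, ← pB_apply Q hQ, map_zero, LinearMap.zero_apply]
  refine ⟨hli, ?_, ?_⟩
  · intro w hw hw0
    obtain ⟨c, rfl⟩ := (Submodule.mem_span_range_iff_exists_fun F).mp hw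
    have hex : ∃ j, c j ≠ 0 := by
      by_contra hcon
      push Not at hcon
      apply hw0
      apply Finset.sum_eq_zero
      intro i _
      rw [hcon i, zero_smul]
    obtain ⟨j, hj⟩ := hex
    have h1 := hpair c j
    refine ⟨⟨b' j, hb' j, ?_⟩, ⟨b' j, hb' j, ?_⟩⟩
    · rw [QuadraticMap.polar_comm, h1]
      exact hj
    · rw [h1]
      exact hj
  · rw [finrank_span_eq_card hli, Fintype.card_fin]

end Cfsg.Agent.Helper53.S74T2
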