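import Mathlib
import Cfsg.Prelude.Def_GeometricClasses
import Cfsg.Prelude.Def_Classical
import Cfsg.Agent.Helper96.OHDefs
import Cfsg.Agent.Helper53.S74T2Dual

set_option autoImplicit false
set_option linter.unusedSectionVars false
set_option linter.unusedVariables false

/-! # Sub-CALL S74T2 (helper65), piece BLK2 (helper53, double) -/

namespace Cfsg.Agent.Helper53.S74T2

open Module Cfsg Cfsg.Geo Cfsg.Agent.Helper96.OH
open scoped MatrixGroups

section general

variable {ι : Type} [Fintype ι] [DecidableEq ι] {F : Type*} [Field F] (Q : (ι → F) → F)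

/-- BLK2 [S]: `polar v (T v) = c ≠ 0`: the plane `P = span {v, T v}` is `T`-invariant and
nondegenerate of dimension `2`. -/
theorem t2_blk2 (hQ : IsNondegenerateQuadraticForm Q) (h2 : (2 : F) = 0)
    (T : Module.End F (ι → F)) (hT : OPres Q T) (hTT : T ^ 2 = 1)
    (K : Submodule F (ι → F)) (hKT : K.map T ≤ K) (v : ι → F) (hv : v ∈ K)
    (hne : QuadraticMap.polar Q v (T v) ≠ 0) :
    ∃ P : Submodule F (ι → F), P ≤ K ∧ P.map T ≤ P ∧ ONd Q P ∧ finrank F ↥P = 2 := by
  classical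
  have hTTv : ∀ u, T (T u) = u := by
    intro u
    have h1 : (T ^ 2) u = u := by rw [hTT]; rfl
    rw [pow_two, Module.End.mul_apply] at h1
    exact h1
  have hself : ∀ x, pB Q hQ x x = 0 := by
    intro x
    rw [pB_self, h2, zero_mul]
  have hp : ∀ x y, QuadraticMap.polar Q x y = pB Q hQ x y := fun x y => (pB_apply Q hQ x y).symm
  obtain ⟨c, hc⟩ : ∃ c : F, c = pB Q hQ v (T v) := ⟨_, rfl⟩
  have hc0 : c ≠ 0 := by rw [hc, ← hp]; exact hne
  have hc' : pB Q hQ (T v) v = c := by rw [pB_comm, hc]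
  have hTvK : T v ∈ K := hKT ⟨v, hv, rfl⟩
  have hdual : ∀ i j : Fin 2, QuadraticMap.polar Q (![v, T v] i) (![c⁻¹ • T v, c⁻¹ • v] j) =
      if i = j then 1 else 0 := by
    intro i j
    rw [hp]
    fin_cases i <;> fin_cases j <;>
      simp [map_smul, smul_eq_mul, hself, ← hc, hc', hc0]
  have hb' : ∀ j : Fin 2, (![c⁻¹ • T v, c⁻¹ • v] : Fin 2 → (ι → F)) j ∈
      Submodule.span F (Set.range (![v, T v] : Fin 2 → (ι → F))) := by
    intro j
    fin_cases j
    · exact Submodule.smul_mem _ _ (Submodule.subset_span ⟨1, rfl⟩)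
    · exact Submodule.smul_mem _ _ (Submodule.subset_span ⟨0, rfl⟩)
  obtain ⟨-, hnd, hdim⟩ := t2h53_gdual Q hQ ![v, T v] ![c⁻¹ • T v, c⁻¹ • v] hb' hdual
  refine ⟨Submodule.span F (Set.range (![v, T v] : Fin 2 → (ι → F))), ?_, ?_, hnd, hdim⟩
  · rw [Submodule.span_le]
    rintro _ ⟨i, rfl⟩
    fin_cases i
    · exact hv
    · exact hTvK
  · rw [Submodule.map_span_le]
    rintro _ ⟨i, rfl⟩
    fin_cases i
    · exact Submodule.subset_span ⟨1, rfl⟩
    · show T (T v) ∈ _
      rw [hTTv]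
      exact Submodule.subset_span ⟨0, rfl⟩

end general

end Cfsg.Agent.Helper53.S74T2
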