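import Mathlib

namespace Cfsg.Agent.Helper53.SGBT

set_option linter.unusedVariables false

theorem bt_aux {D : Type*} [Group D] [Finite D] (p : ℕ) [Fact p.Prime] (Z : Subgroup D)
    (hZp : ∀ x ∈ Z, x ^ p = 1) (hZab : ∀ x ∈ Z, ∀ y ∈ Z, x * y = y * x)
    (hself : ∀ x : D, ∀ z ∈ Z, z ≠ 1 → x * z * x⁻¹ ∈ Z → x ∈ Z)
    (z₀ : D) (hz₀ : z₀ ∈ Z) (hz₀1 : z₀ ≠ 1) :
    ∃ K : Subgroup D, (∀ g ∈ K, g ^ p = 1 → g = 1) ∧
      ∀ y : D, y ∈ K ∨ ∃ x : D, x * y * x⁻¹ ∈ Z := by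
  classical
  have hZpg : IsPGroup p Z := by
    intro ⟨x, hx⟩
    refine ⟨1, ?_⟩
    ext
    simpa using hZp x hx
  obtain ⟨P, hP⟩ := hZpg.exists_le_sylow
  have hPZ : (P : Subgroup D) = Z := by
    by_contra hne
    have : Group.IsNilpotent (P : Subgroup D) := P.isPGroup'.isNilpotent
    have hnc := Group.normalizerCondition_of_isNilpotent (G := (P : Subgroup D))
    have hlt' : Z.subgroupOf (P : Subgroup D) < ⊤ := by
      rw [lt_top_iff_ne_top]
      intro h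
      rw [Subgroup.subgroupOf_eq_top] at h
      exact hne (le_antisymm h hP)
    have h2 := hnc _ hlt'
    obtain ⟨x, hxN, hxZ⟩ := SetLike.exists_of_lt h2
    apply hxZ
    rw [Subgroup.mem_subgroupOf]
    apply hself (x : D) z₀ hz₀ hz₀1
    have := (Subgroup.mem_normalizer_iff.mp hxN ⟨z₀, hP hz₀⟩).mp
      (by rw [Subgroup.mem_subgroupOf]; exact hz₀)
    rw [Subgroup.mem_subgroupOf] at this
    simpa using this
  have hNC : Subgroup.normalizer ((P : Subgroup D) : Set D) ≤ Subgroup.centralizer (P : Set D) := by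
    intro x hx
    rw [Subgroup.mem_centralizer_iff]
    have hxZ : x ∈ Z := by
      apply hself x z₀ hz₀ hz₀1
      have := (Subgroup.mem_normalizer_iff.mp hx z₀).mp (by rw [hPZ]; exact hz₀)
      rw [hPZ] at this
      exact this
    intro y hy
    have hyZ : y ∈ Z := by rw [← hPZ]; exact hy
    exact hZab y hyZ x hxZ
  have hcompl := MonoidHom.ker_transferSylow_isComplement' P hNC
  obtain ⟨K, hK⟩ : ∃ K : Subgroup D, K = (MonoidHom.transferSylow P hNC).ker := ⟨_, rfl⟩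
  rw [← hK] at hcompl
  have hKn : K.Normal := by rw [hK]; infer_instance
  have hdisj : K ⊓ Z = ⊥ := by
    rw [← hPZ]
    exact hcompl.disjoint.eq_bot
  refine ⟨K, ?_, ?_⟩
  · intro g hg hgp
    have h1 : orderOf g ∣ p := orderOf_dvd_of_pow_eq_one hgp
    have h2 : orderOf g ∣ Nat.card K := by
      have := Subgroup.orderOf_dvd_natCard K hg
      exact this
    have h3 : (P : Subgroup D).index = Nat.card K := hcompl.index_eq_card
    have h4 : ¬ p ∣ (P : Subgroup D).index := P.not_dvd_index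
    rcases (Nat.dvd_prime (Fact.out : p.Prime)).mp h1 with h | h
    · exact orderOf_eq_one_iff.mp h
    · exfalso
      apply h4
      rw [h3, ← h]
      exact h2
  · intro y
    obtain ⟨⟨⟨k, hk⟩, ⟨z, hz⟩⟩, hkz, -⟩ := hcompl.existsUnique y
    simp only at hkz
    have hk : k ∈ K := hk
    have hz : z ∈ Z := by rw [← hPZ]; exact hz
    by_cases hz1 : z = 1
    · left
      rw [← hkz, hz1, mul_one]
      exact hk
    · right
      let f : K → K := fun a => ⟨(a : D)⁻¹ * (z * a * z⁻¹), K.mul_mem (K.inv_mem a.2) (hKn.conj_mem _ a.2 z)⟩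
      have hinj : Function.Injective f := by
        intro a b hab
        have hab' : (a : D)⁻¹ * (z * a * z⁻¹) = (b : D)⁻¹ * (z * b * z⁻¹) := congrArg Subtype.val hab
        have h5 : ((b : D) * (a : D)⁻¹) * z * ((b : D) * (a : D)⁻¹)⁻¹ = z := by
          have h6 : (a : D)⁻¹ * z * a = (b : D)⁻¹ * z * b := by
            have := congrArg (fun t => t * z) hab'
            simp only [mul_assoc, inv_mul_cancel, mul_one] at this
            simpa [mul_assoc] using this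
          calc ((b : D) * (a : D)⁻¹) * z * ((b : D) * (a : D)⁻¹)⁻¹
              = b * ((a : D)⁻¹ * z * a) * (b : D)⁻¹ := by group
            _ = z := by rw [h6]; group
        have h7 : (b : D) * (a : D)⁻¹ ∈ Z := hself _ z hz hz1 (by rw [h5]; exact hz)
        have h8 : (b : D) * (a : D)⁻¹ ∈ K ⊓ Z := ⟨K.mul_mem b.2 (K.inv_mem a.2), h7⟩
        rw [hdisj, Subgroup.mem_bot] at h8
        ext
        exact (mul_inv_eq_one.mp h8).symm
      have hsurj : Function.Surjective f := Finite.injective_iff_surjective.mp hinj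
      obtain ⟨a, ha⟩ := hsurj ⟨k, hk⟩
      have ha' : (a : D)⁻¹ * (z * a * z⁻¹) = k := congrArg Subtype.val ha
      refine ⟨a, ?_⟩
      rw [← hkz, ← ha']
      have : (a : D) * ((a : D)⁻¹ * (z * ↑a * z⁻¹) * z) * (a : D)⁻¹ = z := by group
      rw [this]
      exact hz

theorem burnside_tool {G : Type*} [Group G] [Finite G] (p : ℕ) [Fact p.Prime]
    (D Z : Subgroup G) (hZD : Z ≤ D)
    (hZp : ∀ x ∈ Z, x ^ p = 1) (hZab : ∀ x ∈ Z, ∀ y ∈ Z, x * y = y * x)
    (hself : ∀ x ∈ D, ∀ z ∈ Z, z ≠ 1 → x * z * x⁻¹ ∈ Z → x ∈ Z)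
    (z₀ : G) (hz₀ : z₀ ∈ Z) (hz₀1 : z₀ ≠ 1)
    (y₁ y₂ : G) (h1 : y₁ ∈ D) (h2 : y₂ ∈ D) (hpow : (y₁⁻¹ * y₂) ^ p = 1)
    (hc1 : ∀ x ∈ D, x * y₁ * x⁻¹ ∉ Z) (hc2 : ∀ x ∈ D, x * y₂ * x⁻¹ ∉ Z) : y₁ = y₂ := by
  obtain ⟨K, hK1, hK2⟩ := bt_aux (D := D) p (Z.subgroupOf D)
    (by
      rintro ⟨x, hx⟩ hxZ
      rw [Subgroup.mem_subgroupOf] at hxZ
      ext
      simpa using hZp x hxZ)
    (by
      rintro ⟨x, hx⟩ hxZ ⟨y, hy⟩ hyZ
      rw [Subgroup.mem_subgroupOf] at hxZ hyZ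
      ext
      simpa using hZab x hxZ y hyZ)
    (by
      rintro ⟨x, hx⟩ ⟨z, hz⟩ hzZ hz1 hconj
      rw [Subgroup.mem_subgroupOf] at hzZ hconj ⊢
      apply hself x hx z hzZ
      · intro h
        apply hz1
        ext
        exact h
      · simpa using hconj)
    ⟨z₀, hZD hz₀⟩ (by rw [Subgroup.mem_subgroupOf]; exact hz₀)
    (by
      intro h
      apply hz₀1
      exact congrArg Subtype.val h)
  have hy1 : (⟨y₁, h1⟩ : D) ∈ K := by
    rcases hK2 ⟨y₁, h1⟩ with h | ⟨⟨x, hx⟩, hxy⟩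
    · exact h
    · exfalso
      rw [Subgroup.mem_subgroupOf] at hxy
      exact hc1 x hx (by simpa using hxy)
  have hy2 : (⟨y₂, h2⟩ : D) ∈ K := by
    rcases hK2 ⟨y₂, h2⟩ with h | ⟨⟨x, hx⟩, hxy⟩
    · exact h
    · exfalso
      rw [Subgroup.mem_subgroupOf] at hxy
      exact hc2 x hx (by simpa using hxy)
  have h3 := hK1 _ (K.mul_mem (K.inv_mem hy1) hy2) (by
    ext
    simpa using hpow)
  have h4 : y₁⁻¹ * y₂ = 1 := by
    have := congrArg Subtype.val h3
    simpa using this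
  exact inv_mul_eq_one.mp h4

end Cfsg.Agent.Helper53.SGBT
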