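import Cfsg.Agent.Helper64.UCDefs

/-!
# CALL S2100 / S2398 (helper64), PIECE LT (helper53, doubling): the torus trick in the variable `t`.
-/

set_option autoImplicit false

namespace Cfsg.Agent.Helper53.STULT

open Cfsg Cfsg.Lie Cfsg.Agent.Helper36 Cfsg.Agent.Helper64.UC

section

variable {K : Type*} [Field K] {Γ : Type*} [Group Γ] {E : Type*} [Group E]

/-- `ψ` maps words in the lifts to words in the root elements. -/
theorem lt_map_sW {D : ChevalleyDatum} {x : ℕ → K → Γ} {ψ : E →* Γ} {y : ℕ → K → E}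
    (hmap : ∀ r < D.nroots, ∀ t : K, ψ (y r t) = x r t) (w : List (ℕ × K))
    (hw : ∀ p ∈ w, p.1 < D.nroots) : ψ (sW y w) = sW x w := by
  induction w with
  | nil => simp [sW_nil]
  | cons p w ih =>
    rw [sW_cons, sW_cons, map_mul, hmap p.1 (hw p List.mem_cons_self),
      ih (fun q hq => hw q (List.mem_cons_of_mem _ hq))]

/-- conjugation of a word by a lift of a torus element -/
theorem lt_conj_sW {D : ChevalleyDatum} {y : ℕ → K → E} (e : E) (χ : ℕ → K)
    (hconj : ∀ r < D.nroots, ∀ t : K, e * y r t * e⁻¹ = y r (χ r * t)) (w : List (ℕ × K))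
    (hw : ∀ p ∈ w, p.1 < D.nroots) :
    e * sW y w * e⁻¹ = sW y (w.map fun p => (p.1, χ p.1 * p.2)) := by
  induction w with
  | nil => simp [sW_nil]
  | cons p w ih =>
    rw [List.map_cons, sW_cons, sW_cons, ← hconj p.1 (hw p List.mem_cons_self),
      ← ih (fun q hq => hw q (List.mem_cons_of_mem _ hq))]
    group

/-- PIECE LT: relation (R2) for `(r, s)` from the additivity in `t`. -/
theorem good_of_add_t {D : ChevalleyDatum} {x : ℕ → K → Γ} {ψ : E →* Γ} {y : ℕ → K → E}
    (G : GSys D x) (F : DFacts D) (hψ : Function.Surjective ψ)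
    (hc : ψ.ker ≤ Subgroup.center E) (L : LSys D x ψ y) {r s : ℕ} (hv : VP D r s)
    {h : Γ} {χ : ℕ → K} (hd : Diag D.nroots x h χ) (hχs : χ s = 1) (hχr : χ r ≠ 1)
    (hχ : ∀ c ∈ D.commTerms r s, χ c.1 = χ r ^ c.2.2.1 * χ s ^ c.2.2.2)
    (hadd : ∀ t t' u : K, y r t * (sW y (D.commWord K r s t u))⁻¹ *
        (y r t' * (sW y (D.commWord K r s t' u))⁻¹) =
      y r (t + t') * (sW y (D.commWord K r s (t + t') u))⁻¹) :
    Good D y r s := by
  obtain ⟨hr, hs, hsr, hsn⟩ := hv
  have hroots : ∀ t u : K, ∀ p ∈ D.commWord K r s t u, p.1 < D.nroots := by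
    intro t u p hp
    unfold ChevalleyDatum.commWord at hp
    rw [List.mem_map] at hp
    obtain ⟨c, hcm, rfl⟩ := hp
    exact (F.padd r hr r hr s hs c hcm).1
  obtain ⟨e, he⟩ := hψ h
  have hconj : ∀ k < D.nroots, ∀ t : K, e * y k t * e⁻¹ = y k (χ k * t) :=
    L.equiv h χ hd e he
  have hword : ∀ t u : K, (D.commWord K r s t u).map (fun p => (p.1, χ p.1 * p.2)) =
      D.commWord K r s (χ r * t) u := by
    intro t u
    unfold ChevalleyDatum.commWord
    rw [List.map_map]
    apply List.map_congr_left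
    intro c hcm
    show (c.1, χ c.1 * ((c.2.1 : K) * (-t) ^ c.2.2.1 * u ^ c.2.2.2)) =
      (c.1, (c.2.1 : K) * (-(χ r * t)) ^ c.2.2.1 * u ^ c.2.2.2)
    rw [hχ c hcm, hχs, one_pow, mul_one]
    congr 1
    ring
  unfold Good
  intro t u
  obtain ⟨f, hf⟩ : ∃ f : K → E, ∀ t, f t =
      (y r t * (sW y (D.commWord K r s t u))⁻¹)⁻¹ * ((y s u)⁻¹ * y r t * y s u) :=
    ⟨_, fun _ => rfl⟩
  have hcen : ∀ t, f t ∈ Subgroup.center E := by
    intro t
    apply hc
    rw [MonoidHom.mem_ker, hf, map_mul, map_inv, map_mul, map_inv, map_mul, map_mul, map_inv,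
      lt_map_sW L.map _ (hroots t u), L.map r hr, L.map s hs]
    have hcm := G.comm r hr s hs hsr hsn t u
    have h1 : (x s u)⁻¹ * x r t * x s u = x r t * (sW x (D.commWord K r s t u))⁻¹ := by
      have h2 : x r t * x s u = x s u * x r t * (sW x (D.commWord K r s t u))⁻¹ := by
        rw [hcm]; group
      rw [mul_assoc, h2]; group
    rw [h1]; group
  have hcomm : ∀ t g, f t * g = g * f t := fun t g =>
    (Subgroup.mem_center_iff.1 (hcen t) g).symm
  have hfadd : ∀ t t', f (t + t') = f t * f t' := by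
    intro t t'
    have h1 : f (t + t') = (y r t' * (sW y (D.commWord K r s t' u))⁻¹)⁻¹ *
        (f t * ((y s u)⁻¹ * y r t' * y s u)) := by
      rw [hf (t + t'), hf t, ← hadd t t' u, ← L.add r t t']
      group
    rw [h1, hf t', ← mul_assoc, ← hcomm t, mul_assoc]
  have hf0 : f 0 = 1 := by
    have h1 := hfadd 0 0
    rw [add_zero] at h1
    have h2 : f 0 * f 0 = f 0 * 1 := by rw [mul_one]; exact h1.symm
    exact mul_left_cancel h2
  have hfneg : ∀ t, f (-t) = (f t)⁻¹ := by
    intro t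
    have h1 := hfadd (-t) t
    rw [neg_add_cancel, hf0] at h1
    exact eq_inv_of_mul_eq_one_left h1.symm
  have hfc : ∀ t, f (χ r * t) = f t := by
    intro t
    have hb : e * y s u * e⁻¹ = y s u := by rw [hconj s hs u, hχs, one_mul]
    have h1 : e * f t * e⁻¹ = f (χ r * t) := by
      rw [hf t, hf (χ r * t), ← hword t u, ← lt_conj_sW e χ hconj _ (hroots t u),
        ← hconj r hr t]
      conv_rhs => rw [← hb]
      group
    have h2 : e * f t * e⁻¹ = f t := by rw [← hcomm t e, mul_inv_cancel_right]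
    rw [← h1, h2]
  have hf1 : ∀ t, f t = 1 := by
    intro t
    have hne : χ r - 1 ≠ 0 := sub_ne_zero.2 hχr
    have h1 : ∀ t', f ((χ r - 1) * t') = 1 := by
      intro t'
      have h3 : (χ r - 1) * t' = χ r * t' + (-t') := by ring
      rw [h3, hfadd, hfc, hfneg, mul_inv_cancel]
    have h2 := h1 ((χ r - 1)⁻¹ * t)
    rwa [← mul_assoc, mul_inv_cancel₀ hne, one_mul] at h2
  have hfin := hf1 t
  rw [hf t] at hfin
  have h3 : (y s u)⁻¹ * y r t * y s u = y r t * (sW y (D.commWord K r s t u))⁻¹ :=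
    (inv_mul_eq_one.1 hfin).symm
  have h4 : y r t * y s u = y s u * (y r t * (sW y (D.commWord K r s t u))⁻¹) := by
    rw [← h3]; group
  calc y s u * y r t
      = y s u * (y r t * (sW y (D.commWord K r s t u))⁻¹) * sW y (D.commWord K r s t u) := by
        group
    _ = y r t * y s u * sW y (D.commWord K r s t u) := by rw [← h4]

end

end Cfsg.Agent.Helper53.STULT
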