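import Cfsg.Agent.Helper64.UCDefs

/-!
# CALL S2100 / S2398 (helper64), PIECE LU (helper53, doubling): the torus trick in the variable `u`.
-/

set_option autoImplicit false

namespace Cfsg.Agent.Helper53.STULU

open Cfsg Cfsg.Lie Cfsg.Agent.Helper36 Cfsg.Agent.Helper64.UC

section

variable {K : Type*} [Field K] {Γ : Type*} [Group Γ] {E : Type*} [Group E]

/-- `ψ` maps words in the lifts to words in the root elements. -/
theorem lu_map_sW {D : ChevalleyDatum} {x : ℕ → K → Γ} {ψ : E →* Γ} {y : ℕ → K → E}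
    (hmap : ∀ r < D.nroots, ∀ t : K, ψ (y r t) = x r t) (w : List (ℕ × K))
    (hw : ∀ p ∈ w, p.1 < D.nroots) : ψ (sW y w) = sW x w := by
  induction w with
  | nil => simp [sW_nil]
  | cons p w ih =>
    rw [sW_cons, sW_cons, map_mul, hmap p.1 (hw p List.mem_cons_self),
      ih (fun q hq => hw q (List.mem_cons_of_mem _ hq))]

/-- conjugation of a word by a lift of a torus element -/
theorem lu_conj_sW {D : ChevalleyDatum} {y : ℕ → K → E} (e : E) (χ : ℕ → K)
    (hconj : ∀ r < D.nroots, ∀ t : K, e * y r t * e⁻¹ = y r (χ r * t)) (w : List (ℕ × K))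
    (hw : ∀ p ∈ w, p.1 < D.nroots) :
    e * sW y w * e⁻¹ = sW y (w.map fun p => (p.1, χ p.1 * p.2)) := by
  induction w with
  | nil => simp [sW_nil]
  | cons p w ih =>
    rw [List.map_cons, sW_cons, sW_cons, ← hconj p.1 (hw p List.mem_cons_self),
      ← ih (fun q hq => hw q (List.mem_cons_of_mem _ hq))]
    group

/-- PIECE LU: relation (R2) for `(r, s)` from the additivity in `u` of its right-hand side. -/
theorem good_of_add_u {D : ChevalleyDatum} {x : ℕ → K → Γ} {ψ : E →* Γ} {y : ℕ → K → E}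
    (G : GSys D x) (F : DFacts D) (hψ : Function.Surjective ψ)
    (hc : ψ.ker ≤ Subgroup.center E) (L : LSys D x ψ y) {r s : ℕ} (hv : VP D r s)
    {h : Γ} {χ : ℕ → K} (hd : Diag D.nroots x h χ) (hχr : χ r = 1) (hχs : χ s ≠ 1)
    (hχ : ∀ c ∈ D.commTerms r s, χ c.1 = χ r ^ c.2.2.1 * χ s ^ c.2.2.2)
    (hadd : ∀ t u u' : K, y s u * sW y (D.commWord K r s t u) *
        (y s u' * sW y (D.commWord K r s t u')) =
      y s (u + u') * sW y (D.commWord K r s t (u + u'))) :
    Good D y r s := by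
  obtain ⟨hr, hs, hsr, hsn⟩ := hv
  have hroots : ∀ t u : K, ∀ p ∈ D.commWord K r s t u, p.1 < D.nroots := by
    intro t u p hp
    unfold ChevalleyDatum.commWord at hp
    rw [List.mem_map] at hp
    obtain ⟨c, hcm, rfl⟩ := hp
    exact (F.padd r hr r hr s hs c hcm).1
  obtain ⟨e, he⟩ := hψ h
  have hconj : ∀ k < D.nroots, ∀ t : K, e * y k t * e⁻¹ = y k (χ k * t) :=
    L.equiv h χ hd e he
  have hword : ∀ t u : K, (D.commWord K r s t u).map (fun p => (p.1, χ p.1 * p.2)) =
      D.commWord K r s t (χ s * u) := by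
    intro t u
    unfold ChevalleyDatum.commWord
    rw [List.map_map]
    apply List.map_congr_left
    intro c hcm
    show (c.1, χ c.1 * ((c.2.1 : K) * (-t) ^ c.2.2.1 * u ^ c.2.2.2)) =
      (c.1, (c.2.1 : K) * (-t) ^ c.2.2.1 * (χ s * u) ^ c.2.2.2)
    rw [hχ c hcm, hχr, one_pow, one_mul]
    congr 1
    ring
  unfold Good
  intro t u
  obtain ⟨f, hf⟩ : ∃ f : K → E, ∀ u, f u =
      (y s u * sW y (D.commWord K r s t u))⁻¹ * ((y r t)⁻¹ * y s u * y r t) :=
    ⟨_, fun _ => rfl⟩
  have hcen : ∀ u, f u ∈ Subgroup.center E := by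
    intro u
    apply hc
    rw [MonoidHom.mem_ker, hf, map_mul, map_inv, map_mul, map_mul, map_mul, map_inv,
      lu_map_sW L.map _ (hroots t u), L.map r hr, L.map s hs]
    have hcm := G.comm r hr s hs hsr hsn t u
    have h1 : (x r t)⁻¹ * x s u * x r t = x s u * sW x (D.commWord K r s t u) := by
      rw [mul_assoc, hcm]; group
    rw [h1]; group
  have hcomm : ∀ u g, f u * g = g * f u := fun u g =>
    (Subgroup.mem_center_iff.1 (hcen u) g).symm
  have hfadd : ∀ u u', f (u + u') = f u * f u' := by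
    intro u u'
    have h1 : f (u + u') = (y s u' * sW y (D.commWord K r s t u'))⁻¹ *
        (f u * ((y r t)⁻¹ * y s u' * y r t)) := by
      rw [hf (u + u'), hf u, ← hadd t u u', ← L.add s u u']
      group
    rw [h1, hf u', ← mul_assoc, ← hcomm u, mul_assoc]
  have hf0 : f 0 = 1 := by
    have h1 := hfadd 0 0
    rw [add_zero] at h1
    have h2 : f 0 * f 0 = f 0 * 1 := by rw [mul_one]; exact h1.symm
    exact mul_left_cancel h2
  have hfneg : ∀ u, f (-u) = (f u)⁻¹ := by
    intro u
    have h1 := hfadd (-u) u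
    rw [neg_add_cancel, hf0] at h1
    exact eq_inv_of_mul_eq_one_left h1.symm
  have hfc : ∀ u, f (χ s * u) = f u := by
    intro u
    have hb : e * y r t * e⁻¹ = y r t := by rw [hconj r hr t, hχr, one_mul]
    have h1 : e * f u * e⁻¹ = f (χ s * u) := by
      rw [hf u, hf (χ s * u), ← hword t u, ← lu_conj_sW e χ hconj _ (hroots t u),
        ← hconj s hs u]
      conv_rhs => rw [← hb]
      group
    have h2 : e * f u * e⁻¹ = f u := by rw [← hcomm u e, mul_inv_cancel_right]
    rw [← h1, h2]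
  have hf1 : ∀ u, f u = 1 := by
    intro u
    have hne : χ s - 1 ≠ 0 := sub_ne_zero.2 hχs
    have h1 : ∀ u', f ((χ s - 1) * u') = 1 := by
      intro u'
      have h3 : (χ s - 1) * u' = χ s * u' + (-u') := by ring
      rw [h3, hfadd, hfc, hfneg, mul_inv_cancel]
    have h2 := h1 ((χ s - 1)⁻¹ * u)
    rwa [← mul_assoc, mul_inv_cancel₀ hne, one_mul] at h2
  have hfin := hf1 u
  rw [hf u] at hfin
  have h3 : (y r t)⁻¹ * y s u * y r t = y s u * sW y (D.commWord K r s t u) :=
    (inv_mul_eq_one.1 hfin).symm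
  calc y s u * y r t
      = y r t * ((y r t)⁻¹ * y s u * y r t) := by group
    _ = y r t * y s u * sW y (D.commWord K r s t u) := by rw [h3, mul_assoc]

end

end Cfsg.Agent.Helper53.STULU
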