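import Cfsg.Agent.Helper64.UCDefs

/-!
# CALL S2100 / S2398 (helper64), PIECE S3 (helper53)
-/

set_option autoImplicit false

namespace Cfsg.Agent.Helper53.STUS3

open Cfsg Cfsg.Lie Cfsg.Agent.Helper36 Cfsg.Agent.Helper64.UC

section

variable {K : Type*} [Field K] {Γ : Type*} [Group Γ] {E : Type*} [Group E]

/-- the collection process for shape 3 -/
theorem s3_core (A B1 B2 B3 : K → E)
    (hA : ∀ t u : K, A t * A u = A (t + u)) (hB1 : ∀ t u : K, B1 t * B1 u = B1 (t + u))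
    (hB2 : ∀ t u : K, B2 t * B2 u = B2 (t + u)) (hB3 : ∀ t u : K, B3 t * B3 u = B3 (t + u))
    (N : K)
    (c1 : ∀ t u : K, B1 u * A t = A t * B1 u * B3 (N * (-t) * u))
    (c2 : ∀ t u : K, B2 u * A t = A t * B2 u)
    (c3 : ∀ t u : K, B3 u * A t = A t * B3 u)
    (c4 : ∀ t u : K, B2 u * B1 t = B1 t * B2 u)
    (c5 : ∀ t u : K, B3 u * B1 t = B1 t * B3 u)
    (c6 : ∀ t u : K, B3 u * B2 t = B2 t * B3 u)
    (v v' p1 p2 p3 q1 q2 q3 : K) :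
    A v * (B1 p1 * (B2 p2 * (B3 p3 * 1))) * (A v' * (B1 q1 * (B2 q2 * (B3 q3 * 1)))) =
      A (v + v') * (B1 (p1 + q1) * (B2 (p2 + q2) * (B3 (p3 + q3 + N * (-v') * p1) * 1))) := by
  have e : N * (-v') * p1 + (p3 + q3) = p3 + q3 + N * (-v') * p1 := by ring
  calc A v * (B1 p1 * (B2 p2 * (B3 p3 * 1))) * (A v' * (B1 q1 * (B2 q2 * (B3 q3 * 1))))
      = A v * B1 p1 * B2 p2 * (B3 p3 * A v') * B1 q1 * B2 q2 * B3 q3 := by group
    _ = A v * B1 p1 * (B2 p2 * A v') * B3 p3 * B1 q1 * B2 q2 * B3 q3 := by rw [c3]; group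
    _ = A v * (B1 p1 * A v') * B2 p2 * B3 p3 * B1 q1 * B2 q2 * B3 q3 := by rw [c2]; group
    _ = A v * A v' * B1 p1 * B3 (N * (-v') * p1) * B2 p2 * (B3 p3 * B1 q1) * B2 q2 * B3 q3 := by
        rw [c1]; group
    _ = A v * A v' * B1 p1 * B3 (N * (-v') * p1) * (B2 p2 * B1 q1) * B3 p3 * B2 q2 * B3 q3 := by
        rw [c5]; group
    _ = A v * A v' * B1 p1 * (B3 (N * (-v') * p1) * B1 q1) * B2 p2 * B3 p3 * B2 q2 * B3 q3 := by
        rw [c4]; group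
    _ = A v * A v' * B1 p1 * B1 q1 * B3 (N * (-v') * p1) * B2 p2 * (B3 p3 * B2 q2) * B3 q3 := by
        rw [c5]; group
    _ = A v * A v' * B1 p1 * B1 q1 * (B3 (N * (-v') * p1) * B2 p2) * B2 q2 * B3 p3 * B3 q3 := by
        rw [c6]; group
    _ = A v * A v' * B1 p1 * B1 q1 * B2 p2 * (B3 (N * (-v') * p1) * B2 q2) * B3 p3 * B3 q3 := by
        rw [c6]; group
    _ = (A v * A v') * (B1 p1 * B1 q1) * (B2 p2 * B2 q2) *
          (B3 (N * (-v') * p1) * (B3 p3 * B3 q3)) := by rw [c6]; group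
    _ = A (v + v') * (B1 (p1 + q1) * (B2 (p2 + q2) * (B3 (p3 + q3 + N * (-v') * p1) * 1))) := by
        rw [hA, hB1, hB2, hB3, hB3, e]; group

/-- PIECE S3: terms `(k₁; 1, 1), (k₂; 2, 1), (k₃; 1, 2)` with `[x_s, x_{k₁}] ⊆ x_{k₃}`. -/
theorem s3_res (D : ChevalleyDatum) (y : ℕ → K → E)
    (hy : ∀ (r : ℕ) (t u : K), y r t * y r u = y r (t + u)) {r s k1 k2 k3 : ℕ}
    (hsig : sig D r s = [(k1, 1, 1), (k2, 2, 1), (k3, 1, 2)]) (N : K)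
    (c1 : ∀ t u : K, y k1 u * y s t = y s t * y k1 u * y k3 (N * (-t) * u))
    (c2 : ∀ t u : K, y k2 u * y s t = y s t * y k2 u)
    (c3 : ∀ t u : K, y k3 u * y s t = y s t * y k3 u)
    (c4 : ∀ t u : K, y k2 u * y k1 t = y k1 t * y k2 u)
    (c5 : ∀ t u : K, y k3 u * y k1 t = y k1 t * y k3 u)
    (c6 : ∀ t u : K, y k3 u * y k2 t = y k2 t * y k3 u) :
    ∀ t u u' : K, ∃ P : K, y s u * sW y (D.commWord K r s t u) *
        (y s u' * sW y (D.commWord K r s t u')) =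
      y s (u + u') * sW y (D.commWord K r s t (u + u')) * y k3 P := by
  have key : ∃ C1 C2 C3 : ℤ,
      D.commTerms r s = [(k1, C1, 1, 1), (k2, C2, 2, 1), (k3, C3, 1, 2)] := by
    unfold sig at hsig
    generalize D.commTerms r s = l at hsig
    match l, hsig with
    | [], h => simp at h
    | [_], h => simp at h
    | [_, _], h => simp at h
    | [(a1, C1, i1, j1), (a2, C2, i2, j2), (a3, C3, i3, j3)], h =>
      simp only [List.map_cons, List.map_nil, List.cons.injEq, Prod.mk.injEq, and_true] at h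
      obtain ⟨⟨rfl, rfl, rfl⟩, ⟨rfl, rfl, rfl⟩, ⟨rfl, rfl, rfl⟩⟩ := h
      exact ⟨C1, C2, C3, rfl⟩
    | _ :: _ :: _ :: _ :: _, h => simp at h
  obtain ⟨C1, C2, C3, hct⟩ := key
  have hw : ∀ t u : K, sW y (D.commWord K r s t u) =
      y k1 ((C1 : K) * (-t) ^ 1 * u ^ 1) * (y k2 ((C2 : K) * (-t) ^ 2 * u ^ 1) *
        (y k3 ((C3 : K) * (-t) ^ 1 * u ^ 2) * 1)) := by
    intro t u
    simp only [ChevalleyDatum.commWord, hct, List.map_cons, List.map_nil, sW_cons, sW_nil]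
  intro t u u'
  refine ⟨(C3 : K) * (-t) ^ 1 * u ^ 2 + (C3 : K) * (-t) ^ 1 * u' ^ 2 +
    N * (-u') * ((C1 : K) * (-t) ^ 1 * u ^ 1) - (C3 : K) * (-t) ^ 1 * (u + u') ^ 2, ?_⟩
  rw [hw, hw, hw, s3_core (y s) (y k1) (y k2) (y k3) (hy s) (hy k1) (hy k2) (hy k3) N c1 c2 c3
    c4 c5 c6]
  have e1 : (C1 : K) * (-t) ^ 1 * u ^ 1 + (C1 : K) * (-t) ^ 1 * u' ^ 1 =
      (C1 : K) * (-t) ^ 1 * (u + u') ^ 1 := by ring
  have e2 : (C2 : K) * (-t) ^ 2 * u ^ 1 + (C2 : K) * (-t) ^ 2 * u' ^ 1 =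
      (C2 : K) * (-t) ^ 2 * (u + u') ^ 1 := by ring
  have e3 : (C3 : K) * (-t) ^ 1 * u ^ 2 + (C3 : K) * (-t) ^ 1 * u' ^ 2 +
      N * (-u') * ((C1 : K) * (-t) ^ 1 * u ^ 1) =
      (C3 : K) * (-t) ^ 1 * (u + u') ^ 2 + ((C3 : K) * (-t) ^ 1 * u ^ 2 +
        (C3 : K) * (-t) ^ 1 * u' ^ 2 + N * (-u') * ((C1 : K) * (-t) ^ 1 * u ^ 1) -
        (C3 : K) * (-t) ^ 1 * (u + u') ^ 2) := by ring
  rw [e1, e2, e3, ← hy k3]
  group

end

end Cfsg.Agent.Helper53.STUS3
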