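import Cfsg.Agent.Helper64.UCDefs

/-!
# CALL S2100 / S2398 (helper64), PIECE S4A (helper53)
-/

set_option autoImplicit false

namespace Cfsg.Agent.Helper53.STUS4A

open Cfsg Cfsg.Lie Cfsg.Agent.Helper36 Cfsg.Agent.Helper64.UC

section

variable {K : Type*} [Field K] {Γ : Type*} [Group Γ] {E : Type*} [Group E]

/-- the collection process for shape 4a -/
theorem s4a_core (A B1 B2 B3 B4 : K → E)
    (hA : ∀ t u : K, A t * A u = A (t + u)) (hB1 : ∀ t u : K, B1 t * B1 u = B1 (t + u))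
    (hB2 : ∀ t u : K, B2 t * B2 u = B2 (t + u)) (hB3 : ∀ t u : K, B3 t * B3 u = B3 (t + u))
    (hB4 : ∀ t u : K, B4 t * B4 u = B4 (t + u))
    (N M : K)
    (cN : ∀ t u : K, B3 u * A t = A t * B3 u * B4 (N * (-t) * u))
    (cM : ∀ t u : K, B2 u * B1 t = B1 t * B2 u * B4 (M * (-t) * u))
    (c1 : ∀ t u : K, B1 u * A t = A t * B1 u)
    (c2 : ∀ t u : K, B2 u * A t = A t * B2 u)
    (c4 : ∀ t u : K, B4 u * A t = A t * B4 u)
    (c13 : ∀ t u : K, B3 u * B1 t = B1 t * B3 u)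
    (c14 : ∀ t u : K, B4 u * B1 t = B1 t * B4 u)
    (c23 : ∀ t u : K, B3 u * B2 t = B2 t * B3 u)
    (c24 : ∀ t u : K, B4 u * B2 t = B2 t * B4 u)
    (c34 : ∀ t u : K, B4 u * B3 t = B3 t * B4 u)
    (v v' p1 p2 p3 p4 q1 q2 q3 q4 : K) :
    A v * (B1 p1 * (B2 p2 * (B3 p3 * (B4 p4 * 1)))) *
        (A v' * (B1 q1 * (B2 q2 * (B3 q3 * (B4 q4 * 1))))) =
      A (v + v') * (B1 (p1 + q1) * (B2 (p2 + q2) * (B3 (p3 + q3) *
        (B4 (p4 + q4 + N * (-v') * p3 + M * (-q1) * p2) * 1)))) := by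
  have e : M * (-q1) * p2 + (N * (-v') * p3 + (p4 + q4)) =
      p4 + q4 + N * (-v') * p3 + M * (-q1) * p2 := by ring
  calc A v * (B1 p1 * (B2 p2 * (B3 p3 * (B4 p4 * 1)))) *
        (A v' * (B1 q1 * (B2 q2 * (B3 q3 * (B4 q4 * 1)))))
      = A v * B1 p1 * B2 p2 * B3 p3 * (B4 p4 * A v') * B1 q1 * B2 q2 * B3 q3 * B4 q4 := by group
    _ = A v * B1 p1 * B2 p2 * (B3 p3 * A v') * B4 p4 * B1 q1 * B2 q2 * B3 q3 * B4 q4 := by
        rw [c4]; group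
    _ = A v * B1 p1 * (B2 p2 * A v') * B3 p3 * B4 (N * (-v') * p3) * B4 p4 * B1 q1 * B2 q2 *
          B3 q3 * B4 q4 := by rw [cN]; group
    _ = A v * (B1 p1 * A v') * B2 p2 * B3 p3 * B4 (N * (-v') * p3) * B4 p4 * B1 q1 * B2 q2 *
          B3 q3 * B4 q4 := by rw [c2]; group
    _ = A v * A v' * B1 p1 * B2 p2 * B3 p3 * B4 (N * (-v') * p3) * (B4 p4 * B1 q1) * B2 q2 *
          B3 q3 * B4 q4 := by rw [c1]; group
    _ = A v * A v' * B1 p1 * B2 p2 * B3 p3 * (B4 (N * (-v') * p3) * B1 q1) * B4 p4 * B2 q2 *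
          B3 q3 * B4 q4 := by rw [c14]; group
    _ = A v * A v' * B1 p1 * B2 p2 * (B3 p3 * B1 q1) * B4 (N * (-v') * p3) * B4 p4 * B2 q2 *
          B3 q3 * B4 q4 := by rw [c14]; group
    _ = A v * A v' * B1 p1 * (B2 p2 * B1 q1) * B3 p3 * B4 (N * (-v') * p3) * B4 p4 * B2 q2 *
          B3 q3 * B4 q4 := by rw [c13]; group
    _ = A v * A v' * B1 p1 * B1 q1 * B2 p2 * B4 (M * (-q1) * p2) * B3 p3 *
          B4 (N * (-v') * p3) * (B4 p4 * B2 q2) * B3 q3 * B4 q4 := by rw [cM]; group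
    _ = A v * A v' * B1 p1 * B1 q1 * B2 p2 * B4 (M * (-q1) * p2) * B3 p3 *
          (B4 (N * (-v') * p3) * B2 q2) * B4 p4 * B3 q3 * B4 q4 := by rw [c24]; group
    _ = A v * A v' * B1 p1 * B1 q1 * B2 p2 * B4 (M * (-q1) * p2) * (B3 p3 * B2 q2) *
          B4 (N * (-v') * p3) * B4 p4 * B3 q3 * B4 q4 := by rw [c24]; group
    _ = A v * A v' * B1 p1 * B1 q1 * B2 p2 * (B4 (M * (-q1) * p2) * B2 q2) * B3 p3 *
          B4 (N * (-v') * p3) * B4 p4 * B3 q3 * B4 q4 := by rw [c23]; group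
    _ = A v * A v' * B1 p1 * B1 q1 * B2 p2 * B2 q2 * B4 (M * (-q1) * p2) * B3 p3 *
          B4 (N * (-v') * p3) * (B4 p4 * B3 q3) * B4 q4 := by rw [c24]; group
    _ = A v * A v' * B1 p1 * B1 q1 * B2 p2 * B2 q2 * B4 (M * (-q1) * p2) * B3 p3 *
          (B4 (N * (-v') * p3) * B3 q3) * B4 p4 * B4 q4 := by rw [c34]; group
    _ = A v * A v' * B1 p1 * B1 q1 * B2 p2 * B2 q2 * (B4 (M * (-q1) * p2) * B3 p3) * B3 q3 *
          B4 (N * (-v') * p3) * B4 p4 * B4 q4 := by rw [c34]; group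
    _ = A v * A v' * B1 p1 * B1 q1 * B2 p2 * B2 q2 * B3 p3 * (B4 (M * (-q1) * p2) * B3 q3) *
          B4 (N * (-v') * p3) * B4 p4 * B4 q4 := by rw [c34]; group
    _ = (A v * A v') * (B1 p1 * B1 q1) * (B2 p2 * B2 q2) * (B3 p3 * B3 q3) *
          (B4 (M * (-q1) * p2) * (B4 (N * (-v') * p3) * (B4 p4 * B4 q4))) := by rw [c34]; group
    _ = A (v + v') * (B1 (p1 + q1) * (B2 (p2 + q2) * (B3 (p3 + q3) *
        (B4 (p4 + q4 + N * (-v') * p3 + M * (-q1) * p2) * 1)))) := by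
        rw [hA, hB1, hB2, hB3, hB4, hB4, hB4, e]; group

/-- PIECE S4A: terms `(k₁; 1, 1), (k₂; 2, 1), (k₃; 3, 1), (k₄; 3, 2)`. -/
theorem s4a_res (D : ChevalleyDatum) (y : ℕ → K → E)
    (hy : ∀ (r : ℕ) (t u : K), y r t * y r u = y r (t + u)) {r s k1 k2 k3 k4 : ℕ}
    (hsig : sig D r s = [(k1, 1, 1), (k2, 2, 1), (k3, 3, 1), (k4, 3, 2)]) (N M : K)
    (cN : ∀ t u : K, y k3 u * y s t = y s t * y k3 u * y k4 (N * (-t) * u))
    (cM : ∀ t u : K, y k2 u * y k1 t = y k1 t * y k2 u * y k4 (M * (-t) * u))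
    (c1 : ∀ t u : K, y k1 u * y s t = y s t * y k1 u)
    (c2 : ∀ t u : K, y k2 u * y s t = y s t * y k2 u)
    (c4 : ∀ t u : K, y k4 u * y s t = y s t * y k4 u)
    (c13 : ∀ t u : K, y k3 u * y k1 t = y k1 t * y k3 u)
    (c14 : ∀ t u : K, y k4 u * y k1 t = y k1 t * y k4 u)
    (c23 : ∀ t u : K, y k3 u * y k2 t = y k2 t * y k3 u)
    (c24 : ∀ t u : K, y k4 u * y k2 t = y k2 t * y k4 u)
    (c34 : ∀ t u : K, y k4 u * y k3 t = y k3 t * y k4 u) :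
    ∀ t u u' : K, ∃ P : K, y s u * sW y (D.commWord K r s t u) *
        (y s u' * sW y (D.commWord K r s t u')) =
      y s (u + u') * sW y (D.commWord K r s t (u + u')) * y k4 P := by
  have key : ∃ C1 C2 C3 C4 : ℤ,
      D.commTerms r s = [(k1, C1, 1, 1), (k2, C2, 2, 1), (k3, C3, 3, 1), (k4, C4, 3, 2)] := by
    unfold sig at hsig
    generalize D.commTerms r s = l at hsig
    match l, hsig with
    | [], h => simp at h
    | [_], h => simp at h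
    | [_, _], h => simp at h
    | [_, _, _], h => simp at h
    | [(a1, C1, i1, j1), (a2, C2, i2, j2), (a3, C3, i3, j3), (a4, C4, i4, j4)], h =>
      simp only [List.map_cons, List.map_nil, List.cons.injEq, Prod.mk.injEq, and_true] at h
      obtain ⟨⟨rfl, rfl, rfl⟩, ⟨rfl, rfl, rfl⟩, ⟨rfl, rfl, rfl⟩, ⟨rfl, rfl, rfl⟩⟩ := h
      exact ⟨C1, C2, C3, C4, rfl⟩
    | _ :: _ :: _ :: _ :: _ :: _, h => simp at h
  obtain ⟨C1, C2, C3, C4, hct⟩ := key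
  have hw : ∀ t u : K, sW y (D.commWord K r s t u) =
      y k1 ((C1 : K) * (-t) ^ 1 * u ^ 1) * (y k2 ((C2 : K) * (-t) ^ 2 * u ^ 1) *
        (y k3 ((C3 : K) * (-t) ^ 3 * u ^ 1) * (y k4 ((C4 : K) * (-t) ^ 3 * u ^ 2) * 1))) := by
    intro t u
    simp only [ChevalleyDatum.commWord, hct, List.map_cons, List.map_nil, sW_cons, sW_nil]
  intro t u u'
  refine ⟨(C4 : K) * (-t) ^ 3 * u ^ 2 + (C4 : K) * (-t) ^ 3 * u' ^ 2 +
    N * (-u') * ((C3 : K) * (-t) ^ 3 * u ^ 1) +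
    M * (-((C1 : K) * (-t) ^ 1 * u' ^ 1)) * ((C2 : K) * (-t) ^ 2 * u ^ 1) -
    (C4 : K) * (-t) ^ 3 * (u + u') ^ 2, ?_⟩
  rw [hw, hw, hw, s4a_core (y s) (y k1) (y k2) (y k3) (y k4) (hy s) (hy k1) (hy k2) (hy k3)
    (hy k4) N M cN cM c1 c2 c4 c13 c14 c23 c24 c34]
  have e1 : (C1 : K) * (-t) ^ 1 * u ^ 1 + (C1 : K) * (-t) ^ 1 * u' ^ 1 =
      (C1 : K) * (-t) ^ 1 * (u + u') ^ 1 := by ring
  have e2 : (C2 : K) * (-t) ^ 2 * u ^ 1 + (C2 : K) * (-t) ^ 2 * u' ^ 1 =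
      (C2 : K) * (-t) ^ 2 * (u + u') ^ 1 := by ring
  have e3 : (C3 : K) * (-t) ^ 3 * u ^ 1 + (C3 : K) * (-t) ^ 3 * u' ^ 1 =
      (C3 : K) * (-t) ^ 3 * (u + u') ^ 1 := by ring
  have e4 : (C4 : K) * (-t) ^ 3 * u ^ 2 + (C4 : K) * (-t) ^ 3 * u' ^ 2 +
      N * (-u') * ((C3 : K) * (-t) ^ 3 * u ^ 1) +
      M * (-((C1 : K) * (-t) ^ 1 * u' ^ 1)) * ((C2 : K) * (-t) ^ 2 * u ^ 1) =
      (C4 : K) * (-t) ^ 3 * (u + u') ^ 2 + ((C4 : K) * (-t) ^ 3 * u ^ 2 +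
        (C4 : K) * (-t) ^ 3 * u' ^ 2 + N * (-u') * ((C3 : K) * (-t) ^ 3 * u ^ 1) +
        M * (-((C1 : K) * (-t) ^ 1 * u' ^ 1)) * ((C2 : K) * (-t) ^ 2 * u ^ 1) -
        (C4 : K) * (-t) ^ 3 * (u + u') ^ 2) := by ring
  rw [e1, e2, e3, e4, ← hy k4]
  group

end

end Cfsg.Agent.Helper53.STUS4A
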