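import Mathlib
import Cfsg.Agent.Helper95.SpBNDefs

/-!
# CALL S2545 (helper95), PIECE CNE (helper53): `s x_α(1) s` is not upper triangular

The entry of `sigMat j * xaMat j 1 * sigMat j` at `(rb j, ra j)` is `1`, and `rk (ra j) < rk (rb j)`.
-/

set_option autoImplicit false

namespace Cfsg.Agent.Helper53.SpBN

open Matrix Cfsg.Agent.Helper13 Cfsg.Agent.Helper95.SpBN

variable {F : Type*} [Field F] {m : ℕ}

theorem cne_ra_ne_rb (j : Fin m) : ra j ≠ rb j := by
  unfold ra rb
  split_ifs with h
  · intro h1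
    have h2 := Sum.inl.inj h1
    have h3 := congrArg Fin.val h2
    simp at h3
  · exact Sum.inl_ne_inr

theorem cne_sigP (j : Fin m) : sigP j (ra j) = rb j := by
  unfold sigP
  split_ifs with h
  · have hrb : rb j = Sum.inl ⟨(j : ℕ) + 1, h⟩ := by unfold rb; rw [dif_pos h]
    have h1 : ra j ≠ tauP m (ra j) := by
      unfold ra; rw [tauP_inl]; exact Sum.inl_ne_inr
    have h2 : ra j ≠ tauP m (rb j) := by
      rw [hrb]; unfold ra; rw [tauP_inl]; exact Sum.inl_ne_inr
    rw [Equiv.Perm.mul_apply, Equiv.swap_apply_of_ne_of_ne h1 h2, Equiv.swap_apply_left]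
  · rw [Equiv.swap_apply_left]

theorem cne_sigD (j : Fin m) : sigD F j (ra j) = 1 := by
  unfold sigD
  split_ifs with h h'
  · rfl
  · exact absurd h' (by unfold ra; exact Sum.inl_ne_inr)
  · rfl

theorem cne_rk (j : Fin m) : rk (ra j) < rk (rb j) := by
  have hj := j.2
  unfold ra rb
  split_ifs with h
  · rw [rk_inl, rk_inl]
    simp
  · rw [rk_inl, rk_inr]
    omega

theorem cne_xa (j : Fin m) : xaMat j (1 : F) (ra j) (rb j) = 1 := by
  have hne := cne_ra_ne_rb j
  unfold xaMat xgMat
  split_ifs with h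
  · unfold xlMat
    rw [Matrix.add_apply, Matrix.one_apply_ne hne, Matrix.smul_apply, ← h,
      Matrix.single_apply_same]
    simp
  · have h2 : ¬ (tauP m (rb j) = ra j ∧ tauP m (ra j) = rb j) := fun h' => h h'.2.symm
    unfold xsMat
    rw [Matrix.add_apply, Matrix.one_apply_ne hne, Matrix.smul_apply, Matrix.sub_apply,
      Matrix.smul_apply, Matrix.single_apply_same, Matrix.single_apply, if_neg h2]
    simp

theorem cne_entry (j : Fin m) :
    (sigMat F j * xaMat j (1 : F) * sigMat F j :
      Matrix (Fin m ⊕ Fin m) (Fin m ⊕ Fin m) F) (rb j) (ra j) = 1 := by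
  have hs : ∀ k, sigMat F j (rb j) k = if k = ra j then 1 else 0 := by
    intro k
    unfold sigMat
    rw [monoMat_apply]
    by_cases hk : k = ra j
    · rw [hk, if_pos (cne_sigP j).symm, if_pos rfl, cne_sigD]
    · rw [if_neg hk, if_neg]
      intro h
      apply hk
      apply (sigP j).injective
      rw [← h, cne_sigP]
  have hs2 : ∀ l, sigMat F j l (ra j) = if l = rb j then 1 else 0 := by
    intro l
    unfold sigMat
    rw [monoMat_apply, cne_sigP, cne_sigD]
  rw [Matrix.mul_apply, Finset.sum_eq_single (rb j)]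
  · rw [hs2, if_pos rfl, mul_one, Matrix.mul_apply, Finset.sum_eq_single (ra j)]
    · rw [hs, if_pos rfl, one_mul, cne_xa]
    · intro k _ hk
      rw [hs, if_neg hk, zero_mul]
    · intro h; exact absurd (Finset.mem_univ _) h
  · intro l _ hl
    rw [hs2, if_neg hl, mul_zero]
  · intro h; exact absurd (Finset.mem_univ _) h

-- === PIECE CNE ===
theorem p_CNE (j : Fin m) : ¬ IsUp (sigMat F j * xaMat j 1 * sigMat F j) := by
  intro hUp
  have h := hUp (rb j) (ra j) (cne_rk j)
  rw [cne_entry] at h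
  exact one_ne_zero h

end Cfsg.Agent.Helper53.SpBN
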