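import Mathlib
import Cfsg.Agent.Helper95.SpBNDefs

/-!
# CALL S2545 (helper95), PIECE TVCONJ (helper53): conjugating a symplectic transvection
-/

set_option autoImplicit false

namespace Cfsg.Agent.Helper53.SpBN

open Matrix Cfsg.Agent.Helper13 Cfsg.Agent.Helper95.SpBN

variable {F : Type*} [Field F] {m : ℕ}

-- === PIECE TVCONJ ===
theorem p_TVCONJ (A : Matrix (Fin m ⊕ Fin m) (Fin m ⊕ Fin m) F)
    (hA : A ∈ symplecticGroup (Fin m) F) (v : Fin m ⊕ Fin m → F) (c : F) :
    A * Cfsg.sympTransvection m v c = Cfsg.sympTransvection m (A *ᵥ v) c * A := by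
  have hpres := (mem_symplecticGroup_iff_sympForm A).mp hA
  apply mulVec_ext
  intro x
  rw [← mulVec_mulVec, ← mulVec_mulVec, sympTransvection_mulVec, sympTransvection_mulVec,
    mulVec_add, mulVec_smul]
  have h1 : Cfsg.sympForm m F (A *ᵥ x) (A *ᵥ v) = Cfsg.sympForm m F x v := hpres x v
  rw [h1]

end Cfsg.Agent.Helper53.SpBN
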