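import Mathlib
import Cfsg.Agent.Helper49.JComp
import Cfsg.Agent.Helper51.PCore
import Cfsg.Agent.Helper53.PCenter

/-!
Helper53: PIECE PS of CALL S2951 round 2 (helper11).  Structure of `P = K T` where `T` is a
2-group of odd index in `P`, `K` has a normal 2-subgroup `Qk = C_K(W)` of index 3 for a four-group
`W ≤ K`: `C_P(W) = O_2(P)` has index 2 in `T`, `|P : T| = 3`, `P / O_2(P) ≅ S_3`.
-/

set_option autoImplicit false

namespace Cfsg.Agent.Helper53

open scoped commutatorElement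
open Cfsg.Agent.Helper49 (conj_mem_of_mem_normalizer conj_inv_mem_of_mem_normalizer four_enum
  four_conj four_fix exists_mul_of_mem_sup mem_normalizer_of_forall_conj)

variable {G : Type*} [Group G]

/-- a 2-subgroup of `P` normalized by a 2-subgroup `T` of odd index lies in `T` -/
theorem ps_le_of_odd_index [Finite G] {P T R : Subgroup G} (hT : IsPGroup 2 T) (hTP : T ≤ P)
    (hSyl : Odd (T.relIndex P)) (hR : IsPGroup 2 R) (hRP : R ≤ P)
    (hTR : T ≤ Subgroup.normalizer (R : Set G)) : R ≤ T := by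
  have h2 : IsPGroup 2 ↥(R ⊔ T) := IsPGroup.to_sup_of_normal_left' hR hT hTR
  have hle : R ⊔ T ≤ P := sup_le hRP hTP
  have hmul := Subgroup.relIndex_mul_relIndex T (R ⊔ T) P le_sup_right hle
  have hodd : Odd (T.relIndex (R ⊔ T)) := by
    rw [← hmul] at hSyl
    exact (Nat.odd_mul.mp hSyl).1
  obtain ⟨n, hn⟩ := IsPGroup.iff_card.mp h2
  have hdvd : T.relIndex (R ⊔ T) ∣ 2 ^ n := hn ▸ Subgroup.relIndex_dvd_card T (R ⊔ T)
  obtain ⟨k, -, hk⟩ := (Nat.dvd_prime_pow Nat.prime_two).mp hdvd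
  have hk0 : k = 0 := by
    by_contra hk0
    rw [hk] at hodd
    exact (Nat.not_even_iff_odd.mpr hodd) ((Nat.even_pow).mpr ⟨even_two, hk0⟩)
  rw [hk0, pow_zero] at hk
  exact le_sup_left.trans (Subgroup.relIndex_eq_one.mp hk)

/-- a 2-group `D` between `Q` and `K` with `|K : Q| = 3` equals `Q` -/
theorem ps_le_of_index_three [Finite G] {Q D K : Subgroup G} (hD : IsPGroup 2 D) (hQD : Q ≤ D)
    (hDK : D ≤ K) (hidx : Q.relIndex K = 3) : D ≤ Q := by
  have hmul := Subgroup.relIndex_mul_relIndex Q D K hQD hDK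
  obtain ⟨n, hn⟩ := IsPGroup.iff_card.mp hD
  have hdvd : Q.relIndex D ∣ 2 ^ n := hn ▸ Subgroup.relIndex_dvd_card Q D
  obtain ⟨k, -, hk⟩ := (Nat.dvd_prime_pow Nat.prime_two).mp hdvd
  have h3 : Q.relIndex D ∣ 3 := by rw [← hidx, ← hmul]; exact dvd_mul_right _ _
  have hk0 : k = 0 := by
    by_contra hk0
    have : 2 ∣ 3 := (dvd_pow_self 2 hk0).trans (hk ▸ h3)
    omega
  rw [hk0, pow_zero] at hk
  exact Subgroup.relIndex_eq_one.mp hk

/-- a group of exponent two is abelian -/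
theorem ps_four_comm {W : Subgroup G} (hWe : ∀ w ∈ W, w * w = 1) :
    ∀ a ∈ W, ∀ b ∈ W, a * b = b * a := by
  intro a ha b hb
  have h1 := hWe (a * b) (W.mul_mem ha hb)
  have ha' : a⁻¹ = a := inv_eq_of_mul_eq_one_right (hWe a ha)
  have hb' : b⁻¹ = b := inv_eq_of_mul_eq_one_right (hWe b hb)
  calc a * b = (a * b)⁻¹ := (inv_eq_of_mul_eq_one_right h1).symm
    _ = b⁻¹ * a⁻¹ := mul_inv_rev a b
    _ = b * a := by rw [ha', hb']

theorem ps_sq_comm {k v w : G} (hw : w * w = 1) (hkw : k * w * k⁻¹ = w)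
    (hkv : k * v * k⁻¹ = w * v) : v * k ^ 2 = k ^ 2 * v := by
  have e1 : k * w = w * k := by
    have := hkw; rwa [mul_inv_eq_iff_eq_mul] at this
  have e2 : k * v = w * v * k := by
    have := hkv; rwa [mul_inv_eq_iff_eq_mul] at this
  symm
  calc k ^ 2 * v = k * (k * v) := by rw [pow_two, mul_assoc]
    _ = k * (w * v * k) := by rw [e2]
    _ = (k * w) * v * k := by simp only [mul_assoc]
    _ = w * (k * v) * k := by rw [e1]; simp only [mul_assoc]
    _ = (w * w) * v * k * k := by rw [e2]; simp only [mul_assoc]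
    _ = v * k ^ 2 := by rw [hw, one_mul, pow_two, mul_assoc]

/-- an element of `K` fixing a nontrivial element of the four-group `W` lies in `Qk = C_K(W)` -/
theorem ps_fix_mem [Finite G] {K W Qk : Subgroup G}
    (hKQ : K ≤ Subgroup.normalizer (Qk : Set G)) (hidx : Qk.relIndex K = 3)
    (hW4 : Nat.card W = 4) (hWe : ∀ w ∈ W, w * w = 1)
    (hKW : K ≤ Subgroup.normalizer (W : Set G))
    (hCKW : K ⊓ Subgroup.centralizer (W : Set G) = Qk)
    {k w : G} (hk : k ∈ K) (hw : w ∈ W) (hw1 : w ≠ 1) (hkw : k * w * k⁻¹ = w) : k ∈ Qk := by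
  have hnorm : (Qk.subgroupOf K).Normal := Subgroup.normal_subgroupOf_of_le_normalizer hKQ
  have h3 : k ^ 3 ∈ Qk := by
    have := Subgroup.pow_index_mem (Qk.subgroupOf K) (⟨k, hk⟩ : K)
    have hi : (Qk.subgroupOf K).index = 3 := hidx
    rw [hi, Subgroup.mem_subgroupOf] at this
    simpa using this
  have h2 : k ^ 2 ∈ Qk := by
    rw [← hCKW]
    refine Subgroup.mem_inf.mpr ⟨K.pow_mem hk 2, ?_⟩
    rw [Subgroup.mem_centralizer_iff]
    intro v hv
    have hkN := hKW hk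
    by_cases hkv : k * v * k⁻¹ = v
    · have e : k * v = v * k := by
        have := hkv; rwa [mul_inv_eq_iff_eq_mul] at this
      rw [pow_two, ← mul_assoc, ← e, mul_assoc, ← e, mul_assoc]
    · obtain ⟨e, -, -⟩ := four_conj hW4 hWe hkN hw hw1 hkw hv hkv
      exact ps_sq_comm (hWe w hw) hkw e
  have : k = k ^ 3 * (k ^ 2)⁻¹ := by group
  rw [this]; exact Qk.mul_mem h3 (Qk.inv_mem h2)

/-- PIECE PS -/
theorem p_struct [Finite G] (K T J W Qk : Subgroup G)
    (hT : IsPGroup 2 T) (hKn : T ≤ Subgroup.normalizer (K : Set G))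
    (hQk2 : IsPGroup 2 Qk) (hQkK : Qk ≤ K)
    (hQkn : Subgroup.normalizer (K : Set G) ≤ Subgroup.normalizer (Qk : Set G))
    (hidx : Qk.relIndex K = 3) (hSyl : Odd (T.relIndex (K ⊔ T)))
    (hJT : J ≤ T) (hJn : Subgroup.normalizer (T : Set G) ≤ Subgroup.normalizer (J : Set G))
    (hKJ : ⁅K, J⁆ = K)
    (hW4 : Nat.card W = 4) (hWe : ∀ w ∈ W, w * w = 1) (hWK : W ≤ K)
    (hKW : Subgroup.normalizer (K : Set G) ≤ Subgroup.normalizer (W : Set G))
    (hCKW : K ⊓ Subgroup.centralizer (W : Set G) = Qk) :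
    (K ⊔ T) ⊓ Subgroup.centralizer (W : Set G) ≤ T ∧
    (∀ R : Subgroup G, IsPGroup 2 R → R ≤ K ⊔ T → K ⊔ T ≤ Subgroup.normalizer (R : Set G) →
      R ≤ (K ⊔ T) ⊓ Subgroup.centralizer (W : Set G)) ∧
    ((K ⊔ T) ⊓ Subgroup.centralizer (W : Set G)).relIndex T = 2 ∧
    T.relIndex (K ⊔ T) = 3 ∧
    ((K ⊔ T) ⊓ Subgroup.centralizer (W : Set G)).relIndex (K ⊔ T) = 6 ∧
    ¬ ⁅K ⊔ T, K ⊔ T⁆ ≤ (K ⊔ T) ⊓ Subgroup.centralizer (W : Set G) ∧
    ¬ (K ⊔ T ≤ Subgroup.normalizer (T : Set G)) := by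
  have hKNK : K ≤ Subgroup.normalizer (K : Set G) := Subgroup.le_normalizer
  have hPNK : K ⊔ T ≤ Subgroup.normalizer (K : Set G) := sup_le hKNK hKn
  have hPNQ : K ⊔ T ≤ Subgroup.normalizer (Qk : Set G) := hPNK.trans hQkn
  have hPNW : K ⊔ T ≤ Subgroup.normalizer (W : Set G) := hPNK.trans hKW
  have hTP : T ≤ K ⊔ T := le_sup_right
  have hKP : K ≤ K ⊔ T := le_sup_left
  -- `Qk ≤ T`
  have hQT : Qk ≤ T := ps_le_of_odd_index hT hTP hSyl hQk2 (hQkK.trans hKP) (hTP.trans hPNQ)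
  -- `K ⊓ T ≤ Qk`
  have hKT : K ⊓ T ≤ Qk :=
    ps_le_of_index_three (hT.to_le inf_le_right) (le_inf hQkK hQT) inf_le_left hidx
  -- index 3
  have hidx3 : T.relIndex (K ⊔ T) = 3 := by
    have h := Cfsg.Agent.Helper51.relIndex_sup_eq_inf_relIndex T K hKn
    rw [sup_comm] at h
    rw [h]
    have e : T ⊓ K = Qk := le_antisymm (by rw [inf_comm]; exact hKT) (le_inf hQT hQkK)
    rw [e]; exact hidx
  -- `W` abelian, `W ≤ Qk ≤ T`
  have hWc := ps_four_comm hWe
  have hWQ : W ≤ Qk := by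
    rw [← hCKW]
    intro w hw
    refine Subgroup.mem_inf.mpr ⟨hWK hw, ?_⟩
    rw [Subgroup.mem_centralizer_iff]
    intro v hv
    exact hWc v hv w hw
  have hWT : W ≤ T := hWQ.trans hQT
  have hW1 : W ≠ ⊥ := by
    rintro rfl
    simp at hW4
  have : Fact (Nat.Prime 2) := ⟨Nat.prime_two⟩
  obtain ⟨w0, hw0, hw01, hw0c⟩ := exists_central_of_normalized hT hWT (hTP.trans hPNW) hW1
  have hTfix : ∀ t ∈ T, t * w0 * t⁻¹ = w0 := by
    intro t ht
    rw [hw0c t ht]; group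
  -- key: elements of `K` fixing a nontrivial element of `W` lie in `Qk`
  have hkey : ∀ k ∈ K, ∀ w ∈ W, w ≠ 1 → k * w * k⁻¹ = w → k ∈ Qk := fun k hk w hw hw1 hkw =>
    ps_fix_mem (hKNK.trans hQkn) hidx hW4 hWe (hKNK.trans hKW) hCKW hk hw hw1 hkw
  -- an element of `K` outside `Qk`
  have hexk : ∃ k ∈ K, k ∉ Qk := by
    by_contra hcon
    push Not at hcon
    have : Qk.relIndex K = 1 := Subgroup.relIndex_eq_one.mpr hcon
    omega
  -- `C ≤ T`
  have hCT : (K ⊔ T) ⊓ Subgroup.centralizer (W : Set G) ≤ T := by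
    intro c hc
    obtain ⟨hcP, hcW⟩ := Subgroup.mem_inf.mp hc
    obtain ⟨k, hk, t, ht, rfl⟩ := exists_mul_of_mem_sup hKn hcP
    have hc0 : w0 * (k * t) = (k * t) * w0 := Subgroup.mem_centralizer_iff.mp hcW w0 hw0
    have ht0 : t * w0 = w0 * t := hw0c t ht
    have hk0 : k * w0 * k⁻¹ = w0 := by
      have h2 : w0 * k = k * w0 := by
        have h1 : w0 * k * t = k * w0 * t := by
          rw [mul_assoc, hc0, mul_assoc, ht0, mul_assoc]
        exact mul_right_cancel h1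
      rw [← h2]; group
    exact T.mul_mem (hQT (hkey k hk w0 hw0 hw01 hk0)) ht
  -- `T` is not normal in `P`
  have hnot : ¬ (K ⊔ T ≤ Subgroup.normalizer (T : Set G)) := by
    intro hn
    have hKJn : K ≤ Subgroup.normalizer (J : Set G) := hKP.trans (hn.trans hJn)
    have hKJ' : ⁅K, J⁆ ≤ J := by
      rw [Subgroup.commutator_le]
      intro k hk j hj
      rw [commutatorElement_def]
      exact J.mul_mem (conj_mem_of_mem_normalizer (hKJn hk) hj) (J.inv_mem hj)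
    rw [hKJ] at hKJ'
    have hKQ : K ≤ Qk := fun k hk => hKT (Subgroup.mem_inf.mpr ⟨hk, hJT (hKJ' hk)⟩)
    have : Qk.relIndex K = 1 := Subgroup.relIndex_eq_one.mpr hKQ
    omega
  -- `C` is normal in `P`
  have hCnorm : K ⊔ T ≤ Subgroup.normalizer
      (((K ⊔ T) ⊓ Subgroup.centralizer (W : Set G) : Subgroup G) : Set G) := by
    apply mem_normalizer_of_forall_conj
    intro g hg x hx
    obtain ⟨hxP, hxW⟩ := Subgroup.mem_inf.mp hx
    refine Subgroup.mem_inf.mpr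
      ⟨(K ⊔ T).mul_mem ((K ⊔ T).mul_mem hg hxP) ((K ⊔ T).inv_mem hg), ?_⟩
    rw [Subgroup.mem_centralizer_iff]
    intro w hw
    have hw' : g⁻¹ * w * g ∈ W := conj_inv_mem_of_mem_normalizer (hPNW hg) hw
    have hcomm := Subgroup.mem_centralizer_iff.mp hxW _ hw'
    calc w * (g * x * g⁻¹) = g * ((g⁻¹ * w * g) * x) * g⁻¹ := by group
      _ = g * (x * (g⁻¹ * w * g)) * g⁻¹ := by rw [hcomm]
      _ = g * x * g⁻¹ * w := by group
  -- `T` does not centralize `W`
  have hTnc : ¬ T ≤ Subgroup.centralizer (W : Set G) := by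
    intro hTc
    have hTC : (K ⊔ T) ⊓ Subgroup.centralizer (W : Set G) = T :=
      le_antisymm hCT (le_inf hTP hTc)
    apply hnot
    have h := hCnorm
    rw [hTC] at h
    exact h
  -- a third element of `W`
  have hexv : ∃ v ∈ W, v ≠ 1 ∧ v ≠ w0 := by
    by_contra hcon
    push Not at hcon
    have hsub : (W : Set G) ⊆ {1, w0} := by
      intro x hx
      by_cases hx1 : x = 1
      · left; exact hx1
      · right; exact hcon x hx hx1
    have hcard : Nat.card W ≤ 2 := by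
      have h1 : Nat.card W = (W : Set G).ncard := rfl
      rw [h1]
      calc (W : Set G).ncard ≤ ({1, w0} : Set G).ncard :=
            Set.ncard_le_ncard hsub (Set.toFinite _)
        _ ≤ 2 := (Set.ncard_pair (Ne.symm hw01)).le
    omega
  obtain ⟨v, hv, hv1, hv0⟩ := hexv
  have hchar : ∀ t ∈ T, t * v * t⁻¹ = v → t ∈ Subgroup.centralizer (W : Set G) := by
    intro t ht htv
    have e1 : t * w0 = w0 * t := hw0c t ht
    have e2 : t * v = v * t := by
      have := htv; rwa [mul_inv_eq_iff_eq_mul] at this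
    rw [Subgroup.mem_centralizer_iff]
    intro x hx
    rcases four_enum hW4 hWe hw0 hv hw01 hv1 hv0 x hx with h | h | h | h
    · rw [h]; simp
    · rw [h]; exact e1.symm
    · rw [h]; exact e2.symm
    · rw [h, mul_assoc, ← e2, ← mul_assoc, ← e1, mul_assoc]
  have hchar2 : ∀ t ∈ T, t * v * t⁻¹ ≠ v → t * v * t⁻¹ = w0 * v := by
    intro t ht htv
    exact (four_conj hW4 hWe (hPNW (hTP ht)) hw0 hw01 (hTfix t ht) hv htv).1
  have hmemC : ∀ t ∈ T, (t ∈ (K ⊔ T) ⊓ Subgroup.centralizer (W : Set G) ↔ t * v * t⁻¹ = v) := by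
    intro t ht
    constructor
    · intro h
      have := Subgroup.mem_centralizer_iff.mp (Subgroup.mem_inf.mp h).2 v hv
      rw [mul_inv_eq_iff_eq_mul]; exact this.symm
    · intro h
      exact Subgroup.mem_inf.mpr ⟨hTP ht, hchar t ht h⟩
  have hw0v : w0 * v ≠ v := by
    intro h
    exact hw01 (mul_eq_right.mp h)
  have hidx2 : ((K ⊔ T) ⊓ Subgroup.centralizer (W : Set G)).relIndex T = 2 := by
    rw [Subgroup.relIndex_eq_two_iff]
    obtain ⟨a, haT, haC⟩ := SetLike.not_le_iff_exists.mp hTnc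
    have hav : a * v * a⁻¹ = w0 * v := by
      apply hchar2 a haT
      intro h
      exact haC (hchar a haT h)
    refine ⟨a, haT, fun b hb => ?_⟩
    rw [hmemC (b * a) (T.mul_mem hb haT), hmemC b hb]
    have e : b * a * v * (b * a)⁻¹ = b * (a * v * a⁻¹) * b⁻¹ := by group
    rw [e, hav]
    have e2 : b * (w0 * v) * b⁻¹ = w0 * (b * v * b⁻¹) := by
      have hb0 := hTfix b hb
      calc b * (w0 * v) * b⁻¹ = (b * w0 * b⁻¹) * (b * v * b⁻¹) := by group
        _ = w0 * (b * v * b⁻¹) := by rw [hb0]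
    rw [e2]
    by_cases hbv : b * v * b⁻¹ = v
    · right
      refine ⟨hbv, ?_⟩
      rw [hbv]; exact hw0v
    · left
      have hb2 := hchar2 b hb hbv
      refine ⟨?_, hbv⟩
      rw [hb2, ← mul_assoc, hWe w0 hw0, one_mul]
  -- maximality
  have hmax : ∀ R : Subgroup G, IsPGroup 2 R → R ≤ K ⊔ T →
      K ⊔ T ≤ Subgroup.normalizer (R : Set G) →
      R ≤ (K ⊔ T) ⊓ Subgroup.centralizer (W : Set G) := by
    intro R hR hRP hPR
    have hRT : R ≤ T := ps_le_of_odd_index hT hTP hSyl hR hRP (hTP.trans hPR)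
    intro r hr
    refine Subgroup.mem_inf.mpr ⟨hRP hr, ?_⟩
    by_contra hrc
    have hrT : r ∈ T := hRT hr
    have hrv : r * v * r⁻¹ ≠ v := fun h => hrc (hchar r hrT h)
    obtain ⟨k, hk, hkQ⟩ := hexk
    have hr' : k * r * k⁻¹ ∈ R := conj_mem_of_mem_normalizer (hPR (hKP hk)) hr
    have hfix := hTfix _ (hRT hr')
    have hw' : k⁻¹ * w0 * k ∈ W := conj_inv_mem_of_mem_normalizer (hPNW (hKP hk)) hw0
    have hrfix : r * (k⁻¹ * w0 * k) * r⁻¹ = k⁻¹ * w0 * k := by
      calc r * (k⁻¹ * w0 * k) * r⁻¹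
          = k⁻¹ * ((k * r * k⁻¹) * w0 * (k * r * k⁻¹)⁻¹) * k := by group
        _ = k⁻¹ * w0 * k := by rw [hfix]
    rcases four_fix hW4 hWe (hPNW (hTP hrT)) hw0 hw01 (hTfix r hrT) hv hrv _ hw' hrfix with h | h
    · apply hw01
      have e : w0 = k * (k⁻¹ * w0 * k) * k⁻¹ := by group
      rw [e, h]; group
    · apply hkQ
      have hk' : k⁻¹ ∈ Qk := by
        apply hkey k⁻¹ (K.inv_mem hk) w0 hw0 hw01
        rw [inv_inv]; exact h
      simpa using Qk.inv_mem hk'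
  -- the commutator subgroup
  have hcomm : ¬ ⁅K ⊔ T, K ⊔ T⁆ ≤ (K ⊔ T) ⊓ Subgroup.centralizer (W : Set G) := by
    intro hle
    apply hnot
    apply mem_normalizer_of_forall_conj
    intro g hg x hx
    have h1 : ⁅g, x⁆ ∈ T := hCT (hle (Subgroup.commutator_mem_commutator hg (hTP hx)))
    have e : g * x * g⁻¹ = ⁅g, x⁆ * x := by rw [commutatorElement_def]; group
    rw [e]; exact T.mul_mem h1 hx
  have h6 : ((K ⊔ T) ⊓ Subgroup.centralizer (W : Set G)).relIndex (K ⊔ T) = 6 := by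
    have h := Subgroup.relIndex_mul_relIndex _ T (K ⊔ T) hCT hTP
    rw [← h, hidx2, hidx3]
  exact ⟨hCT, hmax, hidx2, hidx3, h6, hcomm, hnot⟩

end Cfsg.Agent.Helper53
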