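import Mathlib
import Cfsg.Prelude.Def_GeometricClasses
import Cfsg.Agent.Helper71.T4Defs
import Cfsg.Agent.Helper97.OForm
import Cfsg.Agent.Helper96.T5Defs
import Cfsg.Agent.Helper4.T4CRCore

/-!
# CALL S5704 (helper96), PIECE T1U (helper53)

If `M ≤ O(Q)` contains the root elements and an element `1 + τ_u ⊗ S` with `S` not scalar, then
`S` is alternating and self-adjoint for `J₂`, and the commutator with `1 ⊗ t_x(1)` is
`1 + τ_u ⊗ dm J₂ x (S x)`; choosing `x` with `S x ∉ F x` gives the claim.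
-/

set_option autoImplicit false
set_option linter.unusedVariables false

namespace Cfsg.Agent.Helper53.T5T1U

open Matrix Cfsg Cfsg.Geo Cfsg.Agent.Helper71.T4 Cfsg.Agent.Helper96.T5
open scoped Kronecker

variable {F : Type*} [Field F] {a b : ℕ}

theorem t1u_mat_ext {n : ℕ} (A B : Matrix (Fin n) (Fin n) F) (h : ∀ w, A *ᵥ w = B *ᵥ w) :
    A = B := by
  apply Matrix.toLin'.injective
  apply LinearMap.ext
  intro w
  rw [Matrix.toLin'_apply, Matrix.toLin'_apply]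
  exact h w

/-- conjugating an alternating self-adjoint `S` by the transvection `t_x(1)` -/
theorem t1u_conj (J₂ : Matrix (Fin b) (Fin b) F) (halt₂ : ∀ w, bf J₂ w w = 0)
    (S : Matrix (Fin b) (Fin b) F)
    (hself : ∀ w w', bf J₂ (S *ᵥ w) w' = bf J₂ w (S *ᵥ w'))
    (hS : ∀ w, bf J₂ w (S *ᵥ w) = 0) (x : Fin b → F) :
    tv J₂ x 1 * tv J₂ x (-1) = 1 ∧
      tv J₂ x 1 * S * tv J₂ x (-1) = S + dm J₂ x (S *ᵥ x) := by
  have h1 : rk J₂ x x * rk J₂ x x = 0 := by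
    rw [rk_mul_rk, halt₂, zero_smul]
  have h2 : rk J₂ x x * S = rk J₂ x (S *ᵥ x) := by
    apply t1u_mat_ext
    intro w
    rw [← Matrix.mulVec_mulVec, rk_mulVec, rk_mulVec, hself]
  have h3 : S * rk J₂ x x = rk J₂ (S *ᵥ x) x := by
    apply t1u_mat_ext
    intro w
    rw [← Matrix.mulVec_mulVec, rk_mulVec, rk_mulVec, Matrix.mulVec_smul]
  have h4 : rk J₂ x (S *ᵥ x) * rk J₂ x x = 0 := by
    rw [rk_mul_rk, hS, zero_smul]
  constructor
  · unfold tv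
    rw [one_smul, neg_one_smul]
    have : (1 + rk J₂ x x) * (1 + -rk J₂ x x) = 1 - rk J₂ x x * rk J₂ x x := by noncomm_ring
    rw [this, h1, sub_zero]
  · unfold tv dm
    rw [one_smul, neg_one_smul]
    have : (1 + rk J₂ x x) * S * (1 + -rk J₂ x x) =
        S + rk J₂ x x * S - S * rk J₂ x x - rk J₂ x x * S * rk J₂ x x := by noncomm_ring
    rw [this, h2, h3, h4, sub_zero]
    abel

variable {J₁ : Matrix (Fin a) (Fin a) F} {J₂ : Matrix (Fin b) (Fin b) F}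
  {Q : (Fin a × Fin b → F) → F}

/-- PIECE T1U -/
theorem t1u (hT : TQ J₁ J₂ Q) (M : Subgroup (GL (Fin a × Fin b) F))
    (hMO : M ≤ isometryGroup F Q) (hR : HasR J₁ J₂ M) (h : ¬ NSU J₁ M) :
    ∃ (u : Fin a → F) (x y : Fin b → F), u ≠ 0 ∧ x ≠ 0 ∧ (∀ c : F, y ≠ c • x) ∧
      bf J₂ x y = 0 ∧ InM M (1 + rk J₁ u u ⊗ₖ dm J₂ x y) := by
  unfold NSU at h
  push Not at h
  obtain ⟨S, u, hu, hIn, hns⟩ := h
  -- `S` is alternating
  have hS : ∀ w, bf J₂ w (S *ᵥ w) = 0 := by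
    intro w
    obtain ⟨g, hgM, hg⟩ := hIn
    have hiso := (Cfsg.Agent.Helper97.Gen.mem_isometryGroup_iff Q g).mp (hMO hgM)
    obtain ⟨u', hu'⟩ := exists_bf_eq_one J₁ hT.det₁ u hu
    have hβ : bf J₁ u' u = -1 := by rw [bf_swap J₁ hT.alt₁, hu']
    have h1 := hiso (pt u' w)
    rw [hg, Matrix.add_mulVec, Matrix.one_mulVec, kron_mulVec_pt, rk_mulVec, hβ] at h1
    have h2 : Q (pt u' w + pt ((-1 : F) • u) (S *ᵥ w)) =
        Q (pt u' w) + Q (pt ((-1 : F) • u) (S *ᵥ w)) +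
          QuadraticMap.polar Q (pt u' w) (pt ((-1 : F) • u) (S *ᵥ w)) := by
      unfold QuadraticMap.polar
      ring
    rw [h2, hT.pure, hT.pure, hT.polar, bf_kron_pt, bf_smul_right, hβ] at h1
    linear_combination h1
  -- `S` is self-adjoint
  have hself : ∀ w w', bf J₂ (S *ᵥ w) w' = bf J₂ w (S *ᵥ w') := by
    intro w w'
    have h1 := hS (w + w')
    rw [Matrix.mulVec_add, bf_add_left, bf_add_right, bf_add_right, hS w, hS w'] at h1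
    rw [bf_swap J₂ hT.alt₂ (S *ᵥ w) w']
    linear_combination -h1
  -- a vector which is not an eigenvector
  have hb : 1 ≤ b := by
    by_contra hb
    have hb0 : b = 0 := by omega
    subst hb0
    exact hns 0 (by ext i; exact i.elim0)
  obtain ⟨x, α, hα1, hα2⟩ := Cfsg.Agent.Helper4.T4CRCore.exists_of_not_scalar hb S
    (fun ⟨c, hc⟩ => hns c hc)
  have hx : x ≠ 0 := by
    rintro rfl
    rw [Matrix.mulVec_zero, dotProduct_zero] at hα2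
    exact zero_ne_one hα2
  have hind : ∀ c : F, S *ᵥ x ≠ c • x := by
    intro c hc
    rw [hc, dotProduct_smul, hα1, smul_zero] at hα2
    exact zero_ne_one hα2
  obtain ⟨htt, htS⟩ := t1u_conj J₂ hT.alt₂ S hself hS x
  have hττ : rk J₁ u u * rk J₁ u u = 0 := by
    rw [rk_mul_rk, hT.alt₁, zero_smul]
  have hN2 : (rk J₁ u u ⊗ₖ S) * (rk J₁ u u ⊗ₖ S) = 0 := by
    rw [← Matrix.mul_kronecker_mul, hττ, Matrix.zero_kronecker]
  have hND : (rk J₁ u u ⊗ₖ dm J₂ x (S *ᵥ x)) * (rk J₁ u u ⊗ₖ S) = 0 := by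
    rw [← Matrix.mul_kronecker_mul, hττ, Matrix.zero_kronecker]
  have hinv : (1 + rk J₁ u u ⊗ₖ S) * (1 - rk J₁ u u ⊗ₖ S) = 1 := by
    have : (1 + rk J₁ u u ⊗ₖ S) * (1 - rk J₁ u u ⊗ₖ S) =
        1 - (rk J₁ u u ⊗ₖ S) * (rk J₁ u u ⊗ₖ S) := by noncomm_ring
    rw [this, hN2, sub_zero]
  have hXgX : ((1 : Matrix (Fin a) (Fin a) F) ⊗ₖ tv J₂ x 1) * (1 + rk J₁ u u ⊗ₖ S) *
      ((1 : Matrix (Fin a) (Fin a) F) ⊗ₖ tv J₂ x (-1)) =
      1 + rk J₁ u u ⊗ₖ (S + dm J₂ x (S *ᵥ x)) := by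
    rw [Matrix.mul_add, Matrix.mul_one, Matrix.add_mul, ← Matrix.mul_kronecker_mul,
      ← Matrix.mul_kronecker_mul, ← Matrix.mul_kronecker_mul, Matrix.one_mul, Matrix.one_mul,
      Matrix.mul_one, htt, htS, Matrix.one_kronecker_one]
  have hfin : (1 + rk J₁ u u ⊗ₖ (S + dm J₂ x (S *ᵥ x))) * (1 - rk J₁ u u ⊗ₖ S) =
      1 + rk J₁ u u ⊗ₖ dm J₂ x (S *ᵥ x) := by
    rw [Matrix.kronecker_add]
    have : (1 + (rk J₁ u u ⊗ₖ S + rk J₁ u u ⊗ₖ dm J₂ x (S *ᵥ x))) * (1 - rk J₁ u u ⊗ₖ S) =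
        1 + rk J₁ u u ⊗ₖ dm J₂ x (S *ᵥ x) - (rk J₁ u u ⊗ₖ S) * (rk J₁ u u ⊗ₖ S) -
          (rk J₁ u u ⊗ₖ dm J₂ x (S *ᵥ x)) * (rk J₁ u u ⊗ₖ S) := by noncomm_ring
    rw [this, hN2, hND, sub_zero, sub_zero]
  have hg' : InM M (1 - rk J₁ u u ⊗ₖ S) := InM.inv hIn hinv
  have hprod := (((hR.1 x 1).mul hIn).mul (hR.1 x (-1))).mul hg'
  rw [hXgX, hfin] at hprod
  exact ⟨u, x, S *ᵥ x, hu, hx, hind, hS x, hprod⟩

end Cfsg.Agent.Helper53.T5T1U
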