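import Mathlib
import Cfsg.Agent.Helper97.TMDefs
import Cfsg.Agent.Helper97.TMG5MV

set_option autoImplicit false

/-!
CALL S2415 (helper97), piece G5A (helper53): `g5 1 1 i` has order dividing five in
characteristic two.
-/

universe u

namespace Cfsg.Agent.Helper53

open Cfsg Matrix Cfsg.Agent.Helper45 Cfsg.Agent.Helper98 Cfsg.Agent.Helper97.TM
open Cfsg.Agent.Helper97

variable {k : ℕ} {F : Type u} [Field F]

/-- G5A -/
theorem tm_g5_pow_A [CharP F 2] (i : Fin k) : (g5 (k := k) (1 : F) 1 i) ^ 5 = 1 := by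
  have hp : (2 : F) = 0 := CharTwo.two_eq_zero
  apply ext_mv
  intro x
  rw [pow_succ, pow_succ, pow_succ, pow_succ, pow_one, mv_mul, mv_mul, mv_mul, mv_mul, mv_one]
  funext idx
  rcases idx with (j | j) | j
  · by_cases hj : j = i
    · subst hj
      simp only [tm_g5_ee, tm_g5_ff, tm_g5_z0, tm_g5_z1]
      linear_combination (21 * x (Sum.inl (Sum.inl j)) - 8 * x (Sum.inl (Sum.inr j))
        - 26 * x (Sum.inr 0) - 10 * x (Sum.inr 1)) * hp
    · simp only [tm_g5_ee_other (1 : F) 1 i j hj]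
  · by_cases hj : j = i
    · subst hj
      simp only [tm_g5_ee, tm_g5_ff, tm_g5_z0, tm_g5_z1]
      linear_combination (-24 * x (Sum.inl (Sum.inl j)) + 9 * x (Sum.inl (Sum.inr j))
        + 30 * x (Sum.inr 0) + 12 * x (Sum.inr 1)) * hp
    · simp only [tm_g5_ff_other (1 : F) 1 i j hj]
  · obtain rfl | rfl : j = 0 ∨ j = 1 := by fin_cases j <;> simp
    · simp only [tm_g5_ee, tm_g5_ff, tm_g5_z0, tm_g5_z1]
      linear_combination (-16 * x (Sum.inl (Sum.inl i)) + 6 * x (Sum.inl (Sum.inr i))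
        + 19 * x (Sum.inr 0) + 8 * x (Sum.inr 1)) * hp
    · simp only [tm_g5_ee, tm_g5_ff, tm_g5_z0, tm_g5_z1]
      linear_combination (26 * x (Sum.inl (Sum.inl i)) - 10 * x (Sum.inl (Sum.inr i))
        - 32 * x (Sum.inr 0) - 13 * x (Sum.inr 1)) * hp

end Cfsg.Agent.Helper53
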